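import Cfsg.Agent.Lib.FischerLarge.Setting
import Cfsg.Agent.Lib.Fischer2.LargePairQuotient
import Cfsg.Agent.Lib.LargeSubgroups.ExtraspecialPlus

/-!
FischerLarge: conjugates of the central involution inside `Q` lie over the long orbit; their
stabilisers.
-/

set_option autoImplicit false
set_option linter.style.haveILetI false
set_option linter.unusedSectionVars false

namespace CfsgLib.FischerLarge

open scoped Classical
open Cfsg

universe u

variable {G : Type u} [Group G] [Finite G] {z : G} {P : Type} [Group P] [Finite P] {E S : Subgroup P}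
variable {Q M : Subgroup (Cz z)} [hQn : Q.Normal] {V : Type u} [AddCommGroup V] [Module K4 V] [Finite V]
variable {L : Subgroup (V ≃ₗ[K4] V)} {f : L →* P} {h : V → V → K4} {π : Cz z → V}

namespace Frame

variable (F : Frame Q M L f h π)
include F

theorem add_self (v : V) : v + v = 0 := by
  have := add_smul (1 : K4) 1 v
  rw [K4.add_self, zero_smul, one_smul] at this
  exact this.symm

theorem map_one : π 1 = 0 := (F.ker 1 Q.one_mem).2 (Or.inl rfl)

theorem map_inv {a : Cz z} (ha : a ∈ Q) : π a⁻¹ = π a := by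
  have h1 := F.map_mul a ha _ (inv_mem ha)
  rw [mul_inv_cancel, F.map_one] at h1
  calc π a⁻¹ = π a⁻¹ + (π a + π a) := by rw [F.add_self (π a), add_zero]
    _ = π a + (π a + π a⁻¹) := by abel
    _ = π a := by rw [← h1, add_zero]

theorem fiber {a b : Cz z} (ha : a ∈ Q) (hb : b ∈ Q) (hab : π a = π b) :
    b = a ∨ (b : G) = (a : G) * z := by
  have h0 : π (a⁻¹ * b) = 0 := by rw [F.map_mul _ (inv_mem ha) b hb, F.map_inv ha, hab, F.add_self]
  rcases (F.ker _ (mul_mem (inv_mem ha) hb)).1 h0 with e | e <;>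
    rw [Subgroup.coe_mul, Subgroup.coe_inv, inv_mul_eq_iff_eq_mul] at e
  · exact Or.inl (Subtype.ext (e.trans (mul_one _)))
  · exact Or.inr e

/-- An element of `Q` over a non-zero class is moved to its product with the central involution. -/
theorem exists_swap {b : Cz z} (hb : b ∈ Q) (hb0 : π b ≠ 0) :
    ∃ q ∈ Q, ((q * b * q⁻¹ : Cz z) : G) = (b : G) * z := by
  obtain ⟨v, hv⟩ : ∃ v, h (π b) v ≠ 0 := by
    by_contra hno
    push Not at hno
    exact hb0 (F.cover.nondeg _ hno)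
  obtain ⟨k, hk⟩ := (by decide : ∀ a : K4, a ≠ 0 → ∃ k, (K4.conj k * a).b1 = true) _ hv
  obtain ⟨q, hq, hqv⟩ := F.surj (k • v)
  have hne : b * q ≠ q * b := fun e => by
    have := (F.comm b hb q hq).1 e
    rw [hqv, F.cover.smul_right, hk] at this
    exact absurd this (by decide)
  have hc : q * b * q⁻¹ ∈ Q := mul_mem (mul_mem hq hb) (inv_mem hq)
  refine ⟨q, hq, (F.fiber hb hc ?_).resolve_left fun e => hne ?_⟩
  · rw [F.map_mul _ (mul_mem hq hb) _ (inv_mem hq), F.map_mul q hq b hb, F.map_inv hq]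
    calc π b = π b + (π q + π q) := by rw [F.add_self (π q), add_zero]
      _ = _ := by abel
  · exact (mul_inv_eq_iff_eq_mul.1 e).symm

theorem map_conj_eq {c a : Cz z} (hc : c ∈ Q) (ha : a ∈ Q) : π (c * a * c⁻¹) = π a := by
  rw [F.map_mul _ (mul_mem hc ha) _ (inv_mem hc), F.map_mul c hc a ha, F.map_inv hc]
  calc π c + π a + π c = (π c + π c) + π a := by abel
    _ = π a := by rw [F.add_self, zero_add]

/-- Elements over related classes are conjugate. -/
theorem exists_conj {a b : Cz z} (ha : a ∈ Q) (hb : b ∈ Q) (hb0 : π b ≠ 0) (hab : π b ∈ orb L (π a)) :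
    ∃ c : Cz z, c * a * c⁻¹ = b := by
  obtain ⟨g, hg, hgv⟩ := hab
  obtain ⟨m, -, hm⟩ := F.ofL g hg
  have h1 : π (m * a * m⁻¹) = π b := (hm a ha).trans hgv
  rcases F.fiber (hQn.conj_mem a ha m) hb h1 with e | e
  · exact ⟨m, e.symm⟩
  · obtain ⟨q, hq, hqe⟩ := F.exists_swap (hQn.conj_mem a ha m) (by rw [h1]; exact hb0)
    refine ⟨q * m, ?_⟩
    rw [show b = q * (m * a * m⁻¹) * q⁻¹ from Subtype.ext (e.trans hqe.symm)]
    group

theorem ne_zero_of {a : Cz z} (ha : a ∈ Q) (h1 : (a : G) ≠ 1) (hz : (a : G) ≠ z) : π a ≠ 0 := fun e =>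
  ((F.ker a ha).1 e).elim h1 hz

theorem sq_iff {a : Cz z} (ha : a ∈ Q) : h (π a) (π a) = 0 ↔ a * a = 1 := F.sq a ha

/-- Orbit lengths are preserved by the centraliser. -/
theorem ncard_orb_conj [M.Normal] {a : Cz z} (ha : a ∈ Q) (c : Cz z) :
    (orb L (π (c * a * c⁻¹))).ncard = (orb L (π a)).ncard := by
  obtain ⟨e, he, -⟩ := F.semi c
  rw [← Set.ncard_image_of_injective (orb L (π a)) e.injective]
  congr 1
  ext w
  constructor
  · rintro ⟨g, hg, rfl⟩
    obtain ⟨m, hm, hmg⟩ := F.ofL g hg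
    obtain ⟨g', hg', hmg'⟩ := F.lift (c⁻¹ * m * c⁻¹⁻¹) (Subgroup.Normal.conj_mem inferInstance m hm c⁻¹)
    refine ⟨g' (π a), ⟨g', hg', rfl⟩, ?_⟩
    rw [← hmg' a ha, ← he _ (hQn.conj_mem a ha _), ← hmg _ (hQn.conj_mem a ha c)]
    congr 1; group
  · rintro ⟨_, ⟨g, hg, rfl⟩, rfl⟩
    obtain ⟨m, hm, hmg⟩ := F.ofL g hg
    obtain ⟨g', hg', hmg'⟩ := F.lift (c * m * c⁻¹) (Subgroup.Normal.conj_mem inferInstance m hm c)
    refine ⟨g', hg', ?_⟩
    rw [← hmg' _ (hQn.conj_mem a ha c), ← hmg a ha, ← he _ (hQn.conj_mem a ha m)]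
    congr 1; group

theorem exists_hom (hQM : Q ≤ M) : ∃ φ : M →* L, Function.Surjective φ ∧
    (∀ m : M, φ m = 1 ↔ (m : Cz z) ∈ Q) ∧
    ∀ (m : M), ∀ a ∈ Q, π ((m : Cz z) * a * (m : Cz z)⁻¹) = (φ m : V ≃ₗ[K4] V) (π a) := by
  choose g hgL hg using fun m : M => F.lift m m.2
  have hext : ∀ g₁ g₂ : V ≃ₗ[K4] V, (∀ a ∈ Q, g₁ (π a) = g₂ (π a)) → g₁ = g₂ := fun g₁ g₂ e =>
    LinearEquiv.ext fun v => by
      obtain ⟨a, ha, rfl⟩ := F.surj v
      exact e a ha
  refine ⟨MonoidHom.mk' (fun m => ⟨g m, hgL m⟩) fun m n => Subtype.ext (hext _ _ fun a ha => ?_), ?_, ?_, hg⟩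
  · show g (m * n) (π a) = g m (g n (π a))
    rw [← hg _ a ha, ← hg n a ha, ← hg m _ (hQn.conj_mem a ha _)]
    congr 1; rw [Subgroup.coe_mul]; group
  · rintro ⟨l, hl⟩
    obtain ⟨m, hm, hml⟩ := F.ofL l hl
    exact ⟨⟨m, hm⟩, Subtype.ext (hext _ _ fun a ha => (hg ⟨m, hm⟩ a ha).symm.trans (hml a ha))⟩
  · intro m
    constructor
    · intro e
      refine F.faithful m fun a ha => (hg m a ha).trans ?_
      rw [show g m = 1 from congrArg Subtype.val e]; rfl
    · intro hm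
      exact Subtype.ext (hext _ _ fun a ha => (hg m a ha).symm.trans (F.map_conj_eq hm ha))

/-- The image in `H/Q` of the part of `M` centralising `s` over a subgroup of the stabiliser. -/
theorem exists_image (hQM : Q ≤ M) {s : Cz z} (hs : s ∈ Q) (hs0 : π s ≠ 0) (T : Subgroup L)
    (hT : ∀ g ∈ T, (g : V ≃ₗ[K4] V) (π s) = π s) :
    ∃ T' : Subgroup (Cz z ⧸ Q), T' ≤ (M ⊓ Subgroup.centralizer ({s} : Set (Cz z))).map (QuotientGroup.mk' Q) ∧
      Nonempty (T' ≃* T) ∧
      ((∀ g : L, (g : V ≃ₗ[K4] V) (π s) = π s → g ∈ T) →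
        T' = (M ⊓ Subgroup.centralizer ({s} : Set (Cz z))).map (QuotientGroup.mk' Q)) := by
  obtain ⟨φ, hsurj, hker, hφ⟩ := F.exists_hom hQM
  let K : Subgroup M := T.comap φ ⊓ (Subgroup.centralizer ({s} : Set (Cz z))).comap M.subtype
  let χ : K →* T := MonoidHom.codRestrict (φ.comp K.subtype) T fun k => k.2.1
  have hχ : Function.Surjective χ := by
    rintro ⟨g, hg⟩
    obtain ⟨m, rfl⟩ := hsurj g
    have h1 : π ((m : Cz z) * s * (m : Cz z)⁻¹) = π s := (hφ m s hs).trans (hT _ hg)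
    rcases F.fiber hs (hQn.conj_mem s hs _) h1.symm with e | e
    · exact ⟨⟨m, hg, Subgroup.mem_centralizer_singleton_iff.2 (mul_inv_eq_iff_eq_mul.1 e)⟩, rfl⟩
    · obtain ⟨q, hq, hqe⟩ := F.exists_swap hs hs0
      have e2 : (m : Cz z) * s * (m : Cz z)⁻¹ = q * s * q⁻¹ := Subtype.ext (e.trans hqe.symm)
      let m' : M := ⟨q, hQM hq⟩⁻¹ * m
      have hm' : φ m' = φ m := by
        rw [show φ m' = φ (⟨q, hQM hq⟩)⁻¹ * φ m from _root_.map_mul φ _ _,
          (hker _).2 (show ((⟨q, hQM hq⟩ : M)⁻¹ : Cz z) ∈ Q from inv_mem hq), one_mul]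
      refine ⟨⟨m', by show φ m' ∈ T; rw [hm']; exact hg, Subgroup.mem_centralizer_singleton_iff.2 ?_⟩,
        Subtype.ext hm'⟩
      show q⁻¹ * (m : Cz z) * s = s * (q⁻¹ * m)
      calc q⁻¹ * (m : Cz z) * s = q⁻¹ * ((m : Cz z) * s * (m : Cz z)⁻¹) * m := by group
        _ = s * (q⁻¹ * m) := by rw [e2]; group
  let ξ : K →* Cz z ⧸ Q := (QuotientGroup.mk' Q).comp (M.subtype.comp K.subtype)
  have hk : ξ.ker = χ.ker := by
    ext k
    rw [MonoidHom.mem_ker, MonoidHom.mem_ker]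
    show ((((k : M) : Cz z)) : Cz z ⧸ Q) = 1 ↔ _
    rw [QuotientGroup.eq_one_iff, ← hker]
    exact ⟨fun e => Subtype.ext e, fun e => congrArg Subtype.val e⟩
  refine ⟨ξ.range, ?_, ⟨((QuotientGroup.quotientKerEquivRange ξ).symm.trans
    (QuotientGroup.quotientMulEquivOfEq hk)).trans (QuotientGroup.quotientKerEquivOfSurjective χ hχ)⟩, ?_⟩
  · rintro _ ⟨k, rfl⟩
    exact ⟨((k : M) : Cz z), ⟨(k : M).2, k.2.2⟩, rfl⟩
  · intro hall
    refine le_antisymm ?_ ?_
    · rintro _ ⟨k, rfl⟩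
      exact ⟨((k : M) : Cz z), ⟨(k : M).2, k.2.2⟩, rfl⟩
    · rintro _ ⟨m, ⟨hm, hms⟩, rfl⟩
      refine ⟨⟨⟨m, hm⟩, hall _ ?_, hms⟩, rfl⟩
      rw [← hφ ⟨m, hm⟩ s hs]
      congr 1
      exact mul_inv_eq_iff_eq_mul.2 (Subgroup.mem_centralizer_singleton_iff.1 hms)

theorem card_stab_mul (v : V) :
    Nat.card (MulAction.stabilizer L v) * (orb L v).ncard = 9797760 := by
  haveI : Finite (V ≃ₗ[K4] V) := finite_equiv
  have he : MulAction.orbit L v = orb L v := by
    ext w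
    constructor
    · rintro ⟨g, rfl⟩; exact ⟨g, g.2, rfl⟩
    · rintro ⟨g, hg, rfl⟩; exact ⟨⟨g, hg⟩, rfl⟩
  rw [← Nat.card_coe_set_eq, ← he, Nat.card_congr (MulAction.orbitEquivQuotientStabilizer L v), mul_comm,
    ← Subgroup.card_eq_card_quotient_mul_card_subgroup, F.cardL]

/-- The image of the centraliser of `s` in `H/Q` has order dividing twice that of the stabiliser. -/
theorem card_image_dvd [M.Normal] (hQM : Q ≤ M) (hidx : M.index = 2) {s : Cz z} (hs : s ∈ Q)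
    (hs0 : π s ≠ 0) :
    Nat.card ((Subgroup.centralizer ({s} : Set (Cz z))).map (QuotientGroup.mk' Q)) ∣
      2 * Nat.card (MulAction.stabilizer L (π s)) := by
  obtain ⟨T', -, ⟨e⟩, hall⟩ := F.exists_image hQM hs hs0 (MulAction.stabilizer L (π s))
    (fun g hg => hg)
  have hT' := hall fun g hg => hg
  rw [← Nat.card_congr e.toEquiv, hT']
  set C := Subgroup.centralizer ({s} : Set (Cz z))
  rw [← Subgroup.relIndex_ker, ← Subgroup.relIndex_ker, QuotientGroup.ker_mk',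
    ← Subgroup.inf_relIndex_right (K := C), ← Subgroup.relIndex_mul_relIndex (Q ⊓ C) (M ⊓ C) C
      (inf_le_inf_right C hQM) inf_le_right, mul_comm 2]
  refine Nat.mul_dvd_mul (dvd_of_eq ?_) ?_
  · rw [← Subgroup.inf_relIndex_right (H := Q) (K := M ⊓ C)]
    congr 1
    rw [← inf_assoc, inf_eq_left.2 hQM]
  · rw [Subgroup.inf_relIndex_right, ← hidx]
    exact Subgroup.relIndex_dvd_index_of_normal (H := M) (K := C)

end Frame

/-- An abelian subgroup of an extraspecial group of order `2^13` has order at most `2^7`. -/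
theorem card_abelian_le {A : Type*} [Group A] [Finite A] (hA : IsExtraspecial 2 A)
    (hcard : Nat.card A = 2 ^ 13) (U : Subgroup A) (hU : ∀ a ∈ U, ∀ b ∈ U, a * b = b * a)
    (hcU : Subgroup.center A ≤ U) : Nat.card U ≤ 2 ^ 7 := by
  haveI : Fact (Nat.Prime 2) := ⟨Nat.prime_two⟩
  obtain ⟨u, hu, huc⟩ := CfsgLib.LargeSubgroups.exists_good_top hA
  obtain ⟨k, hk⟩ := IsPGroup.iff_card.1 ((IsPGroup.iff_card.2 ⟨13, hcard⟩ : IsPGroup 2 A).to_subgroup U)
  have huU : u ∈ U := hcU ((huc u).2 (Or.inr rfl))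
  rcases k with _ | n
  · rw [hk]; norm_num
  have h1 := CfsgLib.LargeSubgroups.card_mul_card_centralizer_le hu n U huU hk
  have h2 : U ≤ Subgroup.centralizer (U : Set A) := fun a ha => Subgroup.mem_centralizer_iff.2
    fun b hb => hU b hb a ha
  have h3 := (Nat.mul_le_mul_left (Nat.card U) (Subgroup.card_le_of_le h2)).trans h1
  rw [hcard] at h3
  rw [hk] at h3 ⊢
  by_contra hlt
  push Not at hlt
  have : 2 ^ 8 ≤ 2 ^ (n + 1) := Nat.pow_le_pow_right (by norm_num)
    ((Nat.pow_lt_pow_iff_right (by norm_num)).1 hlt)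
  have := Nat.mul_le_mul this this
  omega

/-- The subgroup `Q` as a subgroup of `G`. -/
abbrev qG (Q : Subgroup (Cz z)) : Subgroup G := Q.map (Cz z).subtype

/-- The image in `H/Q` of the centraliser of `s`. -/
abbrev xIm (Q : Subgroup (Cz z)) [Q.Normal] (s : G) : Subgroup (Cz z ⧸ Q) :=
  ((Cz z ⊓ Subgroup.centralizer ({s} : Set G)).subgroupOf (Cz z)).map (QuotientGroup.mk' Q)

/-- The image in `H/Q` of the conjugate of `Q`. -/
abbrev eIm (Q : Subgroup (Cz z)) [Q.Normal] (g : G) : Subgroup (Cz z ⧸ Q) :=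
  (((qG Q).map (MulAut.conj g).toMonoidHom ⊓ Cz z).subgroupOf (Cz z)).map (QuotientGroup.mk' Q)

theorem largePair (hF : IsOfLargeFischerTypeAt z Q) {g : G} (hgQ : g * z * g⁻¹ ∈ qG Q)
    (hne : g * z * g⁻¹ ≠ z) : Fischer2.LargePair (qG Q) z g := by
  obtain ⟨⟨hz, hFQ, hQ, hcard, -⟩, -⟩ := hF
  have e : ↥Q ≃* ↥(qG Q) := Subgroup.equivMapOfInjective _ _ (Cz z).subtype_injective
  have hQe : IsExtraspecial 2 (qG Q) := by
    refine ⟨⟨hQ.1.1.map _, ?_, ?_⟩, ?_⟩
    · have := congrArg (Subgroup.map e.toMonoidHom) hQ.1.2.1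
      rw [Fischer2.map_frattini_equiv, Fischer2.map_center_equiv] at this
      exact this
    · have := congrArg (Subgroup.map e.toMonoidHom) hQ.1.2.2
      rw [Fischer2.map_commutator_equiv, Fischer2.map_center_equiv] at this
      exact this
    · have hc : (Subgroup.center ↥Q).map e.toMonoidHom = Subgroup.center ↥(qG Q) := Fischer2.map_center_equiv e
      rw [← hc, Subgroup.card_map_of_injective e.injective]
      exact hQ.2
  obtain ⟨-, -, hZz, hC, hN, -⟩ := Fischer2.setting_facts hz (Q := qG Q) (by rw [hFQ]) hQe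
  refine ⟨hQe, hC, hN, hZz, hz, ?_, fun hg => hne ?_, hgQ⟩
  · rw [Subgroup.card_map_of_injective (Cz z).subtype_injective, hcard]; norm_num
  · exact mul_inv_eq_iff_eq_mul.2 (Subgroup.mem_centralizer_singleton_iff.1 hg)

/-- The outcome for a conjugate of `z` in `Q`. -/
structure ConjFacts (Q : Subgroup (Cz z)) [Q.Normal] (L : Subgroup (V ≃ₗ[K4] V)) (π : Cz z → V)
    (s : Cz z) (g : G) : Prop where
  orbit : (orb L (π s)).ncard = 1701
  le : eIm Q g ≤ xIm Q (s : G)
  normal : ∀ x ∈ xIm Q (s : G), ∀ y ∈ eIm Q g, x * y * x⁻¹ ∈ eIm Q g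
  comm : ∀ x ∈ eIm Q g, ∀ y ∈ eIm Q g, x * y = y * x
  sq : ∀ x ∈ eIm Q g, x * x = 1
  cardE : Nat.card (eIm Q g) = 32
  cardI : Nat.card ↥(qG Q ⊓ (qG Q).map (MulAut.conj g).toMonoidHom) = 2 ^ 7
  quot : ∃ _ : ((eIm Q g).subgroupOf (xIm Q (s : G))).Normal,
    Nonempty (↥(xIm Q (s : G)) ⧸ (eIm Q g).subgroupOf (xIm Q (s : G)) ≃* alternatingGroup (Fin 6))

theorem Frame.conjFacts [M.Normal] (F : Frame Q M L f h π) (hP : Para E S) (hQM : Q ≤ M) (hidx : M.index = 2)
    (hF : IsOfLargeFischerTypeAt z Q) {s : Cz z} (hs : s ∈ Q) {g : G} (hg : g * z * g⁻¹ = (s : G))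
    (hne : (s : G) ≠ z) : ConjFacts Q L π s g := by
  have hgQ : g * z * g⁻¹ ∈ qG Q := by rw [hg]; exact ⟨s, hs, rfl⟩
  have hp := largePair hF hgQ (by rw [hg]; exact hne)
  have hs0 : π s ≠ 0 := F.ne_zero_of hs (by rw [← hg]; exact hp.s_ne_one) hne
  have hiso : h (π s) (π s) = 0 := (F.sq s hs).2 (Subtype.ext (by
    show (s : G) * s = 1
    rw [← hg]; exact hp.s_sq))
  -- basic properties of the image of the conjugate
  have hmemE : ∀ a : Cz z, a ∈ ((qG Q).map (MulAut.conj g).toMonoidHom ⊓ Cz z).subgroupOf (Cz z) →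
      (a : G) ∈ Fischer2.sideA (qG Q) z g := fun a ha => Subgroup.mem_subgroupOf.1 ha
  have hmk : ∀ a : Cz z, (a : G) ∈ qG Q → QuotientGroup.mk' Q a = 1 := by
    rintro a ⟨b, hb, e⟩
    rw [show a = b from Subtype.ext e.symm]
    exact (QuotientGroup.eq_one_iff b).2 hb
  have hone : ∀ a : Cz z, ((a : G) = 1 ∨ (a : G) = g * z * g⁻¹) → QuotientGroup.mk' Q a = 1 := by
    rintro a (e | e) <;> refine hmk a ?_ <;> rw [e]
    exacts [one_mem _, hgQ]
  have hle : eIm Q g ≤ xIm Q (s : G) := by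
    refine Subgroup.map_mono fun a ha => Subgroup.mem_subgroupOf.2 ?_
    have := hp.A_le_W (hmemE a ha)
    rw [Fischer2.pairW, hg] at this
    exact this
  have hnormal : ∀ x ∈ xIm Q (s : G), ∀ y ∈ eIm Q g, x * y * x⁻¹ ∈ eIm Q g := by
    rintro _ ⟨c, hc, rfl⟩ _ ⟨a, ha, rfl⟩
    have hc' : (c : G) ∈ Fischer2.pairW z g := by
      rw [Fischer2.pairW, hg]; exact Subgroup.mem_subgroupOf.1 hc
    exact ⟨c * a * c⁻¹, Subgroup.mem_subgroupOf.2 (hp.A_norm hc' (hmemE a ha)), by simp⟩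
  have hcomm : ∀ x ∈ eIm Q g, ∀ y ∈ eIm Q g, x * y = y * x := by
    rintro _ ⟨a, ha, rfl⟩ _ ⟨b, hb, rfl⟩
    have := hone (a * b * a⁻¹ * b⁻¹) (hp.commutator_conj (hmemE a ha).1 (hmemE b hb).1)
    rwa [_root_.map_mul, _root_.map_mul, _root_.map_mul, _root_.map_inv, _root_.map_inv, mul_inv_eq_one, mul_inv_eq_iff_eq_mul] at this
  have hsq : ∀ x ∈ eIm Q g, x * x = 1 := by
    rintro _ ⟨a, ha, rfl⟩
    rw [← _root_.map_mul]
    exact hone _ (hp.sq_conj (hmemE a ha).1)
  -- orders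
  set I := qG Q ⊓ (qG Q).map (MulAut.conj g).toMonoidHom with hI
  have hI7 : Nat.card I ≤ 2 ^ 7 := by
    have hle' : I ≤ qG Q := inf_le_left
    have hc : ∀ a ∈ I, ∀ b ∈ I, a * b = b * a := fun a ha b hb => hp.E_comm ha hb
    rw [← Nat.card_congr (Subgroup.subgroupOfEquivOfLe hle').toEquiv]
    refine card_abelian_le hp.extra ?_ _ (fun a ha b hb => Subtype.ext (hc _ ha _ hb)) ?_
    · rw [Subgroup.card_map_of_injective (Cz z).subtype_injective, hF.1.2.2.2.1]
    · intro a ha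
      rw [Subgroup.mem_subgroupOf]
      rcases hp.eq_or ⟨a, ha, rfl⟩ with e | e
      · rw [show (a : G) = 1 from e]; exact one_mem _
      · rw [show (a : G) = z from e]; exact ⟨hp.z_mem, hp.z_mem_conj⟩
  have hA : Nat.card (Fischer2.sideA (qG Q) z g) = 2 ^ 12 := by
    obtain ⟨p, hpm, hps⟩ := hp.exists_swap'
    have hpz : p ∉ Fischer2.sideA (qG Q) z g := fun hm => by
      have e := (Fischer2.LargePair.mem_A.1 hm).2
      rw [e, mul_inv_cancel_right] at hps
      exact hp.s_ne_one (mul_eq_right.1 hps.symm)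
    have hb : Nat.card (Fischer2.sideA (qG Q) z g × Bool) = Nat.card (Fischer2.conjQ (qG Q) g) := by
      refine Nat.card_eq_of_bijective (fun a => ⟨(if a.2 then p else 1) * a.1,
        mul_mem (by cases a.2 <;> simp [hpm, one_mem]) a.1.2.1⟩) ⟨?_, fun x => ?_⟩
      · rintro ⟨a, i⟩ ⟨b, j⟩ hab
        have e : (if i then p else 1) * (a : G) = (if j then p else 1) * (b : G) := congrArg Subtype.val hab
        cases i <;> cases j <;> simp only [if_true, if_false, Bool.false_eq_true, one_mul] at e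
        · exact Prod.ext (Subtype.ext e) rfl
        · exfalso; exact hpz (by
            rw [show p = (a : G) * (b : G)⁻¹ by rw [e]; group]
            exact mul_mem a.2 (inv_mem b.2))
        · exfalso; exact hpz (by
            rw [show p = (b : G) * (a : G)⁻¹ by rw [← e]; group]
            exact mul_mem b.2 (inv_mem a.2))
        · exact Prod.ext (Subtype.ext (mul_left_cancel e)) rfl
      · rcases hp.mem_A_or hpm hps x.2 with hx | hx
        · exact ⟨(⟨x, hx⟩, false), Subtype.ext (one_mul _)⟩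
        · exact ⟨(⟨_, hx⟩, true), Subtype.ext (mul_inv_cancel_left _ _)⟩
    rw [Nat.card_prod, Nat.card_eq_fintype_card (α := Bool), Fintype.card_bool,
      Subgroup.card_map_of_injective (MulAut.conj g).injective,
      Subgroup.card_map_of_injective (Cz z).subtype_injective, hF.1.2.2.2.1] at hb
    omega
  have hEI : Nat.card (eIm Q g) * Nat.card I = 2 ^ 12 := by
    set A' := (Fischer2.sideA (qG Q) z g).subgroupOf (Cz z) with hA'
    have h1 : Q.relIndex A' = Nat.card (eIm Q g) := by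
      rw [← Subgroup.relIndex_ker, QuotientGroup.ker_mk']
    have h2 := Subgroup.card_mul_index (Q.subgroupOf A')
    rw [show (Q.subgroupOf A').index = Nat.card (eIm Q g) from h1] at h2
    rw [Nat.card_congr (Subgroup.subgroupOfEquivOfLe (inf_le_right : Fischer2.sideA (qG Q) z g ≤ Cz z)).toEquiv,
      hA] at h2
    have hIeq : Nat.card (Q.subgroupOf A') = Nat.card I := by
      refine Nat.card_eq_of_bijective (fun a => ⟨(((a : A') : Cz z) : G),
        ⟨⟨_, a.2, rfl⟩, (Subgroup.mem_subgroupOf.1 (a : A').2).1⟩⟩) ⟨fun a b e => ?_, fun x => ?_⟩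
      · exact Subtype.ext (Subtype.ext (Subtype.ext (congrArg Subtype.val e :)))
      · obtain ⟨b, hb, e⟩ := x.2.1
        exact ⟨⟨⟨b, Subgroup.mem_subgroupOf.2 (show (b : G) ∈ Fischer2.sideA (qG Q) z g by rw [show (b : G) = x from e]; exact ⟨x.2.2, by
          exact Subgroup.mem_centralizer_singleton_iff.2 (hp.z_comm x.2.1).symm⟩)⟩, hb⟩, Subtype.ext e⟩
    rw [← hIeq, mul_comm]; exact h2
  obtain ⟨k, hk⟩ : ∃ k, Nat.card (eIm Q g) = 2 ^ k := by
    obtain ⟨k, -, hk⟩ := (Nat.dvd_prime_pow Nat.prime_two).1 (Dvd.intro _ hEI)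
    exact ⟨k, hk⟩
  have hk5 : 5 ≤ k := by
    by_contra hlt
    have h4 : Nat.card (eIm Q g) ≤ 2 ^ 4 := hk ▸ Nat.pow_le_pow_right (by norm_num) (by omega)
    have := Nat.mul_le_mul h4 hI7
    omega
  -- the simple subgroup
  obtain ⟨a, b, ha0, hai, hca, hSa, hb0, hbi, hcb, hSb, hcov⟩ := F.cover.exists_orbits hP F.cardL
  have hstab : HasSimpleStab L (π s) ∧ ((orb L (π s)).ncard = 378 ∨ (orb L (π s)).ncard = 1701) := by
    have htrans : ∀ v, π s ∈ orb L v → HasSimpleStab L v → HasSimpleStab L (π s) := by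
      rintro v ⟨γ, hγ, e⟩ ⟨T, hT1, hT2, ⟨hT3⟩, hT4⟩
      let c := MulAut.conj (⟨γ, hγ⟩ : L)
      refine ⟨T.map c.toMonoidHom, ?_, ?_, ⟨(T.equivMapOfInjective c.toMonoidHom c.injective).symm.trans hT3⟩, ?_⟩
      · rw [Subgroup.card_map_of_injective c.injective, hT1]
      · haveI := hT2
        haveI : Nontrivial (T.map c.toMonoidHom) := (T.equivMapOfInjective c.toMonoidHom c.injective).toEquiv.symm.nontrivial
        exact IsSimpleGroup.isSimpleGroup_of_surjective (T.equivMapOfInjective c.toMonoidHom c.injective).toMonoidHom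
          (T.equivMapOfInjective c.toMonoidHom c.injective).surjective
      · rintro _ ⟨t, ht, rfl⟩
        show γ ((t : V ≃ₗ[K4] V) (γ.symm (π s))) = π s
        rw [← e, LinearEquiv.symm_apply_apply, hT4 t ht]
    rcases hcov (π s) hs0 hiso with hm | hm
    · exact ⟨htrans a hm hSa, Or.inl (by rw [orb_eq_of_mem hm]; exact hca)⟩
    · exact ⟨htrans b hm hSb, Or.inr (by rw [orb_eq_of_mem hm]; exact hcb)⟩
  obtain ⟨⟨T, hT1, hT2, ⟨hT3⟩, hT4⟩, horb⟩ := hstab
  obtain ⟨T', hT'le, ⟨eT⟩, -⟩ := F.exists_image hQM hs hs0 T hT4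
  have hXeq : xIm Q (s : G) = (Subgroup.centralizer ({s} : Set (Cz z))).map (QuotientGroup.mk' Q) := by
    show Subgroup.map _ _ = _
    congr 1
    ext c
    rw [Subgroup.mem_subgroupOf, Subgroup.mem_inf, Subgroup.mem_centralizer_singleton_iff,
      Subgroup.mem_centralizer_singleton_iff (g := s), Subtype.ext_iff]
    exact and_iff_right (Subgroup.mem_centralizer_singleton_iff.1 c.2) |>.trans Subgroup.mem_centralizer_singleton_iff
  have hT'X : T' ≤ xIm Q (s : G) := by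
    rw [hXeq]; exact hT'le.trans (Subgroup.map_mono inf_le_right)
  set X := xIm Q (s : G)
  set E0 := (eIm Q g).subgroupOf X with hE0
  haveI hn : E0.Normal := ⟨fun y hy x => Subgroup.mem_subgroupOf.2 (hnormal x x.2 y (Subgroup.mem_subgroupOf.1 hy))⟩
  haveI := hT2
  haveI : Nontrivial T' := eT.toEquiv.nontrivial
  haveI : IsSimpleGroup T' := IsSimpleGroup.isSimpleGroup_of_surjective eT.symm.toMonoidHom eT.symm.surjective
  let q : T' →* X ⧸ E0 := (QuotientGroup.mk' E0).comp (Subgroup.inclusion hT'X)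
  have hqinj : Function.Injective q := by
    rw [← MonoidHom.ker_eq_bot_iff]
    refine q.normal_ker.eq_bot_or_eq_top.resolve_right fun htop => ?_
    have hall : ∀ t : T', (t : Cz z ⧸ Q) ∈ eIm Q g := fun t => by
      have := (QuotientGroup.eq_one_iff _).1 (MonoidHom.mem_ker.1 (htop ▸ Subgroup.mem_top t : t ∈ q.ker))
      exact Subgroup.mem_subgroupOf.1 this
    haveI : Fact (Nat.Prime 5) := ⟨by norm_num⟩
    obtain ⟨y, hy⟩ := exists_prime_orderOf_dvd_card' (G := T') 5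
      (by rw [Nat.card_congr eT.toEquiv, hT1]; norm_num)
    have h2 : y ^ 2 = 1 := Subtype.ext (by rw [pow_two]; exact hsq _ (hall y))
    have := orderOf_dvd_of_pow_eq_one h2
    rw [hy] at this
    norm_num at this
  have h360 : 360 ∣ Nat.card (X ⧸ E0) := by
    rw [← hT1, ← Nat.card_congr eT.toEquiv]
    exact Subgroup.card_dvd_of_injective q hqinj
  have hXE : Nat.card X = Nat.card (X ⧸ E0) * 2 ^ k := by
    rw [Subgroup.card_eq_card_quotient_mul_card_subgroup E0,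
      Nat.card_congr (Subgroup.subgroupOfEquivOfLe hle).toEquiv, hk]
  have hXdvd := F.card_image_dvd hQM hidx hs hs0
  rw [← hXeq, hXE] at hXdvd
  have hst := F.card_stab_mul (π s)
  have hdvd5 : 360 * 2 ^ k ∣ 2 * Nat.card (MulAction.stabilizer L (π s)) :=
    (Nat.mul_dvd_mul_right h360 _).trans hXdvd
  have h1701 : (orb L (π s)).ncard = 1701 := horb.resolve_left fun e378 => by
    rw [e378] at hst
    rw [show Nat.card (MulAction.stabilizer L (π s)) = 25920 by omega] at hdvd5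
    have h5 : (360 * 2 ^ 5 : ℕ) ∣ 2 * 25920 :=
      (Nat.mul_dvd_mul_left _ (Nat.pow_dvd_pow 2 hk5)).trans hdvd5
    norm_num at h5
  rw [h1701] at hst
  rw [show Nat.card (MulAction.stabilizer L (π s)) = 5760 by omega] at hdvd5 hXdvd
  have hk_eq : k = 5 := by
    by_contra hne5
    have h6 : (360 * 2 ^ 6 : ℕ) ∣ 2 * 5760 :=
      (Nat.mul_dvd_mul_left _ (Nat.pow_dvd_pow 2 (show 6 ≤ k by omega))).trans hdvd5
    norm_num at h6
  subst hk_eq
  have hq360 : Nat.card (X ⧸ E0) = 360 := by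
    have h1 : Nat.card (X ⧸ E0) * 2 ^ 5 ≤ 2 * 5760 := Nat.le_of_dvd (by norm_num) hXdvd
    have h2 := Nat.le_of_dvd Nat.card_pos h360
    omega
  refine ⟨h1701, hle, hnormal, hcomm, hsq, by rw [hk]; rfl, ?_, ⟨hn, ⟨?_⟩⟩⟩
  · rw [hk] at hEI
    show Nat.card I = 2 ^ 7
    clear_value I
    norm_num at hEI ⊢
    omega
  · exact ((MulEquiv.ofBijective q ((Nat.bijective_iff_injective_and_card q).2 ⟨hqinj, by
      rw [hq360, Nat.card_congr eT.toEquiv, hT1]⟩)).symm.trans eT).trans hT3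

end CfsgLib.FischerLarge
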