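import Cfsg.Agent.Lib.FischerLarge.FourField

/-!
FischerLarge: counting vectors of length six over the field with four elements by weight and product.
-/

set_option autoImplicit false
set_option maxRecDepth 4000

namespace CfsgLib.FischerLarge

/-- Vectors of length six. -/
abbrev W6 := Fin 6 → K4

/-- Decoding. -/
def decode (n : Fin 4096) : W6 := fun i => match n.val / 4 ^ (i : ℕ) % 4 with
  | 0 => .zero | 1 => .one | 2 => .om | _ => .om2

/-- Encoding of a digit. -/
def digit : K4 → ℕ
  | .zero => 0 | .one => 1 | .om => 2 | .om2 => 3

/-- The weight. -/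
def wt (v : W6) : ℕ := (List.finRange 6).countP fun i => v i != 0

/-- The product. -/
def pr (v : W6) : K4 := v 0 * v 1 * v 2 * v 3 * v 4 * v 5

theorem decode_bijective : Function.Bijective decode := by
  rw [Fintype.bijective_iff_surjective_and_card]
  refine ⟨fun v => ?_, by simp [show Fintype.card K4 = 4 from rfl]⟩
  have hd : ∀ a : K4, digit a < 4 := fun a => by cases a <;> decide
  refine ⟨⟨digit (v 0) + 4 * digit (v 1) + 16 * digit (v 2) + 64 * digit (v 3) + 256 * digit (v 4) +
    1024 * digit (v 5), by
      have := hd (v 0); have := hd (v 1); have := hd (v 2); have := hd (v 3); have := hd (v 4)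
      have := hd (v 5); omega⟩, funext fun i => ?_⟩
  have key : ∀ (n : ℕ) (a : K4), n % 4 = digit a →
      (match n % 4 with | 0 => K4.zero | 1 => .one | 2 => .om | _ => .om2) = a := fun n a h => by
    rw [h]; cases a <;> rfl
  refine key _ _ ?_
  have := hd (v 0); have := hd (v 1); have := hd (v 2); have := hd (v 3); have := hd (v 4)
  have := hd (v 5)
  fin_cases i <;> simp <;> omega

theorem card_filter_fin (m : ℕ) (q : Fin m → Bool) :
    (Finset.univ.filter fun n => q n = true).card = (List.finRange m).countP q := by
  rw [List.countP_eq_length_filter, ← List.toFinset_card_of_nodup ((List.nodup_finRange _).filter _)]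
  congr 1
  ext n
  simp

/-- The number of vectors with a decidable property, by enumeration. -/
theorem card_eq_count (p : W6 → Bool) :
    Nat.card {v : W6 // p v = true} = (List.finRange 4096).countP fun n => p (decode n) := by
  rw [← Nat.card_congr ((Equiv.ofBijective decode decode_bijective).subtypeEquiv
    (p := fun n => p (decode n) = true) (q := fun v => p v = true) fun n => Iff.rfl),
    Nat.card_eq_fintype_card, Fintype.card_subtype]
  exact card_filter_fin _ fun n => p (decode n)

theorem count_two : Nat.card {v : W6 // wt v = 2} = 135 := by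
  rw [← show Nat.card {v : W6 // (wt v == 2) = true} = Nat.card {v : W6 // wt v = 2} from
    Nat.card_congr (Equiv.subtypeEquivRight fun v => by simp), card_eq_count]
  decide +kernel

theorem count_four : Nat.card {v : W6 // wt v = 4} = 1215 := by
  rw [← show Nat.card {v : W6 // (wt v == 4) = true} = Nat.card {v : W6 // wt v = 4} from
    Nat.card_congr (Equiv.subtypeEquivRight fun v => by simp), card_eq_count]
  decide +kernel

theorem count_six {c : K4} (hc : c ≠ 0) : Nat.card {v : W6 // wt v = 6 ∧ pr v = c} = 243 := by
  rw [← show Nat.card {v : W6 // (wt v == 6 && pr v == c) = true} =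
      Nat.card {v : W6 // wt v = 6 ∧ pr v = c} from
    Nat.card_congr (Equiv.subtypeEquivRight fun v => by simp), card_eq_count]
  rcases K4.cases4 c with rfl | rfl | rfl | rfl
  · exact absurd rfl hc
  all_goals decide +kernel

theorem wt_eq_card (v : W6) : wt v = (Finset.univ.filter fun i => v i ≠ 0).card := by
  rw [wt, Finset.card_def, Finset.filter_val]
  show _ = Multiset.card (Multiset.filter _ ((List.finRange 6 : List (Fin 6)) : Multiset (Fin 6)))
  rw [← Multiset.countP_eq_card_filter, Multiset.coe_countP]
  congr 1
  funext i
  cases h : v i <;> rfl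

theorem pr_eq_prod (v : W6) : pr v = ∏ i, v i := by
  rw [Fin.prod_univ_six]; rfl

theorem herm_self (v : W6) : ∑ i, v i * K4.conj (v i) = (wt v : K4) := by
  rw [wt_eq_card]
  have h : ∀ a : K4, a * K4.conj a = if a = 0 then 0 else 1 := by decide
  simp only [h]
  rw [Finset.sum_ite, Finset.sum_const_zero, zero_add, Finset.sum_const, nsmul_one]

end CfsgLib.FischerLarge
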