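import Mathlib

/-!
FischerLarge: a concrete field with four elements, and modules over it from an endomorphism
`t` with `t² + t + 1 = 0`.
-/

set_option autoImplicit false

namespace CfsgLib.FischerLarge

/-- The field with four elements. -/
inductive K4
  | zero | one | om | om2
  deriving DecidableEq

namespace K4

instance : Fintype K4 := ⟨{.zero, .one, .om, .om2}, fun x => by cases x <;> decide⟩

/-- The first bit. -/
def b0 : K4 → Bool
  | .zero => false | .one => true | .om => false | .om2 => true

/-- The second bit. -/
def b1 : K4 → Bool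
  | .zero => false | .one => false | .om => true | .om2 => true

/-- From bits. -/
def ofBits : Bool → Bool → K4
  | false, false => .zero | true, false => .one | false, true => .om | true, true => .om2

instance : Zero K4 := ⟨.zero⟩
instance : One K4 := ⟨.one⟩
instance : Add K4 := ⟨fun a b => ofBits (xor a.b0 b.b0) (xor a.b1 b.b1)⟩
instance : Neg K4 := ⟨fun a => a⟩
instance : Sub K4 := ⟨fun a b => a + b⟩
instance : Mul K4 := ⟨fun a b =>
  ofBits (xor (a.b0 && b.b0) (a.b1 && b.b1))
    (xor (xor (a.b0 && b.b1) (a.b1 && b.b0)) (a.b1 && b.b1))⟩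
instance : Inv K4 := ⟨fun a => a * a⟩
instance : Div K4 := ⟨fun a b => a * b⁻¹⟩

theorem add_assoc' : ∀ a b c : K4, a + b + c = a + (b + c) := by decide
theorem mul_assoc' : ∀ a b c : K4, a * b * c = a * (b * c) := by decide
theorem left_distrib' : ∀ a b c : K4, a * (b + c) = a * b + a * c := by decide
theorem right_distrib' : ∀ a b c : K4, (a + b) * c = a * c + b * c := by decide

instance : CommRing K4 where
  add_assoc := add_assoc'
  zero_add := by decide
  add_zero := by decide
  nsmul := nsmulRec
  zsmul := zsmulRec
  neg_add_cancel := by decide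
  sub_eq_add_neg := fun _ _ => rfl
  add_comm := by decide
  left_distrib := left_distrib'
  right_distrib := right_distrib'
  zero_mul := by decide
  mul_zero := by decide
  mul_assoc := mul_assoc'
  one_mul := by decide
  mul_one := by decide
  mul_comm := by decide

instance : Field K4 where
  exists_pair_ne := ⟨.zero, .one, by decide⟩
  mul_inv_cancel := by decide
  inv_zero := by decide
  div_eq_mul_inv := fun _ _ => rfl
  nnqsmul := _
  nnqsmul_def := fun _ _ => rfl
  qsmul := _
  qsmul_def := fun _ _ => rfl

theorem card_eq : Nat.card K4 = 4 := by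
  rw [Nat.card_eq_fintype_card]; rfl

theorem add_self (a : K4) : a + a = 0 := by cases a <;> rfl

theorem two_eq_zero : (2 : K4) = 0 := by
  rw [← one_add_one_eq_two]; rfl

theorem cases4 : ∀ a : K4, a = 0 ∨ a = 1 ∨ a = .om ∨ a = .om2 := by decide

/-- The conjugation. -/
def conj : K4 →+* K4 where
  toFun a := a * a
  map_one' := by decide
  map_zero' := by decide
  map_mul' := by decide
  map_add' := by decide

theorem conj_conj : ∀ a : K4, conj (conj a) = a := by decide

theorem conj_inv : ∀ a : K4, conj a = a⁻¹ := fun _ => rfl

theorem cube_eq_one : ∀ a : K4, a ≠ 0 → a * a * a = 1 := by decide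

theorem unit_cube (u : K4ˣ) : u ^ 3 = 1 := by
  ext
  rw [Units.val_pow_eq_pow_val, Units.val_one, pow_succ, pow_two]
  exact cube_eq_one _ u.ne_zero

end K4

theorem K4.b0_add : ∀ a b : K4, (a + b).b0 = xor a.b0 b.b0 := by decide

theorem K4.b1_add : ∀ a b : K4, (a + b).b1 = xor a.b1 b.b1 := by decide

theorem K4.b0_mul : ∀ a b : K4, (a * b).b0 = xor (a.b0 && b.b0) (a.b1 && b.b1) := by decide

theorem K4.b1_mul : ∀ a b : K4,
    (a * b).b1 = xor (xor (a.b0 && b.b1) (a.b1 && b.b0)) (a.b1 && b.b1) := by decide

section Module

variable {A : Type*} [AddCommGroup A]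

/-- The map attached to an element of `K4`. -/
def bitMap (t : AddMonoid.End A) (a : K4) : AddMonoid.End A :=
  (if a.b0 then (1 : AddMonoid.End A) else 0) + (if a.b1 then t else 0)

theorem bitMap_apply (t : AddMonoid.End A) (a : K4) (x : A) :
    bitMap t a x = (if a.b0 then x else 0) + (if a.b1 then t x else 0) := by
  unfold bitMap
  cases a.b0 <;> cases a.b1 <;> rfl

/-- The ring map to endomorphisms attached to `t` with `t² + t + 1 = 0` in characteristic two. -/
def endHom (t : AddMonoid.End A) (h2 : ∀ x : A, x + x = 0)
    (ht : ∀ x : A, t (t x) + t x + x = 0) : K4 →+* AddMonoid.End A where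
  toFun := bitMap t
  map_one' := by
    ext x; rw [bitMap_apply]; exact add_zero x
  map_zero' := by
    ext x; rw [bitMap_apply]; exact add_zero 0
  map_mul' a b := by
    have htt : t ∘ t = fun x => t x + x := funext fun x => by
      calc t (t x) = t (t x) + ((t x + x) + (t x + x)) := by rw [h2, add_zero]
        _ = t (t x) + t x + x + (t x + x) := by abel
        _ = t x + x := by rw [ht, zero_add]
    have h2' : ∀ x y : A, x + (x + y) = y := fun x y => by rw [← add_assoc, h2, zero_add]
    ext x
    show bitMap t (a * b) x = bitMap t a (bitMap t b x)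
    have htx : t (t x) = t x + x := congrFun htt x
    simp only [bitMap_apply, K4.b0_mul, K4.b1_mul]
    cases a.b0 <;> cases a.b1 <;> cases b.b0 <;> cases b.b1 <;>
      simp [htx, h2, h2', add_comm, add_left_comm]
  map_add' a b := by
    have h2' : ∀ x y : A, x + (x + y) = y := fun x y => by rw [← add_assoc, h2, zero_add]
    ext x
    show bitMap t (a + b) x = bitMap t a x + bitMap t b x
    simp only [bitMap_apply, K4.b0_add, K4.b1_add]
    cases a.b0 <;> cases a.b1 <;> cases b.b0 <;> cases b.b1 <;>
      simp [h2, h2', add_comm, add_left_comm]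

theorem endHom_om (t : AddMonoid.End A) (h2 : ∀ x : A, x + x = 0)
    (ht : ∀ x : A, t (t x) + t x + x = 0) (x : A) : endHom t h2 ht .om x = t x := by
  show bitMap t .om x = t x
  rw [bitMap_apply]; exact zero_add _

end Module

end CfsgLib.FischerLarge
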