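import Cfsg.Agent.Lib.FischerLarge.Weights

/-!
FischerLarge: a group of isometries of a six-dimensional hermitian space over the field with four
elements covering a group with a subgroup `3^4` normalised by a simple group of order 360 contains
all monomial maps with even permutation and coefficient product one for some orthonormal basis.
-/

set_option autoImplicit false
set_option linter.style.haveILetI false
set_option linter.unusedSectionVars false

namespace CfsgLib.FischerLarge

open scoped Classical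

variable {V : Type*} [AddCommGroup V] [Module K4 V] [Finite V]
variable {P : Type*} [Group P] [Finite P]

/-- A covering of `P` by isometries with scalar kernel. -/
structure Cover (L : Subgroup (V ≃ₗ[K4] V)) (f : L →* P) (h : V → V → K4) : Prop where
  surj : Function.Surjective f
  ker : ∀ g : L, f g = 1 ↔ ∃ a : K4, ∀ v : V, (g : V ≃ₗ[K4] V) v = a • v
  scalar : ∀ a : K4, a ≠ 0 → ∃ g : L, ∀ v : V, (g : V ≃ₗ[K4] V) v = a • v
  card : Nat.card V = 4 ^ 6
  add_left : ∀ u v w, h (u + v) w = h u w + h v w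
  smul_left : ∀ (a : K4) u w, h (a • u) w = a * h u w
  symm : ∀ u v, h v u = K4.conj (h u v)
  nondeg : ∀ u, (∀ v, h u v = 0) → u = 0
  pres : ∀ (g : L) u v, h ((g : V ≃ₗ[K4] V) u) ((g : V ≃ₗ[K4] V) v) = h u v

/-- The data of the parabolic subgroup in the quotient. -/
structure Para (E S : Subgroup P) : Prop where
  cardE : Nat.card E = 81
  comm : ∀ x ∈ E, ∀ y ∈ E, x * y = y * x
  three : ∀ x ∈ E, x ^ 3 = 1
  cardS : Nat.card S = 360
  simple : IsSimpleGroup S
  norm : ∀ s ∈ S, ∀ e ∈ E, s * e * s⁻¹ ∈ E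
  moves : ∃ s ∈ S, ∃ e ∈ E, s * e ≠ e * s

variable {E S : Subgroup P}

/-- Subgroups of `E` invariant under `S` are trivial or everything. -/
theorem Para.irreducible (hP : Para E S) (D : Subgroup P) (hD : D ≤ E)
    (hinv : ∀ s ∈ S, ∀ d ∈ D, s * d * s⁻¹ ∈ D) : D = ⊥ ∨ D = E := by
  haveI : Fact (Nat.Prime 5) := ⟨by norm_num⟩
  let act : S →* MulAut E :=
    { toFun := fun s =>
        { toFun := fun e => ⟨(s : P) * e * (s : P)⁻¹, hP.norm s s.2 e e.2⟩
          invFun := fun e => ⟨(s : P)⁻¹ * e * ((s : P)⁻¹)⁻¹, hP.norm _ (inv_mem s.2) e e.2⟩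
          left_inv := fun e => Subtype.ext (by simp [mul_assoc])
          right_inv := fun e => Subtype.ext (by simp [mul_assoc])
          map_mul' := fun e e' => Subtype.ext (by simp [mul_assoc]) }
      map_one' := MulEquiv.ext fun e => Subtype.ext (by simp)
      map_mul' := fun s t => MulEquiv.ext fun e => Subtype.ext (by simp [mul_assoc]) }
  haveI := hP.simple
  have hker : act.ker = ⊥ := by
    rcases act.normal_ker.eq_bot_or_eq_top with h | h
    · exact h
    · obtain ⟨s, hs, e, he, hne⟩ := hP.moves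
      refine absurd ?_ hne
      have h1 : act ⟨s, hs⟩ = 1 := MonoidHom.mem_ker.1 (h ▸ Subgroup.mem_top _)
      have h2 := congrArg Subtype.val (DFunLike.congr_fun h1 ⟨e, he⟩)
      exact mul_inv_eq_iff_eq_mul.1 h2
  obtain ⟨y, hy⟩ := exists_prime_orderOf_dvd_card' (G := S) 5 (by rw [hP.cardS]; norm_num)
  have hY : IsPGroup 5 (Subgroup.zpowers y) := IsPGroup.of_card (n := 1) (by rw [Nat.card_zpowers, hy, pow_one])
  letI : MulAction (Subgroup.zpowers y) E := MulAction.compHom E (act.comp (Subgroup.zpowers y).subtype)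
  have hsmul : ∀ (w : Subgroup.zpowers y) (e : E), w • e = act (w : S) e := fun _ _ => rfl
  let C : Subgroup E :=
    { carrier := {e | ∀ w : Subgroup.zpowers y, act (w : S) e = e}
      one_mem' := fun w => map_one _
      mul_mem' := fun {a b} ha hb w => by rw [map_mul, ha w, hb w]
      inv_mem' := fun {a} ha w => by rw [map_inv, ha w] }
  have hC : (C : Set E) = MulAction.fixedPoints (Subgroup.zpowers y) E := rfl
  have hmod := hY.card_modEq_card_fixedPoints E
  rw [← hC, hP.cardE] at hmod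
  have hCd : Nat.card C ∣ 3 ^ 4 := by
    have := Subgroup.card_subgroup_dvd_card C
    rwa [hP.cardE] at this
  have hC1 : Nat.card C = 1 := by
    obtain ⟨i, hi, hCi⟩ := (Nat.dvd_prime_pow Nat.prime_three).1 hCd
    have hm : Nat.ModEq 5 81 (3 ^ i) := hCi ▸ hmod
    interval_cases i
    · exact hCi
    · exact absurd hm (by decide)
    · exact absurd hm (by decide)
    · exact absurd hm (by decide)
    · exfalso
      have htop : C = ⊤ := Subgroup.eq_top_of_card_eq C (by rw [hCi, hP.cardE]; norm_num)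
      have hy1 : act y = 1 := MulEquiv.ext fun e => by
        have he : e ∈ C := htop ▸ Subgroup.mem_top e
        exact he ⟨y, Subgroup.mem_zpowers y⟩
      have : y ∈ act.ker := hy1
      rw [hker, Subgroup.mem_bot] at this
      rw [this, orderOf_one] at hy
      norm_num at hy
  let D' : Subgroup E := D.subgroupOf E
  have hDinv : ∀ w : Subgroup.zpowers y, ∀ d ∈ D', w • d ∈ D' := fun w d hd =>
    hinv _ (w : S).2 _ hd
  letI : MulAction (Subgroup.zpowers y) D' :=
    { smul := fun w d => ⟨w • (d : E), hDinv w d d.2⟩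
      one_smul := fun d => Subtype.ext (one_smul _ _)
      mul_smul := fun w w' d => Subtype.ext (mul_smul _ _ _) }
  have hmod' := hY.card_modEq_card_fixedPoints D'
  have hfix : Nat.card (MulAction.fixedPoints (Subgroup.zpowers y) D') = 1 := by
    rw [Nat.card_eq_one_iff_unique]
    refine ⟨⟨fun a b => ?_⟩, ⟨⟨1, fun w => Subtype.ext (map_one (act (w : S)))⟩⟩⟩
    have hbot : C = ⊥ := Subgroup.eq_bot_of_card_eq C hC1
    have ha : ((a : D') : E) ∈ C := fun w => congrArg Subtype.val (a.2 w)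
    have hb : ((b : D') : E) ∈ C := fun w => congrArg Subtype.val (b.2 w)
    rw [hbot, Subgroup.mem_bot] at ha hb
    exact Subtype.ext (Subtype.ext (ha.trans hb.symm))
  rw [hfix] at hmod'
  have hDd : Nat.card D' ∣ 3 ^ 4 := by
    have := Subgroup.card_subgroup_dvd_card D'
    rwa [hP.cardE] at this
  obtain ⟨i, hi, hDi⟩ := (Nat.dvd_prime_pow Nat.prime_three).1 hDd
  have hDcard : Nat.card D = Nat.card D' := (Nat.card_congr (Subgroup.subgroupOfEquivOfLe hD).toEquiv).symm
  rw [hDi] at hmod'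
  interval_cases i
  · exact Or.inl (Subgroup.eq_bot_of_card_eq D (by rw [hDcard, hDi]; norm_num))
  · exact absurd hmod' (by decide)
  · exact absurd hmod' (by decide)
  · exact absurd hmod' (by decide)
  · exact Or.inr (Subgroup.eq_of_le_of_card_ge hD (by rw [hDcard, hDi, hP.cardE]; norm_num))

/-- Cube counting for a pair of maps commuting up to a scalar. -/
theorem card_eq_cube {W : Submodule K4 V} {A B : V ≃ₗ[K4] V} {t : K4} (ht0 : t ≠ 0) (ht1 : t ≠ 1)
    (hWA : ∀ v ∈ W, A v ∈ W) (hWB : ∀ v ∈ W, B v ∈ W) (hA : ∀ v, A (A (A v)) = v)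
    (hB : ∀ v, B (B (B v)) = v) (hAB : ∀ v, B (A v) = t • A (B v)) :
    Nat.card W = Nat.card {v : V // v ∈ W ∧ B v = v} ^ 3 := by
  have htt : (t * t ≠ 1 ∧ t * t ≠ 0) ∧ 1 + t + t * t = 0 := by
    rcases K4.cases4 t with rfl | rfl | rfl | rfl
    · exact absurd rfl ht0
    · exact absurd rfl ht1
    · exact ⟨⟨by decide, by decide⟩, by decide⟩
    · exact ⟨⟨by decide, by decide⟩, by decide⟩
  obtain ⟨⟨ht2, -⟩, htsum⟩ := htt
  have h2 : ∀ v : V, v + v = 0 := fun v => by
    have := add_smul (1 : K4) 1 v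
    rw [K4.add_self, zero_smul, one_smul] at this
    exact this.symm
  have ht3 : t * t * t = 1 := K4.cube_eq_one t ht0
  let F := {v : V // v ∈ W ∧ B v = v}
  let pr : K4 → V → V := fun s v => v + s • B v + (s * s) • B (B v)
  have hpr : ∀ s, s * s * s = 1 → ∀ v, B (pr s v) = (s * s) • pr s v := by
    intro s hs v
    simp only [pr, map_add, map_smul, hB, smul_add, smul_smul, hs, one_smul]
    rw [show s * s * (s * s) = s by rw [← mul_assoc, hs, one_mul]]
    abel
  have hA1 : ∀ v, B v = v → B (A v) = t • A v := fun v hv => by rw [hAB, hv]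
  have hA2 : ∀ v, B v = v → B (A (A v)) = (t * t) • A (A v) := fun v hv => by
    rw [hAB, hA1 v hv, map_smul, smul_smul]
  let e : F × F × F → W := fun p =>
    ⟨(p.1 : V) + A p.2.1 + A (A p.2.2),
      W.add_mem (W.add_mem p.1.2.1 (hWA _ p.2.1.2.1)) (hWA _ (hWA _ p.2.2.2.1))⟩
  have hkill : ∀ (s r : K4) (v : V), B v = r • v → pr s v = (1 + s * r + (s * r) * (s * r)) • v := by
    intro s r v hv
    simp only [pr, hv, map_smul, smul_smul, add_smul, one_smul]
    rw [show s * s * (r * r) = s * r * (s * r) by ring]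
  have hbij : Function.Bijective e := by
    constructor
    · rintro ⟨x, y, z⟩ ⟨x', y', z'⟩ h
      have h' : (x : V) + A y + A (A z) = (x' : V) + A y' + A (A z') := congrArg Subtype.val h
      have hx : ∀ w : F, B (w : V) = (1 : K4) • (w : V) := fun w => by rw [one_smul]; exact w.2.2
      have hlin : ∀ s u v, pr s (u + v) = pr s u + pr s v := fun s u v => by
        simp only [pr, map_add, smul_add]; abel
      have key : ∀ s, pr s x + pr s (A y) + pr s (A (A z)) =
          pr s x' + pr s (A y') + pr s (A (A z')) := fun s => by rw [← hlin, ← hlin, h', hlin, hlin]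
      have hv1 : (1 : K4) + 1 * 1 + 1 * 1 * (1 * 1) = 1 := by decide
      have hv2 : ∀ s r : K4, s * r = t ∨ s * r = t * t → 1 + s * r + s * r * (s * r) = 0 := by
        intro s r hsr
        rcases hsr with e' | e' <;> rw [e']
        · exact htsum
        · rw [show t * t * (t * t) = t by rw [← mul_assoc, ht3, one_mul], add_right_comm]; exact htsum
      have k0 := key 1
      rw [hkill 1 1 _ (hx x), hkill 1 1 _ (hx x'), hkill 1 t _ (hA1 _ y.2.2),
        hkill 1 t _ (hA1 _ y'.2.2), hkill 1 _ _ (hA2 _ z.2.2), hkill 1 _ _ (hA2 _ z'.2.2), hv1,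
        hv2 1 t (Or.inl (one_mul _)), hv2 1 (t * t) (Or.inr (one_mul _))] at k0
      simp only [zero_smul, add_zero, one_smul] at k0
      have k1 := key (t * t)
      rw [hkill _ 1 _ (hx x), hkill _ 1 _ (hx x'), hkill _ t _ (hA1 _ y.2.2),
        hkill _ t _ (hA1 _ y'.2.2), hkill _ _ _ (hA2 _ z.2.2), hkill _ _ _ (hA2 _ z'.2.2),
        hv2 (t * t) 1 (Or.inr (mul_one _)),
        show t * t * t = 1 from ht3,
        hv2 (t * t) (t * t) (Or.inl (by rw [← mul_assoc, ht3, one_mul]))] at k1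
      simp only [zero_smul, add_zero, zero_add, mul_one, K4.add_self, zero_add, one_smul] at k1
      have k2 := h'
      rw [k0, A.injective k1, add_right_inj] at k2
      refine Prod.ext (Subtype.ext k0) (Prod.ext (Subtype.ext (A.injective k1)) (Subtype.ext ?_))
      exact A.injective (A.injective k2)
    · rintro ⟨v, hv⟩
      have hw : ∀ s, pr s v ∈ W := fun s =>
        W.add_mem (W.add_mem hv (W.smul_mem _ (hWB _ hv))) (W.smul_mem _ (hWB _ (hWB _ hv)))
      have h0 : B (pr 1 v) = pr 1 v := by rw [hpr 1 (by decide), one_mul, one_smul]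
      have hb1 : B (A (A (pr (t * t) v))) = A (A (pr (t * t) v)) := by
        rw [hAB, hAB, hpr (t * t) (by rw [show t * t * (t * t) * (t * t) = (t * t * t) * (t * t * t) by ring, ht3, one_mul])]
        simp only [map_smul, smul_smul]
        rw [show t * (t * (t * t * (t * t))) = (t * t * t) * (t * t * t) by ring, ht3, one_mul, one_smul]
      have hb2 : B (A (pr t v)) = A (pr t v) := by
        rw [hAB, hpr t ht3]
        simp only [map_smul, smul_smul]
        rw [← mul_assoc, ht3, one_smul]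
      refine ⟨(⟨pr 1 v, hw 1, h0⟩, ⟨A (A (pr (t * t) v)), hWA _ (hWA _ (hw _)), hb1⟩,
        ⟨A (pr t v), hWA _ (hw _), hb2⟩), Subtype.ext ?_⟩
      show pr 1 v + A (A (A (pr (t * t) v))) + A (A (A (pr t v))) = v
      rw [hA, hA]
      simp only [pr, one_mul, one_smul]
      rw [show t * t * (t * t) = t by rw [← mul_assoc, ht3, one_mul]]
      calc v + B v + B (B v) + (v + (t * t) • B v + t • B (B v)) + (v + t • B v + (t * t) • B (B v))
          = v + (v + v) + (1 + t + t * t) • B v + (1 + t + t * t) • B (B v) := by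
            simp only [add_smul, one_smul]; abel
        _ = v := by rw [htsum, h2]; simp
  rw [← Nat.card_congr (Equiv.ofBijective e hbij), Nat.card_prod, Nat.card_prod]
  show Nat.card F * (Nat.card F * Nat.card F) = _
  ring

section Preimages

variable {L : Subgroup (V ≃ₗ[K4] V)} {f : L →* P} {h : V → V → K4}

theorem Cover.scalar_central (c : Cover L f h) {g : L} (hg : f g = 1) (x : L) : x * g = g * x := by
  obtain ⟨a, ha⟩ := (c.ker g).1 hg
  apply Subtype.ext
  apply LinearEquiv.ext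
  intro v
  show (x : V ≃ₗ[K4] V) ((g : V ≃ₗ[K4] V) v) = (g : V ≃ₗ[K4] V) ((x : V ≃ₗ[K4] V) v)
  rw [ha, ha, map_smul]

theorem Cover.scalar_cube (c : Cover L f h) {g : L} (hg : f g = 1) : g ^ 3 = 1 := by
  obtain ⟨a, ha⟩ := (c.ker g).1 hg
  apply Subtype.ext
  apply LinearEquiv.ext
  intro v
  show (g : V ≃ₗ[K4] V) ((g : V ≃ₗ[K4] V) ((g : V ≃ₗ[K4] V) v)) = v
  rw [ha, ha, ha, smul_smul, smul_smul]
  by_cases h0 : a = 0
  · have : (g : V ≃ₗ[K4] V) v = 0 := by rw [ha, h0, zero_smul]
    rw [(LinearEquiv.map_eq_zero_iff _).1 this, smul_zero]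
  · rw [K4.cube_eq_one a h0, one_smul]

theorem Cover.image_invariant (hP : Para E S) (c : Cover L f h) (D : Subgroup L)
    (hD : D ≤ E.comap f) (hinv : ∀ g ∈ S.comap f, ∀ d ∈ D, g * d * g⁻¹ ∈ D) :
    D.map f = ⊥ ∨ D.map f = E := by
  refine hP.irreducible _ (Subgroup.map_le_iff_le_comap.2 hD) ?_
  rintro s hs _ ⟨d, hd, rfl⟩
  obtain ⟨g, rfl⟩ := c.surj s
  exact ⟨g * d * g⁻¹, hinv g hs d hd, by simp⟩

theorem Cover.cube_eq_one (hP : Para E S) (c : Cover L f h) {a : L} (ha : a ∈ E.comap f) :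
    a ^ 3 = 1 := by
  have hcomm : ∀ x ∈ E.comap f, ∀ y ∈ E.comap f, f (x * y * x⁻¹ * y⁻¹) = 1 := fun x hx y hy => by
    simp [hP.comm _ hx _ hy]
  have hmul : ∀ x ∈ E.comap f, ∀ y ∈ E.comap f, (x * y) ^ 3 = x ^ 3 * y ^ 3 := by
    intro x hx y hy
    set t := y * x * y⁻¹ * x⁻¹ with ht
    have htc : ∀ w, w * t = t * w := c.scalar_central (hcomm y hy x hx)
    have ht3 : t * t * t = 1 := by
      rw [← pow_two, ← pow_succ]; exact c.scalar_cube (hcomm y hy x hx)
    have hyx : ∀ w, y * (x * w) = x * (y * (t * w)) := fun w => by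
      calc y * (x * w) = t * (x * (y * w)) := by rw [ht]; group
        _ = x * (y * (t * w)) := by
          simp only [← mul_assoc]; rw [← htc x, mul_assoc x t y, ← htc y]; simp only [mul_assoc]
    have hty : ∀ w, t * (x * w) = x * (t * w) := fun w => by rw [← mul_assoc, ← htc, mul_assoc]
    have htz : ∀ w, t * (y * w) = y * (t * w) := fun w => by rw [← mul_assoc, ← htc, mul_assoc]
    simp only [pow_succ, pow_zero, one_mul, mul_assoc, hyx, hty, htz]
    have h3' : ∀ w, t * (t * (t * w)) = w := fun w => by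
      rw [← mul_assoc, ← mul_assoc, ht3, one_mul]
    rw [h3']
  let D : Subgroup L :=
    { carrier := {x | x ∈ E.comap f ∧ x ^ 3 = 1}
      one_mem' := ⟨one_mem _, one_pow _⟩
      mul_mem' := fun {x y} hx hy => ⟨mul_mem hx.1 hy.1, by rw [hmul x hx.1 y hy.1, hx.2, hy.2, one_mul]⟩
      inv_mem' := fun {x} hx => ⟨inv_mem hx.1, by rw [inv_pow, hx.2, inv_one]⟩ }
  have hker : ∀ x ∈ E.comap f, f (x ^ 3) = 1 := fun x hx => by rw [map_pow]; exact hP.three _ hx
  rcases c.image_invariant hP D (fun x hx => hx.1) (fun g hg d hd =>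
    ⟨by
      show f (g * d * g⁻¹) ∈ E
      rw [map_mul, map_mul, map_inv]; exact hP.norm _ hg _ hd.1,
     by rw [conj_pow, hd.2]; group⟩) with hb | ht
  · exfalso
    -- then `x ↦ x ^ 3` embeds `E` into the scalars
    haveI : Finite (V ≃ₗ[K4] V) := Finite.of_injective _ DFunLike.coe_injective
    have hsc : Nat.card f.ker ≤ 3 := by
      refine le_trans (Nat.card_le_card_of_injective (β := K4ˣ)
        (fun g => Units.mk0 ((c.ker g.1).1 g.2).choose (fun h0 => ?_)) ?_) ?_
      · obtain ⟨v, hv⟩ : ∃ v : V, v ≠ 0 := by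
          haveI : Nontrivial V := Finite.one_lt_card_iff_nontrivial.1 (by rw [c.card]; norm_num)
          exact exists_ne 0
        have := ((c.ker g.1).1 g.2).choose_spec v
        rw [h0, zero_smul] at this
        exact hv ((LinearEquiv.map_eq_zero_iff _).1 this)
      · intro g g' hgg
        have e := congrArg Units.val hgg
        simp only [Units.val_mk0] at e
        apply Subtype.ext
        apply Subtype.ext
        apply LinearEquiv.ext
        intro v
        rw [((c.ker g.1).1 g.2).choose_spec v, ((c.ker g'.1).1 g'.2).choose_spec v, e]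
      · rw [Nat.card_units, K4.card_eq]
    have hlift : ∀ e : E, ∃ x : L, f x = e := fun e => c.surj e
    choose x hx using hlift
    have hxm : ∀ e, x e ∈ E.comap f := fun e => by show f (x e) ∈ E; rw [hx]; exact e.2
    have := Nat.card_le_card_of_injective (α := E) (β := f.ker)
      (fun e => ⟨x e ^ 3, hker _ (hxm e)⟩) (fun e e' h => by
        have h' : x e ^ 3 = x e' ^ 3 := congrArg Subtype.val h
        have hd : x e * (x e')⁻¹ ∈ D := ⟨mul_mem (hxm e) (inv_mem (hxm e')), by
          rw [hmul _ (hxm e) _ (inv_mem (hxm e')), inv_pow, h', mul_inv_cancel]⟩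
        have hf : f (x e * (x e')⁻¹) ∈ D.map f := ⟨_, hd, rfl⟩
        rw [hb, Subgroup.mem_bot, map_mul, map_inv, hx, hx, mul_inv_eq_one] at hf
        exact Subtype.ext hf)
    rw [hP.cardE] at this
    omega
  · have hfa : f a ∈ D.map f := ht.symm ▸ ha
    obtain ⟨d, hd, hfd⟩ := hfa
    have hk : f (d⁻¹ * a) = 1 := by rw [map_mul, map_inv, hfd, inv_mul_cancel]
    have hcd := c.scalar_central hk d
    rw [show a = d * (d⁻¹ * a) by group, Commute.mul_pow hcd, hd.2, c.scalar_cube hk, one_mul]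

theorem Cover.commute (hP : Para E S) (c : Cover L f h) {a b : L} (ha : a ∈ E.comap f)
    (hb : b ∈ E.comap f) : a * b = b * a := by
  let D : Subgroup L := E.comap f ⊓ Subgroup.centralizer (E.comap f : Set L)
  have hDm : ∀ x, x ∈ D ↔ x ∈ E.comap f ∧ ∀ y ∈ E.comap f, y * x = x * y := fun x => by
    rw [Subgroup.mem_inf, Subgroup.mem_centralizer_iff]; rfl
  rcases c.image_invariant hP D inf_le_left (fun g hg d hd => by
    obtain ⟨hd1, hd2⟩ := (hDm d).1 hd
    have hn : ∀ s ∈ S.comap f, ∀ y ∈ E.comap f, s * y * s⁻¹ ∈ E.comap f := fun s hs y hy => by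
      show f (s * y * s⁻¹) ∈ E
      rw [map_mul, map_mul, map_inv]; exact hP.norm _ hs _ hy
    refine (hDm _).2 ⟨hn g hg d hd1, fun y hy => ?_⟩
    have := hd2 _ (by simpa using hn g⁻¹ (inv_mem hg) y hy : g⁻¹ * y * g ∈ E.comap f)
    calc y * (g * d * g⁻¹) = g * (g⁻¹ * y * g * d) * g⁻¹ := by group
      _ = g * (d * (g⁻¹ * y * g)) * g⁻¹ := by rw [this]
      _ = g * d * g⁻¹ * y := by group) with hbot | htop
  swap
  · have hfa : f a ∈ D.map f := htop.symm ▸ ha
    obtain ⟨d, hd, hfd⟩ := hfa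
    have hk : f (d⁻¹ * a) = 1 := by rw [map_mul, map_inv, hfd, inv_mul_cancel]
    rw [show a = d * (d⁻¹ * a) by group, mul_assoc, ← c.scalar_central hk b, ← mul_assoc,
      ← ((hDm d).1 hd).2 b hb, mul_assoc]
  exfalso
  set E' := E.comap f with hE'
  have hsc : ∀ x ∈ D, f x = 1 := fun x hx => by
    have : f x ∈ D.map f := ⟨x, hx, rfl⟩
    rwa [hbot, Subgroup.mem_bot] at this
  have hne : ∃ x ∈ E', ∃ y ∈ E', x * y ≠ y * x := by
    by_contra hall
    push Not at hall
    have hE : E' ≤ D := fun x hx => (hDm x).2 ⟨hx, fun y hy => hall y hy x hx⟩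
    have hbot' : E = ⊥ := by
      rw [Subgroup.eq_bot_iff_forall]
      intro e he
      obtain ⟨x, rfl⟩ := c.surj e
      exact hsc x (hE he)
    have := hP.cardE
    rw [hbot', Subgroup.card_bot] at this
    norm_num at this
  -- commutators are scalars
  have hcm : ∀ x ∈ E', ∀ y ∈ E', x * y ≠ y * x → ∃ t : K4, t ≠ 0 ∧ t ≠ 1 ∧
      ∀ v, (y : V ≃ₗ[K4] V) ((x : V ≃ₗ[K4] V) v) = t • (x : V ≃ₗ[K4] V) ((y : V ≃ₗ[K4] V) v) := by
    intro x hx y hy hxy
    obtain ⟨t, ht⟩ := (c.ker (y * x * y⁻¹ * x⁻¹)).1 (by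
      rw [map_mul, map_mul, map_mul, map_inv, map_inv, hP.comm _ hy _ hx]; group)
    have key : ∀ v, (y : V ≃ₗ[K4] V) ((x : V ≃ₗ[K4] V) v) =
        t • (x : V ≃ₗ[K4] V) ((y : V ≃ₗ[K4] V) v) := fun v => by
      rw [← ht]
      show (y * x : L).1 v = ((y * x * y⁻¹ * x⁻¹) * (x * y) : L).1 v
      rw [show (y * x * y⁻¹ * x⁻¹) * (x * y) = y * x by group]
    refine ⟨t, fun h0 => ?_, fun h1 => hxy ?_, key⟩
    · haveI : Nontrivial V := Finite.one_lt_card_iff_nontrivial.1 (by rw [c.card]; norm_num)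
      obtain ⟨v, hv⟩ := exists_ne (0 : V)
      have := key v
      rw [h0, zero_smul, LinearEquiv.map_eq_zero_iff, LinearEquiv.map_eq_zero_iff] at this
      exact hv this
    · apply Subtype.ext
      apply LinearEquiv.ext
      intro v
      have := key v
      rw [h1, one_smul] at this
      exact this.symm
  have hcube : ∀ x ∈ E', ∀ v, (x : V ≃ₗ[K4] V) ((x : V ≃ₗ[K4] V) ((x : V ≃ₗ[K4] V) v)) = v :=
    fun x hx v => by
      have := congrArg (fun g : L => (g : V ≃ₗ[K4] V) v) (c.cube_eq_one hP hx)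
      exact this
  obtain ⟨p, hp, q, hq, hpq⟩ := hne
  obtain ⟨t, ht0, ht1, htpq⟩ := hcm p hp q hq hpq
  let C : Subgroup L := E' ⊓ Subgroup.centralizer ({p, q} : Set L)
  have hCm : ∀ x, x ∈ C ↔ x ∈ E' ∧ p * x = x * p ∧ q * x = x * q := fun x => by
    rw [Subgroup.mem_inf, Subgroup.mem_centralizer_iff]
    simp
  by_cases hCab : ∀ x ∈ C, ∀ y ∈ C, x * y = y * x
  · -- then `C` is central and the image of `E'` is generated by two elements
    let R : L → L → K4 → Prop := fun a x r => ∀ v,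
      (a : V ≃ₗ[K4] V) ((x : V ≃ₗ[K4] V) v) = r • (x : V ≃ₗ[K4] V) ((a : V ≃ₗ[K4] V) v)
    have hex : ∀ a ∈ E', ∀ x ∈ E', ∃ r : K4, r ≠ 0 ∧ R a x r := by
      intro a ha x hx
      by_cases hax : x * a = a * x
      · exact ⟨1, one_ne_zero, fun v => by
          rw [one_smul]; exact (congrArg (fun g : L => (g : V ≃ₗ[K4] V) v) hax).symm⟩
      · obtain ⟨r, hr, -, hr'⟩ := hcm x hx a ha hax
        exact ⟨r, hr, hr'⟩
    have hRmul : ∀ a x y r s, R a x r → R a y s → R a (x * y) (r * s) := fun a x y r s hr hs v => by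
      show (a : V ≃ₗ[K4] V) ((x : V ≃ₗ[K4] V) ((y : V ≃ₗ[K4] V) v)) = _
      rw [hr, hs, map_smul, smul_smul]; rfl
    have hRpow : ∀ a x r, R a x r → ∀ n : ℕ, R a (x ^ n) (r ^ n) := by
      intro a x r hr n
      induction n with
      | zero => intro v; rw [pow_zero, pow_zero, one_smul]; rfl
      | succ n ih => rw [pow_succ, pow_succ]; exact hRmul _ _ _ _ _ ih hr
    have hRone : ∀ a x, R a x 1 → a * x = x * a := fun a x hr => by
      apply Subtype.ext
      apply LinearEquiv.ext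
      intro v
      exact (hr v).trans (one_smul _ _)
    have hself : ∀ a, R a a 1 := fun a v => (one_smul _ _).symm
    have hqp : R q p t := htpq
    have hpq' : R p q (t * t) := fun v => by
      rw [htpq, smul_smul, K4.cube_eq_one t ht0, one_smul]
    have hdecomp : ∀ x ∈ E', ∃ i j : ℕ, x * q ^ i * p ^ j ∈ C := by
      intro x hx
      obtain ⟨r, hr, hRr⟩ := hex p hp x hx
      obtain ⟨s, hs, hRs⟩ := hex q hq x hx
      have hpick : ∀ u : K4, u ≠ 0 → (∃ i : ℕ, u * (t * t) ^ i = 1) ∧ ∃ j : ℕ, u * t ^ j = 1 := by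
        intro u hu
        have := (by decide : ∀ t u : K4, t ≠ 0 → t ≠ 1 → u ≠ 0 →
          (∃ i : Fin 3, u * (t * t) ^ (i : ℕ) = 1) ∧ ∃ j : Fin 3, u * t ^ (j : ℕ) = 1) t u ht0 ht1 hu
        exact ⟨⟨_, this.1.choose_spec⟩, ⟨_, this.2.choose_spec⟩⟩
      obtain ⟨i, hi⟩ := (hpick r hr).1
      obtain ⟨j, hj⟩ := (hpick s hs).2
      refine ⟨i, j, (hCm _).2 ⟨mul_mem (mul_mem hx (pow_mem hq _)) (pow_mem hp _), hRone _ _ ?_,
        hRone _ _ ?_⟩⟩
      · have := hRmul _ _ _ _ _ (hRmul _ _ _ _ _ hRr (hRpow _ _ _ hpq' i)) (hRpow _ _ _ (hself p) j)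
        rwa [one_pow, mul_one, hi] at this
      · have := hRmul _ _ _ _ _ (hRmul _ _ _ _ _ hRs (hRpow _ _ _ (hself q) i)) (hRpow _ _ _ hqp j)
        rwa [one_pow, mul_one, hj] at this
    have hcen : ∀ c' ∈ C, c' ∈ D := by
      intro c' hc'
      refine (hDm _).2 ⟨((hCm c').1 hc').1, fun y hy => ?_⟩
      obtain ⟨i, j, hy'⟩ := hdecomp y hy
      have h1 : Commute c' (y * q ^ i * p ^ j) := hCab _ hc' _ hy'
      have h2 : Commute c' (p ^ j) := (show Commute p c' from ((hCm c').1 hc').2.1).symm.pow_right _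
      have h3 : Commute c' (q ^ i) := (show Commute q c' from ((hCm c').1 hc').2.2).symm.pow_right _
      have := (h1.mul_right h2.inv_right).mul_right h3.inv_right
      rw [mul_inv_cancel_right, mul_inv_cancel_right] at this
      exact this.eq.symm
    have hle : Nat.card E ≤ Nat.card (Fin 3 × Fin 3) := by
      refine Nat.card_le_card_of_surjective
        (fun ij : Fin 3 × Fin 3 => (⟨f p ^ (ij.1 : ℕ) * f q ^ (ij.2 : ℕ),
          mul_mem (pow_mem (show f p ∈ E from hp) _) (pow_mem (show f q ∈ E from hq) _)⟩ : E)) fun e => ?_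
      obtain ⟨x, hx⟩ := c.surj e
      have hxE : x ∈ E' := by show f x ∈ E; rw [hx]; exact e.2
      obtain ⟨i, j, hij⟩ := hdecomp x hxE
      have h1' := hsc _ (hcen _ hij)
      rw [map_mul, map_mul, map_pow, map_pow, mul_assoc, mul_eq_one_iff_eq_inv, hx, mul_inv_rev,
        ← inv_pow, ← inv_pow] at h1'
      have hinv : ∀ w ∈ E, w⁻¹ = w ^ 2 := fun w hw =>
        inv_eq_of_mul_eq_one_right (by rw [← pow_succ']; exact hP.three w hw)
      have hred : ∀ w ∈ E, ∀ n : ℕ, w ^ n = w ^ (n % 3) := fun w hw n => by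
        conv_lhs => rw [← Nat.div_add_mod n 3, pow_add, pow_mul, hP.three w hw, one_pow, one_mul]
      rw [hinv _ hp, hinv _ hq, ← pow_mul, ← pow_mul, hred _ hp, hred _ hq] at h1'
      exact ⟨(⟨_, Nat.mod_lt _ (by norm_num)⟩, ⟨_, Nat.mod_lt _ (by norm_num)⟩), Subtype.ext h1'.symm⟩
    rw [hP.cardE, Nat.card_prod, Nat.card_fin] at hle
    omega
  · push Not at hCab
    obtain ⟨x, hxC, y, hyC, hxy⟩ := hCab
    obtain ⟨hx, hxp, hxq⟩ := (hCm x).1 hxC
    obtain ⟨hy, hyp, hyq⟩ := (hCm y).1 hyC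
    obtain ⟨s, hs0, hs1, hsxy⟩ := hcm x hx y hy hxy
    have h1 := card_eq_cube (W := (⊤ : Submodule K4 V)) ht0 ht1 (fun _ _ => trivial)
      (fun _ _ => trivial) (hcube p hp) (hcube q hq) htpq
    let W0 : Submodule K4 V :=
      { carrier := {v | (q : V ≃ₗ[K4] V) v = v}
        zero_mem' := map_zero _
        add_mem' := fun {u v} hu hv => by
          show (q : V ≃ₗ[K4] V) (u + v) = u + v
          rw [map_add, hu, hv]
        smul_mem' := fun a v hv => by
          show (q : V ≃ₗ[K4] V) (a • v) = a • v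
          rw [map_smul, hv] }
    have hfixq : ∀ w : L, q * w = w * q → ∀ v ∈ W0, (w : V ≃ₗ[K4] V) v ∈ W0 := fun w hw v hv => by
      show (q * w : L).1 v = _
      rw [hw]
      show (w : V ≃ₗ[K4] V) ((q : V ≃ₗ[K4] V) v) = _
      rw [hv]
    have h2 := card_eq_cube (W := W0) hs0 hs1 (hfixq x hxq) (hfixq y hyq) (hcube x hx) (hcube y hy) hsxy
    have e1 : Nat.card {v : V // v ∈ (⊤ : Submodule K4 V) ∧ (q : V ≃ₗ[K4] V) v = v} = Nat.card W0 :=
      Nat.card_congr (Equiv.subtypeEquivRight fun v => by simp; rfl)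
    rw [e1, Nat.card_congr (Submodule.topEquiv (R := K4) (M := V)).toEquiv, c.card, h2] at h1
    set n := Nat.card {v : V // v ∈ W0 ∧ (y : V ≃ₗ[K4] V) v = v}
    have : n ≤ 2 ∨ 3 ≤ n := by omega
    rcases this with hn | hn
    · interval_cases n <;> norm_num at h1
    · have := Nat.pow_le_pow_left (Nat.pow_le_pow_left hn 3) 3
      omega

end Preimages

end CfsgLib.FischerLarge
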