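import Cfsg.Prelude.Def_Solvable
import Cfsg.Agent.Lib.ClassicalLinear.Generation
import Cfsg.Agent.Lib.Generators.SmallPermGroups
import Mathlib.LinearAlgebra.Matrix.GeneralLinearGroup.Defs
import Mathlib.LinearAlgebra.Matrix.Transvection

/-!
FischerLarge: generation of the automorphism group of an eight group, and the product structure of a
group over a normal subgroup with simple quotient.
-/

set_option autoImplicit false
set_option linter.style.haveILetI false
set_option linter.unusedSectionVars false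

namespace CfsgLib.FischerLarge

open Matrix

/-- The pick of an element by a bit. -/
def pickEl {A : Type*} [One A] (i : Bool) (x : A) : A := if i then x else 1

/-- `SL(3,2)` and `GL(3,2)` coincide. -/
theorem toGL_three_bijective : Function.Bijective (Matrix.SpecialLinearGroup.toGL :
    Matrix.SpecialLinearGroup (Fin 3) (ZMod 2) →* GL (Fin 3) (ZMod 2)) := by
  have hone : ∀ u : (ZMod 2)ˣ, u = 1 := by decide
  refine ⟨Matrix.SpecialLinearGroup.toGL_injective, fun g => ?_⟩
  have hdet := congrArg Units.val (hone (Matrix.GeneralLinearGroup.det g))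
  rw [Matrix.GeneralLinearGroup.val_det_apply] at hdet
  exact ⟨⟨g, hdet⟩, Units.ext rfl⟩

theorem isSimple_SL3 : IsSimpleGroup (Matrix.SpecialLinearGroup (Fin 3) (ZMod 2)) := by
  have := CfsgLib.Generators.SmallPermGroups.isSimple_GL3
  exact (MulEquiv.ofBijective _ toGL_three_bijective).isSimpleGroup

theorem not_isPGroup_SL3 : ¬ IsPGroup 2 (Matrix.SpecialLinearGroup (Fin 3) (ZMod 2)) := by
  intro hp
  let a : Matrix.SpecialLinearGroup (Fin 3) (ZMod 2) := ⟨!![0, 0, 1; 1, 0, 0; 0, 1, 0], by decide⟩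
  obtain ⟨k, hk⟩ := hp a
  have h3 : a ^ 3 = 1 := Subtype.ext (by rw [Matrix.SpecialLinearGroup.coe_pow, Matrix.SpecialLinearGroup.coe_one]; decide +kernel)
  have h1 := Nat.dvd_gcd (orderOf_dvd_of_pow_eq_one hk) (orderOf_dvd_of_pow_eq_one h3)
  rw [Nat.Coprime.pow_left k (by norm_num : Nat.Coprime 2 3), Nat.dvd_one, orderOf_eq_one_iff] at h1
  exact absurd (congrArg Subtype.val h1) (by decide +kernel)

/-- The automorphism group of an eight group with generators is `SL(3,2)`, and it is generated by any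
subgroup moving `z` to every involution and containing all transvections with centre `z`. -/
theorem exists_autEquiv {A : Type*} [Group A] [Finite A] (hA : Nat.card A = 8) (hsq : ∀ a : A, a * a = 1)
    {z s w : A} (hgen : ∀ x : A, ∃ i j k : Bool, x = pickEl i z * pickEl j s * pickEl k w)
    (H : Subgroup (MulAut A)) (htrans : ∀ a : A, a ≠ 1 → ∃ α ∈ H, α z = a)
    (htv : ∀ i j : Bool, ∃ α ∈ H, α z = z ∧ α s = s * pickEl i z ∧ α w = w * pickEl j z) :
    Nonempty (MulAut A ≃* Matrix.SpecialLinearGroup (Fin 3) (ZMod 2)) ∧ H = ⊤ := by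
  have hcomm : ∀ a b : A, a * b = b * a := fun a b => by
    have h1 := hsq (a * b)
    calc a * b = a * b * ((b * a) * (b * a)) := by rw [hsq, mul_one]
      _ = a * (b * b) * a * (b * a) := by group
      _ = b * a := by rw [hsq b, mul_one, hsq a, one_mul]
  letI : CommGroup A := { (inferInstance : Group A) with mul_comm := hcomm }
  let bit : ZMod 2 → Bool := fun c => decide (c = 1)
  let F : Multiplicative (Fin 3 → ZMod 2) →* A :=
    { toFun := fun v => pickEl (bit (v.toAdd 0)) z * pickEl (bit (v.toAdd 1)) s * pickEl (bit (v.toAdd 2)) w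
      map_one' := by simp [bit, pickEl]
      map_mul' := fun u v => by
        have key : ∀ (c d : ZMod 2) (x : A), pickEl (bit (c + d)) x = pickEl (bit c) x * pickEl (bit d) x := by
          intro c d x
          rcases (by decide : ∀ c : ZMod 2, c = 0 ∨ c = 1) c with rfl | rfl <;>
            rcases (by decide : ∀ c : ZMod 2, c = 0 ∨ c = 1) d with rfl | rfl <;>
              simp [bit, pickEl, hsq, show (1 : ZMod 2) + 1 = 0 from rfl]
        simp only [toAdd_mul, Pi.add_apply, key]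
        ac_rfl }
  have hFs : Function.Surjective F := fun x => by
    obtain ⟨i, j, k, rfl⟩ := hgen x
    refine ⟨Multiplicative.ofAdd ![if i then 1 else 0, if j then 1 else 0, if k then 1 else 0], ?_⟩
    cases i <;> cases j <;> cases k <;> simp [F, bit, pickEl]
  have hFb : Function.Bijective F := (Nat.bijective_iff_surjective_and_card F).2 ⟨hFs, by
    rw [hA, Nat.card_congr Multiplicative.toAdd, Nat.card_fun, Nat.card_zmod, Nat.card_fin]; norm_num⟩
  let e : Multiplicative (Fin 3 → ZMod 2) ≃* A := MulEquiv.ofBijective F hFb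
  let E : MulAut A ≃* ((Fin 3 → ZMod 2) ≃ₗ[ZMod 2] (Fin 3 → ZMod 2)) :=
    { toFun := fun α => (AddEquiv.toMultiplicative.symm ((e.trans α).trans e.symm)).toLinearEquiv (fun c x => ZMod.map_smul _ c x)
      invFun := fun l => (e.symm.trans (AddEquiv.toMultiplicative l.toAddEquiv)).trans e
      left_inv := fun α => MulEquiv.ext fun x => by
        show e (Multiplicative.ofAdd (e.symm (α (e (Multiplicative.ofAdd (e.symm x).toAdd)))).toAdd) = α x
        simp
      right_inv := fun l => LinearEquiv.ext fun v => by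
        show (e.symm (e (Multiplicative.ofAdd (l (e.symm (e (Multiplicative.ofAdd v))).toAdd)))).toAdd = l v
        simp
      map_mul' := fun α β => LinearEquiv.ext fun v => by
        show (e.symm (α (β (e (Multiplicative.ofAdd v))))).toAdd =
          (e.symm (α (e (Multiplicative.ofAdd (e.symm (β (e (Multiplicative.ofAdd v)))).toAdd)))).toAdd
        simp }
  have hE : ∀ (α : MulAut A) (v : (Fin 3 → ZMod 2)), e (Multiplicative.ofAdd (E α v)) = α (e (Multiplicative.ofAdd v)) := by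
    intro α v
    show e (Multiplicative.ofAdd (e.symm (α (e (Multiplicative.ofAdd v)))).toAdd) = _
    simp
  let toSL : ((Fin 3 → ZMod 2) ≃ₗ[ZMod 2] (Fin 3 → ZMod 2)) ≃* Matrix.SpecialLinearGroup (Fin 3) (ZMod 2) :=
    ((LinearMap.GeneralLinearGroup.generalLinearEquiv (ZMod 2) (Fin 3 → ZMod 2)).symm.trans
      Matrix.GeneralLinearGroup.toLin.symm).trans (MulEquiv.ofBijective _ toGL_three_bijective).symm
  refine ⟨⟨E.trans toSL⟩, ?_⟩
  set H' := H.map E.toMonoidHom with hH'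
  let u : Fin 3 → (Fin 3 → ZMod 2) := fun i => Pi.single i 1
  have he : e (Multiplicative.ofAdd (u 0)) = z ∧ e (Multiplicative.ofAdd (u 1)) = s ∧
      e (Multiplicative.ofAdd (u 2)) = w := by
    refine ⟨?_, ?_, ?_⟩ <;> simp [e, F, u, bit, pickEl]
  have hexp : ∀ x : (Fin 3 → ZMod 2), x = x 0 • u 0 + x 1 • u 1 + x 2 • u 2 := fun x => by
    funext i
    fin_cases i <;> simp [u]
  have htransW : ∀ v : (Fin 3 → ZMod 2), v ≠ 0 → ∃ l ∈ H', l (u 0) = v := fun v hv => by
    obtain ⟨α, hα, hαz⟩ := htrans (e (Multiplicative.ofAdd v)) (by simpa using hv)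
    refine ⟨E α, ⟨α, hα, rfl⟩, ?_⟩
    have := hE α (u 0)
    rw [he.1, hαz] at this
    exact Multiplicative.ofAdd.injective (e.injective this)
  have htvW : ∀ χ : (Fin 3 → ZMod 2) →ₗ[ZMod 2] ZMod 2, χ (u 0) = 0 → ∃ l ∈ H', ∀ x, l x = x + χ x • u 0 := by
    intro χ hχ
    obtain ⟨α, hα, hαz, hαs, hαw⟩ := htv (bit (χ (u 1))) (bit (χ (u 2)))
    refine ⟨E α, ⟨α, hα, rfl⟩, ?_⟩
    have hval : ∀ (v : (Fin 3 → ZMod 2)) (y : A) (c : ZMod 2), e (Multiplicative.ofAdd v) = y →
        α y = y * pickEl (bit c) z → E α v = v + c • u 0 := by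
      intro v y c hv hy
      refine Multiplicative.ofAdd.injective (e.injective ?_)
      rw [hE, hv, hy, ofAdd_add, map_mul, hv]
      congr 1
      rcases (by decide : ∀ c : ZMod 2, c = 0 ∨ c = 1) c with rfl | rfl
      · simp [bit, pickEl]
      · simp [bit, pickEl, he.1]
    have h0 := hval (u 0) z 0 he.1 (by simp [hαz, bit, pickEl])
    have h1 := hval (u 1) s _ he.2.1 hαs
    have h2 := hval (u 2) w _ he.2.2 hαw
    intro x
    conv_lhs => rw [hexp x]
    rw [map_add, map_add, map_smul, map_smul, map_smul, h0, h1, h2]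
    conv_rhs => arg 2; rw [hexp x, map_add, map_add, map_smul, map_smul, map_smul, hχ]
    conv_rhs => arg 1; rw [hexp x]
    simp only [smul_eq_mul, add_smul, mul_smul, smul_add, mul_zero, zero_smul, smul_zero]
    abel
  suffices h : (H'.map toSL.toMonoidHom) = ⊤ by
    rw [← Subgroup.comap_map_eq_self_of_injective (f := toSL.toMonoidHom) toSL.injective H', h,
      Subgroup.comap_top] at hH'
    rw [← Subgroup.comap_map_eq_self_of_injective (f := E.toMonoidHom) E.injective H, ← hH', Subgroup.comap_top]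
  refine CfsgLib.ClassicalLinear.eq_top_of_transvection_mem fun i j hij c => ?_
  rcases (by decide : ∀ c : ZMod 2, c = 0 ∨ c = 1) c with rfl | rfl
  · have : SpecialLinearGroup.transvection hij (0 : ZMod 2) = 1 :=
      Subtype.ext (Matrix.transvection_zero i j)
    rw [this]; exact one_mem _
  obtain ⟨n, hn, hn0⟩ := htransW (u i) (by simp [u])
  obtain ⟨l, hl, hlv⟩ := htvW ((LinearMap.proj j).comp n.toLinearMap) (by
    show n (u 0) j = 0
    rw [hn0]; simp [u, hij.symm])
  refine ⟨n * l * n⁻¹, mul_mem (mul_mem hn hl) (inv_mem hn), ?_⟩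
  show toSL (n * l * n⁻¹) = _
  rw [← MulEquiv.eq_symm_apply]
  apply LinearEquiv.ext
  intro x
  show n (l (n.symm x)) = Matrix.mulVecLin (Matrix.transvection i j (1 : ZMod 2)) x
  rw [hlv, map_add, map_smul, hn0, LinearEquiv.apply_symm_apply, Matrix.mulVecLin_apply,
    Matrix.transvection, Matrix.add_mulVec, Matrix.one_mulVec]
  congr 1
  show (n (n.symm x)) j • u i = _
  rw [LinearEquiv.apply_symm_apply]
  funext k
  rcases eq_or_ne k i with rfl | hk
  · simp [u, Matrix.mulVec, dotProduct, Matrix.single, Finset.sum_ite_eq]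
  · simp [u, hk, Matrix.mulVec, dotProduct, Matrix.single, Ne.symm hk]

/-- The structure of a group over a normal subgroup with simple quotient acting trivially on a complement. -/
theorem product_structure {N S A : Type*} [Group N] [Finite N] [Group S] [Group A] [IsSimpleGroup S] [IsSimpleGroup A]
    (hS : ¬ IsPGroup 2 S) (hA : ¬ IsPGroup 2 A) (hAc : Subgroup.center A = ⊥) (φ : N →* S)
    (hφ : Function.Surjective φ) (θ : φ.ker →* A) (hθ : Function.Surjective θ) (hR : IsPGroup 2 θ.ker)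
    {q : N} (hq : φ q ≠ 1) (hqc : ∀ c ∈ φ.ker, q * c * q⁻¹ * c⁻¹ ∈ θ.ker.map φ.ker.subtype) :
    θ.ker.map φ.ker.subtype = Cfsg.pCore 2 N ∧
      ∃ _ : (θ.ker.map φ.ker.subtype).Normal, Nonempty (N ⧸ θ.ker.map φ.ker.subtype ≃* S × A) := by
  set R := θ.ker.map φ.ker.subtype with hRdef
  have hRC : R ≤ φ.ker := Subgroup.map_subtype_le _
  have hR2 : IsPGroup 2 R := hR.map _
  have hmemR : ∀ c : φ.ker, (c : N) ∈ R ↔ θ c = 1 := fun c =>
    ⟨fun ⟨d, hd, e⟩ => (show d = c from Subtype.ext e) ▸ hd, fun h => ⟨c, h, rfl⟩⟩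
  -- `2`-subgroups of the kernel normalised by it lie in `R`
  have hmax : ∀ T : Subgroup N, T ≤ φ.ker → IsPGroup 2 T →
      (∀ c ∈ φ.ker, ∀ t ∈ T, c * t * c⁻¹ ∈ T) → T ≤ R := by
    intro T hT hT2 hn
    let T' : Subgroup A := (T.subgroupOf φ.ker).map θ
    have : (T.subgroupOf φ.ker).Normal := ⟨fun t ht c => hn c c.2 t ht⟩
    haveI : T'.Normal := this.map θ hθ
    have hT'2 : IsPGroup 2 T' := (hT2.of_equiv (Subgroup.subgroupOfEquivOfLe hT).symm).map θ
    have hbot : T' = ⊥ := (Subgroup.Normal.eq_bot_or_eq_top (H := T') inferInstance).resolve_right fun e =>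
      hA (IsPGroup.of_equiv (e ▸ hT'2) Subgroup.topEquiv)
    intro t ht
    refine (hmemR ⟨t, hT ht⟩).2 ?_
    have : θ ⟨t, hT ht⟩ ∈ T' := ⟨_, ht, rfl⟩
    rwa [hbot, Subgroup.mem_bot] at this
  have hRn' : ∀ c ∈ φ.ker, ∀ t ∈ R, c * t * c⁻¹ ∈ R := fun c hc t ht => by
    refine (hmemR (⟨c, hc⟩ * ⟨t, hRC ht⟩ * ⟨c, hc⟩⁻¹)).2 ?_
    rw [map_mul, map_mul, map_inv, (hmemR ⟨t, hRC ht⟩).1 ht, mul_one, mul_inv_cancel]
  haveI hRn : R.Normal := ⟨fun t ht n => by
    refine hmax (R.map (MulAut.conj n).toMonoidHom) ?_ (hR2.map _) ?_ ⟨t, ht, rfl⟩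
    · rintro _ ⟨r, hr, rfl⟩
      exact φ.normal_ker.conj_mem r (hRC hr) n
    · rintro c hc _ ⟨r, hr, rfl⟩
      refine ⟨n⁻¹ * c * n * r * (n⁻¹ * c * n)⁻¹,
        hRn' _ (by simpa using φ.normal_ker.conj_mem c hc n⁻¹) r hr, ?_⟩
      show n * (n⁻¹ * c * n * r * (n⁻¹ * c * n)⁻¹) * n⁻¹ = c * (n * r * n⁻¹) * c⁻¹
      group⟩
  have hcore : R = Cfsg.pCore 2 N := by
    refine le_antisymm (le_sSup ⟨hRn, hR2⟩) (sSup_le ?_)
    rintro T ⟨hTn, hT2⟩
    refine hmax T ?_ hT2 fun c _ t ht => hTn.conj_mem t ht c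
    haveI : (T.map φ).Normal := hTn.map φ hφ
    have hbot : T.map φ = ⊥ := (Subgroup.Normal.eq_bot_or_eq_top (H := T.map φ) inferInstance).resolve_right fun e =>
      hS (IsPGroup.of_equiv (e ▸ hT2.map φ) Subgroup.topEquiv)
    exact (Subgroup.map_eq_bot_iff T).1 hbot
  refine ⟨hcore, hRn, ?_⟩
  -- the centraliser of the kernel modulo `R`
  let K : Subgroup N :=
    { carrier := {n | ∀ c ∈ φ.ker, n * c * n⁻¹ * c⁻¹ ∈ R}
      one_mem' := fun c _ => by simp
      mul_mem' := fun {a b} ha hb c hc => by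
        rw [show a * b * c * (a * b)⁻¹ * c⁻¹ = a * (b * c * b⁻¹ * c⁻¹) * a⁻¹ * (a * c * a⁻¹ * c⁻¹) by group]
        exact mul_mem (hRn.conj_mem _ (hb c hc) a) (ha c hc)
      inv_mem' := fun {a} ha c hc => by
        rw [show a⁻¹ * c * a⁻¹⁻¹ * c⁻¹ = a⁻¹ * (a * c * a⁻¹ * c⁻¹)⁻¹ * a⁻¹⁻¹ by group]
        exact hRn.conj_mem _ (inv_mem (ha c hc)) a⁻¹ }
  haveI hKn : K.Normal := ⟨fun k hk n c hc => by
    rw [show n * k * n⁻¹ * c * (n * k * n⁻¹)⁻¹ * c⁻¹ =
      n * (k * (n⁻¹ * c * n) * k⁻¹ * (n⁻¹ * c * n)⁻¹) * n⁻¹ by group]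
    exact hRn.conj_mem _ (hk _ (by simpa using φ.normal_ker.conj_mem c hc n⁻¹)) n⟩
  have hKC : ∀ c : φ.ker, (c : N) ∈ K → θ c = 1 := fun c hc => by
    have : θ c ∈ Subgroup.center A := Subgroup.mem_center_iff.2 fun a => by
      obtain ⟨d, rfl⟩ := hθ a
      have h1 := (hmemR (c * d * c⁻¹ * d⁻¹)).1 (hc d d.2)
      rw [map_mul, map_mul, map_mul, map_inv, map_inv, mul_inv_eq_one, mul_inv_eq_iff_eq_mul] at h1
      exact h1.symm
    rwa [hAc, Subgroup.mem_bot] at this
  have hRK : R ≤ K := fun r hr c hc => by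
    rw [show r * c * r⁻¹ * c⁻¹ = r * (c * r⁻¹ * c⁻¹) by group]
    exact mul_mem hr (hRn.conj_mem _ (inv_mem hr) c)
  have hKtop : K.map φ = ⊤ := by
    haveI : (K.map φ).Normal := hKn.map φ hφ
    refine (Subgroup.Normal.eq_bot_or_eq_top (H := K.map φ) inferInstance).resolve_left fun e => hq ?_
    have : φ q ∈ K.map φ := ⟨q, hqc, rfl⟩
    rwa [e, Subgroup.mem_bot] at this
  have hdec : ∀ n : N, ∃ c : φ.ker, n * (c : N)⁻¹ ∈ K := fun n => by
    obtain ⟨k, hk, hkn⟩ : φ n ∈ K.map φ := hKtop ▸ Subgroup.mem_top _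
    refine ⟨⟨k⁻¹ * n, by rw [MonoidHom.mem_ker, map_mul, map_inv, hkn, inv_mul_cancel]⟩, ?_⟩
    rw [show n * (k⁻¹ * n)⁻¹ = k by group]
    exact hk
  choose c hc using hdec
  have huniq : ∀ (n : N) (d : φ.ker), n * (d : N)⁻¹ ∈ K → θ (c n) = θ d := fun n d hd => by
    have h1 : ((c n * d⁻¹ : φ.ker) : N) ∈ K := by
      rw [show ((c n * d⁻¹ : φ.ker) : N) = (n * (c n : N)⁻¹)⁻¹ * (n * (d : N)⁻¹) by push_cast; group]
      exact mul_mem (inv_mem (hc n)) hd
    have := hKC _ h1
    rwa [map_mul, map_inv, mul_inv_eq_one] at this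
  let Θ : N →* S × A := MonoidHom.mk' (fun n => (φ n, θ (c n))) fun a b => by
    refine Prod.ext (map_mul φ a b) ?_
    show θ (c (a * b)) = θ (c a) * θ (c b)
    rw [← map_mul]
    refine huniq _ _ ?_
    rw [show a * b * ((c a * c b : φ.ker) : N)⁻¹ =
      (a * (c a : N)⁻¹) * ((c a : N) * (b * (c b : N)⁻¹) * (c a : N)⁻¹) by push_cast; group]
    exact mul_mem (hc a) (hKn.conj_mem _ (hc b) _)
  have hker : Θ.ker = R := by
    ext n
    rw [MonoidHom.mem_ker]
    show ((φ n, θ (c n)) : S × A) = 1 ↔ _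
    rw [Prod.mk_eq_one]
    constructor
    · rintro ⟨h1, h2⟩
      rw [huniq n ⟨n, h1⟩ (by simp)] at h2
      exact (hmemR ⟨n, h1⟩).2 h2
    · intro hn
      exact ⟨hRC hn, by rw [huniq n 1 (by simpa using hRK hn), map_one]⟩
  have hsurj : Function.Surjective Θ := by
    rintro ⟨x, a⟩
    obtain ⟨k, hk, hkx⟩ : x ∈ K.map φ := hKtop ▸ Subgroup.mem_top _
    obtain ⟨d, rfl⟩ := hθ a
    refine ⟨k * d, Prod.ext ?_ (huniq _ d (by simpa using hk))⟩
    show φ (k * d) = x
    rw [map_mul, MonoidHom.mem_ker.1 d.2, mul_one, hkx]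
  exact ⟨(QuotientGroup.quotientMulEquivOfEq hker.symm).trans (QuotientGroup.quotientKerEquivOfSurjective Θ hsurj)⟩

end CfsgLib.FischerLarge
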