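import Cfsg.Agent.Lib.FischerLarge.LineStab
import Mathlib.GroupTheory.SpecificGroups.Alternating.Simple

/-!
FischerLarge: the eight group `V` over the line of `π s`, described through the common centraliser
of `z` and `s` alone.
-/

set_option autoImplicit false
set_option linter.style.haveILetI false
set_option linter.unusedSectionVars false

namespace CfsgLib.FischerLarge

open scoped Classical commutatorElement
open Cfsg

/-- A vector fixed by all commutators of the stabiliser of a vector of full weight lies on its line. -/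
theorem HasMonomial.fixed_line {V : Type*} [AddCommGroup V] [Module K4 V] [Finite V]
    {L : Subgroup (V ≃ₗ[K4] V)} {ψ : V ≃ₗ[K4] (Fin 6 → K4)} (hm : HasMonomial L ψ) {x u : V}
    (hx : ∀ i, ψ x i ≠ 0)
    (hu : ∀ g₁ g₂ : L, (g₁ : V ≃ₗ[K4] V) x = x → (g₂ : V ≃ₗ[K4] V) x = x →
      ((⁅g₁, g₂⁆ : L) : V ≃ₗ[K4] V) u = u) : ∃ k : K4, u = k • x := by
  have hex : ∀ σ : alternatingGroup (Fin 6), ∃ γ : L, ∀ w i,
      ψ ((γ : V ≃ₗ[K4] V) w) i =
        ψ x i * (ψ x ((σ⁻¹ : Equiv.Perm (Fin 6)) i))⁻¹ * ψ w ((σ⁻¹ : Equiv.Perm (Fin 6)) i) := by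
    intro σ
    obtain ⟨γ, hγ, hγv⟩ := hm _ (inv_mem σ.2)
      (fun i => ψ x i * (ψ x ((σ⁻¹ : Equiv.Perm (Fin 6)) i))⁻¹) (by
      rw [Finset.prod_mul_distrib, Finset.prod_inv_distrib, Equiv.prod_comp,
        mul_inv_cancel₀ (Finset.prod_ne_zero_iff.2 fun i _ => hx i)])
    exact ⟨⟨γ, hγ⟩, hγv⟩
  choose γ hγ using hex
  let φ : alternatingGroup (Fin 6) →* L := MonoidHom.mk' γ fun σ τ => by
    apply Subtype.ext
    apply LinearEquiv.ext
    intro w
    apply ψ.injective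
    funext i
    rw [hγ]
    show _ = ψ ((γ σ : V ≃ₗ[K4] V) ((γ τ : V ≃ₗ[K4] V) w)) i
    rw [hγ σ, hγ τ, Subgroup.coe_mul, mul_inv_rev, Equiv.Perm.mul_apply]
    have h0 := hx ((σ⁻¹ : Equiv.Perm (Fin 6)) i)
    field_simp
  have hfix : ∀ σ, (γ σ : V ≃ₗ[K4] V) x = x := fun σ => by
    apply ψ.injective
    funext i
    rw [hγ, mul_assoc, inv_mul_cancel₀ (hx _), mul_one]
  let K : Subgroup (alternatingGroup (Fin 6)) :=
    (MulAction.stabilizer L u).comap φ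
  have hK : K = ⊤ := by
    rw [eq_top_iff, ← commutator_alternatingGroup_eq_top (α := Fin 6) (by simp),
      commutator_def, Subgroup.commutator_le]
    intro σ _ τ _
    show φ ⁅σ, τ⁆ • u = u
    rw [map_commutatorElement]
    exact hu _ _ (hfix σ) (hfix τ)
  refine ⟨ψ u 0 * (ψ x 0)⁻¹, ψ.injective (funext fun i => ?_)⟩
  rw [map_smul]
  show ψ u i = ψ u 0 * (ψ x 0)⁻¹ * ψ x i
  by_cases hi : i = 0
  · subst hi; rw [mul_assoc, inv_mul_cancel₀ (hx 0), mul_one]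
  obtain ⟨j, k, hjk, hj, hk, hij, hik⟩ := (by decide : ∀ i : Fin 6, ∃ j k : Fin 6,
    j ≠ k ∧ j ≠ 0 ∧ k ≠ 0 ∧ i ≠ j ∧ i ≠ k) i
  let σ : alternatingGroup (Fin 6) := ⟨Equiv.swap 0 i * Equiv.swap j k, Equiv.Perm.mem_alternatingGroup.2 (by
    rw [map_mul, Equiv.Perm.sign_swap (Ne.symm hi), Equiv.Perm.sign_swap hjk]; rfl)⟩
  have h1 : φ σ • u = u := show σ ∈ K by rw [hK]; trivial
  have h2 := hγ σ u i
  rw [show (γ σ : V ≃ₗ[K4] V) u = u from h1] at h2
  have h3 : (σ⁻¹ : Equiv.Perm (Fin 6)) i = 0 := by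
    rw [Equiv.Perm.inv_eq_iff_eq]
    show i = (Equiv.swap 0 i * Equiv.swap j k) 0
    rw [Equiv.Perm.mul_apply, Equiv.swap_apply_of_ne_of_ne hj.symm hk.symm, Equiv.swap_apply_left]
  rw [h3] at h2
  rw [h2]; ring

universe u

variable {G : Type u} [Group G] [Finite G] {z : G} {P : Type} [Group P] [Finite P]
variable {Q M : Subgroup (Cz z)} [hQn : Q.Normal] {V : Type u} [AddCommGroup V] [Module K4 V] [Finite V]
variable {L : Subgroup (V ≃ₗ[K4] V)} {f : L →* P} {h : V → V → K4} {π : Cz z → V} {s : Cz z} {g : G}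

/-- The eight group. -/
def lineG (Q : Subgroup (Cz z)) (g : G) : Subgroup G :=
  qG Q ⊓ Fischer2.conjQ (qG Q) g ⊓
    Subgroup.centralizer ((⁅Fischer2.pairW z g, Fischer2.pairW z g⁆ : Subgroup G) : Set G)

theorem lineG_le (Q : Subgroup (Cz z)) (g : G) : lineG Q g ≤ qG Q ⊓ Fischer2.conjQ (qG Q) g := inf_le_left

namespace LineSetting

variable (S : LineSetting Q M L f h π s g)
include S

theorem mem_W {c : Cz z} : (c : G) ∈ Fischer2.pairW z g ↔ c * s = s * c := by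
  rw [Fischer2.LargePair.mem_W, S.conj_eq]
  exact ⟨fun e => Subtype.ext e.2,
    fun e => ⟨Subgroup.mem_centralizer_singleton_iff.1 c.2, congrArg Subtype.val e⟩⟩

theorem one_ne_fix {c : Cz z} (hc : c * s = s * c) : π (c * s * c⁻¹) = π s := by
  rw [mul_inv_eq_iff_eq_mul.2 hc]

/-- The common centraliser moves `w` along `⟨z, s⟩`. -/
theorem W_move {w c : Cz z} (hw : (w : G) ∈ qG Q ⊓ Fischer2.conjQ (qG Q) g)
    (hπw : π w = (.om : K4) • π s) (hc : (c : G) ∈ Fischer2.pairW z g) :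
    (c : G) * w * (c : G)⁻¹ * (w : G)⁻¹ ∈ Fischer2.pairV z g := by
  have hcs := S.mem_W.1 hc
  have hwQ := S.memQ.1 hw.1
  have hc' : π (c * w * c⁻¹) = π w ∨ π (c * w * c⁻¹) = π (s * w) := by
    have hs' := S.one_ne_fix hcs
    rw [S.frame.map_mul s S.mem w hwQ]
    by_cases hM : c ∈ M
    · obtain ⟨e, -, he⟩ := S.frame.lift c hM
      left
      rw [he w hwQ, hπw, map_smul, ← he s S.mem, hs']
    · right
      rw [S.semi_of_notMem hM S.mem hwQ hπw, hs', hπw, show K4.conj .om = 1 + .om by decide, add_smul, one_smul]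
  have hzV : z ∈ Fischer2.pairV z g := Subgroup.subset_closure (Or.inl rfl)
  have hsV : (s : G) ∈ Fischer2.pairV z g :=
    Subgroup.subset_closure (Or.inr (by rw [S.conj_eq]; exact rfl))
  have hcom : ∀ x : Cz z, (z : G) * x = x * z := fun x =>
    (Subgroup.mem_centralizer_singleton_iff.1 x.2).symm
  have hconj : c * w * c⁻¹ ∈ Q := hQn.conj_mem w hwQ c
  rcases hc' with e | e
  · rcases S.frame.fiber hwQ hconj e.symm with e' | e'
    · have := congrArg Subtype.val e'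
      push_cast at this
      rw [this, mul_inv_cancel]; exact one_mem _
    · push_cast at e'
      rw [e', ← hcom w, mul_inv_cancel_right]; exact hzV
  · rcases S.frame.fiber (mul_mem S.mem hwQ) hconj e.symm with e' | e'
    · have := congrArg Subtype.val e'
      push_cast at this
      rw [this, mul_inv_cancel_right]; exact hsV
    · push_cast at e'
      rw [e', mul_assoc (s : G) w z, ← hcom w, ← mul_assoc, mul_inv_cancel_right]
      exact mul_mem hsV hzV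

theorem V_le_center {x c : G} (hx : x ∈ Fischer2.pairV z g) (hc : c ∈ Fischer2.pairW z g) : x * c = c * x := by
  rw [← Fischer2.LargePair.centralizer_V (z := z) (g := g)] at hc
  exact Subgroup.mem_centralizer_iff.1 hc x hx

theorem W_comm_fix {w : Cz z} (hw : (w : G) ∈ qG Q ⊓ Fischer2.conjQ (qG Q) g)
    (hπw : π w = (.om : K4) • π s) {x : G} (hx : x ∈ (⁅Fischer2.pairW z g, Fischer2.pairW z g⁆ : Subgroup G)) :
    x * w = w * x := by
  have hmove : ∀ c ∈ Fischer2.pairW z g, c * (w : G) * c⁻¹ * (w : G)⁻¹ ∈ Fischer2.pairV z g := fun c hc =>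
    S.W_move (c := ⟨c, hc.1⟩) hw hπw hc
  suffices (⁅Fischer2.pairW z g, Fischer2.pairW z g⁆ : Subgroup G) ≤ Subgroup.centralizer ({(w : G)} : Set G) from
    Subgroup.mem_centralizer_singleton_iff.1 (this hx)
  rw [Subgroup.commutator_le]
  intro c hc d hd
  rw [Subgroup.mem_centralizer_singleton_iff, ← mul_inv_eq_iff_eq_mul]
  obtain ⟨a, ha, hca⟩ : ∃ a ∈ Fischer2.pairV z g, c * (w : G) * c⁻¹ = a * w :=
    ⟨_, hmove c hc, by group⟩
  obtain ⟨b, hb, hdb⟩ : ∃ b ∈ Fischer2.pairV z g, d * (w : G) * d⁻¹ = b * w :=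
    ⟨_, hmove d hd, by group⟩
  have fix : ∀ {x y : G}, x ∈ Fischer2.pairV z g → y ∈ Fischer2.pairW z g → y * x * y⁻¹ = x := fun hx hy =>
    mul_inv_eq_iff_eq_mul.2 (S.V_le_center hx hy).symm
  have hci : c⁻¹ * (w : G) * c = a⁻¹ * w := by
    have h1 : c⁻¹ * (a * w) * c = w := by rw [← hca]; group
    have h2 : c⁻¹ * a⁻¹ * c = a⁻¹ := by simpa using fix (inv_mem ha) (inv_mem hc)
    calc c⁻¹ * (w : G) * c = (c⁻¹ * a⁻¹ * c) * (c⁻¹ * (a * w) * c) := by group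
      _ = _ := by rw [h1, h2]
  have hdi : d⁻¹ * (w : G) * d = b⁻¹ * w := by
    have h1 : d⁻¹ * (b * w) * d = w := by rw [← hdb]; group
    have h2 : d⁻¹ * b⁻¹ * d = b⁻¹ := by simpa using fix (inv_mem hb) (inv_mem hd)
    calc d⁻¹ * (w : G) * d = (d⁻¹ * b⁻¹ * d) * (d⁻¹ * (b * w) * d) := by group
      _ = _ := by rw [h1, h2]
  rw [commutatorElement_def]
  calc c * d * c⁻¹ * d⁻¹ * w * (c * d * c⁻¹ * d⁻¹)⁻¹
      = c * (d * (c⁻¹ * (d⁻¹ * (w : G) * d) * c) * d⁻¹) * c⁻¹ := by group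
    _ = c * (d * ((c⁻¹ * b⁻¹ * c) * (c⁻¹ * (w : G) * c)) * d⁻¹) * c⁻¹ := by rw [hdi]; group
    _ = c * (d * (b⁻¹ * (a⁻¹ * w)) * d⁻¹) * c⁻¹ := by
        rw [hci, show c⁻¹ * b⁻¹ * c = b⁻¹ by simpa using fix (inv_mem hb) (inv_mem hc)]
    _ = c * ((d * b⁻¹ * d⁻¹) * ((d * a⁻¹ * d⁻¹) * (d * w * d⁻¹))) * c⁻¹ := by group
    _ = c * (b⁻¹ * (a⁻¹ * (b * w))) * c⁻¹ := by rw [fix (inv_mem hb) hd, fix (inv_mem ha) hd, hdb]
    _ = (c * b⁻¹ * c⁻¹) * ((c * a⁻¹ * c⁻¹) * ((c * b * c⁻¹) * (c * w * c⁻¹))) := by group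
    _ = b⁻¹ * (a⁻¹ * (b * (a * w))) := by rw [fix (inv_mem hb) hc, fix (inv_mem ha) hc, fix hb hc, hca]
    _ = w := by
        have hbW : b ∈ Fischer2.pairW z g := S.pair.R_le_W (S.pair.V_le_R hb)
        rw [← mul_assoc b a, ← S.V_le_center ha hbW, mul_assoc a b]
        group

/-- Lifting an element fixing `π s` to the common centraliser. -/
theorem exists_lift {γ : V ≃ₗ[K4] V} (hγ : γ ∈ L) (hfix : γ (π s) = π s) :
    ∃ m : Cz z, m ∈ M ∧ (m : G) ∈ Fischer2.pairW z g ∧ ∀ a ∈ Q, π (m * a * m⁻¹) = γ (π a) := by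
  obtain ⟨m, hm, hma⟩ := S.frame.ofL γ hγ
  rcases S.frame.fiber S.mem (hQn.conj_mem s S.mem m) ((hma s S.mem).trans hfix).symm with e | e
  · exact ⟨m, hm, S.mem_W.2 (mul_inv_eq_iff_eq_mul.1 e), hma⟩
  · obtain ⟨q, hq, hqe⟩ := S.frame.exists_swap S.mem S.v_ne
    have e2 : m * s * m⁻¹ = q * s * q⁻¹ := Subtype.ext (e.trans hqe.symm)
    refine ⟨q⁻¹ * m, mul_mem (inv_mem (S.le_M hq)) hm, S.mem_W.2 ?_, fun a ha => ?_⟩
    · calc q⁻¹ * m * s = q⁻¹ * (m * s * m⁻¹) * m := by group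
        _ = _ := by rw [e2]; group
    · rw [show q⁻¹ * m * a * (q⁻¹ * m)⁻¹ = q⁻¹ * (m * a * m⁻¹) * q⁻¹⁻¹ by group,
        S.frame.map_conj_eq (inv_mem hq) (hQn.conj_mem a ha m), hma a ha]

theorem exists_full : ∃ γ ∈ L, ∃ ψ : V ≃ₗ[K4] (Fin 6 → K4), HasMonomial L ψ ∧
    ∀ i, ψ (γ (π s)) i ≠ 0 := by
  obtain ⟨ψ, hψ, hm⟩ := S.mono
  by_contra hno
  push Not at hno
  have hsub : ∀ x ∈ orb L (π s), wt (ψ x) = 2 ∨ wt (ψ x) = 4 := by
    rintro x ⟨γ, hγ, rfl⟩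
    have hne : ψ (γ (π s)) ≠ 0 := by simpa using S.v_ne
    have hiso : (wt (ψ (γ (π s))) : K4) = 0 := by
      rw [← herm_self, ← hψ.form]
      exact (S.frame.cover.pres ⟨γ, hγ⟩ _ _).trans S.v_iso
    obtain ⟨i, hi⟩ := hno γ hγ ψ hm
    rcases iso_classes _ hne hiso with e | e | e
    · exact Or.inl e
    · exact Or.inr e
    · exfalso
      rw [wt_eq_card] at e
      have := Finset.card_lt_card (s := Finset.univ.filter fun j => ψ (γ (π s)) j ≠ 0) (t := Finset.univ)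
        (Finset.ssubset_iff_subset_ne.2 ⟨Finset.subset_univ _, fun e' => by
          have : i ∈ Finset.univ.filter fun j => ψ (γ (π s)) j ≠ 0 := by rw [e']; exact Finset.mem_univ i
          exact (Finset.mem_filter.1 this).2 hi⟩)
      rw [e, Finset.card_univ, Fintype.card_fin] at this
      omega
  have hle := Nat.card_le_card_of_injective
    (fun x : orb L (π s) => if e : wt (ψ x) = 2 then
        (Sum.inl ⟨ψ x, e⟩ : {y : W6 // wt y = 2} ⊕ {y : W6 // wt y = 4})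
      else Sum.inr ⟨ψ x, (hsub x x.2).resolve_left e⟩)
    (fun x y e => by
      simp only at e
      split_ifs at e <;> simp at e
      all_goals exact Subtype.ext e)
  rw [Nat.card_coe_set_eq, S.facts.orbit, Nat.card_sum, count_two, count_four] at hle
  omega

theorem mem_lineG_iff {a : Cz z} : (a : G) ∈ lineG Q g ↔ a ∈ Q ∧ ∃ k : K4, π a = k • π s := by
  constructor
  · rintro ⟨hI, hc⟩
    refine ⟨S.memQ.1 hI.1, ?_⟩
    obtain ⟨γ, hγ, ψ, hm, hfull⟩ := S.exists_full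
    obtain ⟨k, hk⟩ := hm.fixed_line hfull (u := γ (π a)) fun g₁ g₂ h1 h2 => by
      let γ' : L := ⟨γ, hγ⟩
      have hfix : ∀ d : L, (d : V ≃ₗ[K4] V) (γ (π s)) = γ (π s) →
          ((γ'⁻¹ * d * γ' : L) : V ≃ₗ[K4] V) (π s) = π s := fun d hd => by
        show γ.symm ((d : V ≃ₗ[K4] V) (γ (π s))) = π s
        rw [hd, LinearEquiv.symm_apply_apply]
      obtain ⟨m₁, -, hm1, hm1a⟩ := S.exists_lift (γ'⁻¹ * g₁ * γ').2 (hfix g₁ h1)
      obtain ⟨m₂, -, hm2, hm2a⟩ := S.exists_lift (γ'⁻¹ * g₂ * γ').2 (hfix g₂ h2)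
      let act : Cz z → L → Prop := fun c d => ∀ x ∈ Q, π (c * x * c⁻¹) = (d : V ≃ₗ[K4] V) (π x)
      have hmul : ∀ c c' d d', act c d → act c' d' → act (c * c') (d * d') := by
        intro c c' d d' e e' x hx
        rw [show c * c' * x * (c * c')⁻¹ = c * (c' * x * c'⁻¹) * c⁻¹ by group,
          e _ (hQn.conj_mem x hx c'), e' x hx]
        rfl
      have hinv : ∀ c d, act c d → act c⁻¹ d⁻¹ := by
        intro c d e x hx
        have h1 := e _ (hQn.conj_mem x hx c⁻¹)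
        rw [show c * (c⁻¹ * x * c⁻¹⁻¹) * c⁻¹ = x by group] at h1
        rw [h1]
        exact ((d : V ≃ₗ[K4] V).symm_apply_apply _).symm
      have hC : act ⁅m₁, m₂⁆ ⁅γ'⁻¹ * g₁ * γ', γ'⁻¹ * g₂ * γ'⁆ := by
        rw [commutatorElement_def, commutatorElement_def]
        exact hmul _ _ _ _ (hmul _ _ _ _ (hmul _ _ _ _ hm1a hm2a) (hinv _ _ hm1a)) (hinv _ _ hm2a)
      have hW : ((⁅m₁, m₂⁆ : Cz z) : G) ∈ (⁅Fischer2.pairW z g, Fischer2.pairW z g⁆ : Subgroup G) :=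
        Subgroup.commutator_mem_commutator hm1 hm2
      have hca : ⁅m₁, m₂⁆ * a * ⁅m₁, m₂⁆⁻¹ = a :=
        mul_inv_eq_iff_eq_mul.2 (Subtype.ext (Subgroup.mem_centralizer_iff.1 hc _ hW))
      have h3 := hC a (S.memQ.1 hI.1)
      rw [hca, show ⁅γ'⁻¹ * g₁ * γ', γ'⁻¹ * g₂ * γ'⁆ = γ'⁻¹ * ⁅g₁, g₂⁆ * γ' by
        rw [commutatorElement_def, commutatorElement_def]; group] at h3
      have h4 : γ.symm (((⁅g₁, g₂⁆ : L) : V ≃ₗ[K4] V) (γ (π a))) = π a := h3.symm
      rwa [LinearEquiv.symm_apply_eq] at h4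
    exact ⟨k, γ.injective (by rw [hk, map_smul])⟩
  · rintro ⟨ha, k, hk⟩
    obtain ⟨w, hw, hπw⟩ := S.exists_om
    have hwQ := S.memQ.1 hw.1
    have hwL : (w : G) ∈ lineG Q g :=
      ⟨hw, Subgroup.mem_centralizer_iff.2 fun x hx => S.W_comm_fix hw hπw hx⟩
    have hV : ∀ x ∈ Fischer2.pairV z g, x ∈ lineG Q g := fun x hx =>
      ⟨S.pair.V_le_E hx, Subgroup.mem_centralizer_iff.2 fun c hc =>
        (S.V_le_center hx ((Subgroup.commutator_le_self _) hc)).symm⟩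
    have hzL : z ∈ lineG Q g := hV _ (Subgroup.subset_closure (Or.inl rfl))
    have hsL : (s : G) ∈ lineG Q g := hV _ (Subgroup.subset_closure (Or.inr (by rw [S.conj_eq]; exact rfl)))
    have key : ∀ b : Cz z, b ∈ Q → (b : G) ∈ lineG Q g → π b = π a → (a : G) ∈ lineG Q g := by
      intro b hb hbL e
      rcases S.frame.fiber hb ha e with e' | e'
      · rw [e']; exact hbL
      · rw [e']; exact mul_mem hbL hzL
    rcases K4.cases4 k with rfl | rfl | rfl | rfl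
    · exact key 1 (one_mem _) (one_mem _) (by rw [S.frame.map_one, hk, zero_smul])
    · exact key s S.mem hsL (by rw [hk, one_smul])
    · exact key w hwQ hwL (hπw.trans hk.symm)
    · exact key (s * w) (mul_mem S.mem hwQ) (mul_mem hsL hwL) (by
        rw [S.frame.map_mul s S.mem w hwQ, hπw, hk, show (K4.om2 : K4) = 1 + .om by decide, add_smul, one_smul])

end LineSetting

end CfsgLib.FischerLarge
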