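import Cfsg.Agent.Lib.FischerLarge.LineGroup
import Cfsg.Agent.Lib.FischerLarge.LineAut
import Cfsg.Agent.Lib.Subnormal.ClassTwo
import Cfsg.Agent.Lib.PGroups.Frattini

/-!
FischerLarge: the normaliser of the eight group `V`.
-/

set_option autoImplicit false
set_option linter.style.haveILetI false
set_option linter.unusedSectionVars false

namespace CfsgLib.FischerLarge

open scoped Classical commutatorElement
open Cfsg

universe u

variable {G : Type u} [Group G] [Finite G] {z : G} {P : Type} [Group P] [Finite P]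
variable {Q M : Subgroup (Cz z)} [hQn : Q.Normal] {V : Type u} [AddCommGroup V] [Module K4 V] [Finite V]
variable {L : Subgroup (V ≃ₗ[K4] V)} {f : L →* P} {h : V → V → K4} {π : Cz z → V} {s : Cz z} {g : G}

/-- The common centraliser of `V` inside `C(z)`. -/
abbrev lineC (Q : Subgroup (Cz z)) (g : G) : Subgroup (Cz z) :=
  (Subgroup.centralizer (lineG Q g : Set G)).subgroupOf (Cz z)

/-- The radical. -/
abbrev lineR (Q : Subgroup (Cz z)) [Q.Normal] (g : G) : Subgroup (Cz z) :=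
  lineC Q g ⊓ (eIm Q g).comap (QuotientGroup.mk' Q)

theorem mem_normalizer_of_conj_le {T : Subgroup G} {c : G} (hc : ∀ x ∈ T, c * x * c⁻¹ ∈ T) :
    c ∈ Subgroup.normalizer (T : Set G) := by
  have he : T.map (MulAut.conj c).toMonoidHom = T := by
    refine Subgroup.eq_of_le_of_card_ge ?_ (Subgroup.card_map_of_injective (MulAut.conj c).injective).ge
    rintro _ ⟨x, hx, rfl⟩
    exact hc x hx
  rw [Subgroup.mem_normalizer_iff]
  intro x
  refine ⟨hc x, fun hx => ?_⟩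
  obtain ⟨y, hy, hye⟩ : c * x * c⁻¹ ∈ T.map (MulAut.conj c).toMonoidHom := he.symm ▸ hx
  exact (MulAut.conj c).injective (show MulAut.conj c y = MulAut.conj c x from hye) ▸ hy

namespace LineSetting

variable (S : LineSetting Q M L f h π s g)
include S

theorem z_line : z ∈ lineG Q g := by
  let zz : Cz z := ⟨z, Subgroup.mem_centralizer_singleton_iff.2 rfl⟩
  have hzQ : zz ∈ Q := S.memQ.1 S.pair.z_mem
  exact (S.mem_lineG_iff (a := zz)).2 ⟨hzQ, 0, by rw [zero_smul]; exact (S.frame.ker _ hzQ).2 (Or.inr rfl)⟩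

theorem s_line : (s : G) ∈ lineG Q g := S.mem_lineG_iff.2 ⟨S.mem, 1, (one_smul _ _).symm⟩

theorem exists_om_line : ∃ w : Cz z, w ∈ Q ∧ (w : G) ∈ lineG Q g ∧ π w = (.om : K4) • π s := by
  obtain ⟨w, hw, hπw⟩ := S.exists_om
  exact ⟨w, S.memQ.1 hw.1, S.mem_lineG_iff.2 ⟨S.memQ.1 hw.1, _, hπw⟩, hπw⟩

theorem line_sq {x : G} (hx : x ∈ lineG Q g) : x * x = 1 := S.pair.E_sq (lineG_le Q g hx)

theorem line_comm {x y : G} (hx : x ∈ lineG Q g) (hy : y ∈ lineG Q g) : x * y = y * x :=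
  S.pair.E_comm (lineG_le Q g hx) (lineG_le Q g hy)

theorem line_mem_cz {x : G} (hx : x ∈ lineG Q g) : x ∈ Cz z := by
  obtain ⟨a, -, rfl⟩ := (lineG_le Q g hx).1
  exact a.2

theorem line_gen {w : Cz z} (hwQ : w ∈ Q) (hπw : π w = (.om : K4) • π s) {x : G} (hx : x ∈ lineG Q g) :
    ∃ i j k : Bool, x = pickEl i z * pickEl j (s : G) * pickEl k (w : G) := by
  obtain ⟨a, rfl⟩ : ∃ a : Cz z, (a : G) = x := ⟨⟨x, S.line_mem_cz hx⟩, rfl⟩
  obtain ⟨haQ, k, hk⟩ := S.mem_lineG_iff.1 hx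
  have key : ∀ b : Cz z, b ∈ Q → π b = π a → ∃ i : Bool, (a : G) = pickEl i z * b := by
    intro b hb e
    rcases S.frame.fiber hb haQ e with e' | e'
    · exact ⟨false, by rw [e']; exact (one_mul _).symm⟩
    · exact ⟨true, e'.trans (Subgroup.mem_centralizer_singleton_iff.1 b.2)⟩
  rcases K4.cases4 k with rfl | rfl | rfl | rfl
  · obtain ⟨i, hi⟩ := key 1 (one_mem _) (by rw [S.frame.map_one, hk, zero_smul])
    exact ⟨i, false, false, by simpa [pickEl] using hi⟩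
  · obtain ⟨i, hi⟩ := key s S.mem (by rw [hk, one_smul])
    exact ⟨i, true, false, by simpa [pickEl] using hi⟩
  · obtain ⟨i, hi⟩ := key w hwQ (hπw.trans hk.symm)
    exact ⟨i, false, true, by simpa [pickEl] using hi⟩
  · obtain ⟨i, hi⟩ := key (s * w) (mul_mem S.mem hwQ) (by
      rw [S.frame.map_mul s S.mem w hwQ, hπw, hk, show (K4.om2 : K4) = 1 + .om by decide, add_smul, one_smul])
    exact ⟨i, true, true, by simpa [pickEl, mul_assoc] using hi⟩

theorem card_line : Nat.card (lineG Q g) = 8 := by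
  obtain ⟨w, hwQ, hwL, hπw⟩ := S.exists_om_line
  have hp : ∀ (i : Bool) {x : G}, x ∈ lineG Q g → pickEl i x ∈ lineG Q g := fun i x hx => by
    cases i <;> simp [pickEl, hx, one_mem]
  let F : Bool × Bool × Bool → lineG Q g := fun p =>
    ⟨pickEl p.1 z * pickEl p.2.1 (s : G) * pickEl p.2.2 (w : G),
      mul_mem (mul_mem (hp _ S.z_line) (hp _ S.s_line)) (hp _ hwL)⟩
  let zz : Cz z := ⟨z, Subgroup.mem_centralizer_singleton_iff.2 rfl⟩
  have hzQ : zz ∈ Q := S.memQ.1 S.pair.z_mem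
  have hπz : π zz = 0 := (S.frame.ker _ hzQ).2 (Or.inr rfl)
  have hpQ : ∀ (i : Bool) {x : Cz z}, x ∈ Q → pickEl i x ∈ Q := fun i x hx => by
    cases i <;> simp [pickEl, hx, one_mem]
  have hπ : ∀ i j k, π (pickEl i zz * pickEl j s * pickEl k w) =
      ((if j then (1 : K4) else 0) + if k then .om else 0) • π s := by
    intro i j k
    rw [S.frame.map_mul _ (mul_mem (hpQ _ hzQ) (hpQ _ S.mem)) _ (hpQ _ hwQ),
      S.frame.map_mul _ (hpQ _ hzQ) _ (hpQ _ S.mem)]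
    cases i <;> cases j <;> cases k <;> simp [pickEl, hπz, S.frame.map_one, hπw, add_smul]
  have hF : Function.Bijective F := by
    constructor
    · rintro ⟨i, j, k⟩ ⟨i', j', k'⟩ e
      have e1 : pickEl i z * pickEl j (s : G) * pickEl k (w : G) =
          pickEl i' z * pickEl j' (s : G) * pickEl k' (w : G) := congrArg Subtype.val e
      have e2 : pickEl i zz * pickEl j s * pickEl k w = pickEl i' zz * pickEl j' s * pickEl k' w := by
        apply Subtype.ext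
        cases i <;> cases j <;> cases k <;> cases i' <;> cases j' <;> cases k' <;> exact e1
      have e3 := congrArg π e2
      rw [hπ, hπ] at e3
      have e4 := smul_left_injective K4 S.v_ne e3
      obtain ⟨rfl, rfl⟩ : j = j' ∧ k = k' := by
        revert e4; cases j <;> cases k <;> cases j' <;> cases k' <;> decide
      obtain rfl : i = i' := by
        have e5 := mul_right_cancel (mul_right_cancel e1)
        cases i <;> cases i' <;> simp [pickEl, S.pair.z_ne_one, S.pair.z_ne_one.symm] at e5 ⊢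
      rfl
    · rintro ⟨x, hx⟩
      obtain ⟨i, j, k, rfl⟩ := S.line_gen hwQ hπw hx
      exact ⟨(i, j, k), rfl⟩
  rw [← Nat.card_congr (Equiv.ofBijective F hF), Nat.card_prod, Nat.card_prod, Nat.card_eq_fintype_card,
    Fintype.card_bool]

theorem elem_line : IsElementaryAbelian 2 (lineG Q g) :=
  ⟨⟨⟨fun a b => Subtype.ext (S.line_comm a.2 b.2)⟩⟩, fun a ha => by rw [pow_two]; exact S.line_sq ha⟩

/-- Elements keeping the line normalise `V`. -/
theorem norm_of_line {c : Cz z}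
    (hc : ∀ a ∈ Q, ∀ k : K4, π a = k • π s → ∃ k' : K4, π (c * a * c⁻¹) = k' • π s) :
    (c : G) ∈ Subgroup.normalizer (lineG Q g : Set G) := by
  refine mem_normalizer_of_conj_le fun x hx => ?_
  obtain ⟨a, rfl⟩ : ∃ a : Cz z, (a : G) = x := ⟨⟨x, S.line_mem_cz hx⟩, rfl⟩
  obtain ⟨haQ, k, hk⟩ := S.mem_lineG_iff.1 hx
  exact (S.mem_lineG_iff (a := c * a * c⁻¹)).2 ⟨hQn.conj_mem a haQ c, hc a haQ k hk⟩

theorem Q_norm {q : Cz z} (hq : q ∈ Q) : (q : G) ∈ Subgroup.normalizer (lineG Q g : Set G) :=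
  S.norm_of_line fun _ ha k hk => ⟨k, by rw [S.frame.map_conj_eq hq ha, hk]⟩

/-- Conjugation inside `Q`. -/
theorem conj_in_Q {q a : Cz z} (hq : q ∈ Q) (ha : a ∈ Q) :
    (q : G) * a * (q : G)⁻¹ = a * pickEl (h (π q) (π a)).b1 z := by
  have hc : q * a * q⁻¹ ∈ Q := hQn.conj_mem a ha q
  cases hb : (h (π q) (π a)).b1
  · have := congrArg Subtype.val ((S.frame.comm q hq a ha).2 hb)
    push_cast at this
    rw [this, mul_inv_cancel_right]
    exact (mul_one _).symm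
  · rcases S.frame.fiber ha hc (S.frame.map_conj_eq hq ha).symm with e | e
    · exact absurd ((S.frame.comm q hq a ha).1 (mul_inv_eq_iff_eq_mul.1 e)) (by rw [hb]; decide)
    · exact e

theorem exists_herm (c : K4) : ∃ q ∈ Q, h (π q) (π s) = c := by
  obtain ⟨y, hy⟩ : ∃ y, h y (π s) ≠ 0 := by
    by_contra hno
    push Not at hno
    exact S.v_ne (S.frame.cover.nondeg _ fun y => by rw [S.frame.cover.symm, hno, _root_.map_zero])
  obtain ⟨q, hq, hqy⟩ := S.frame.surj ((c * (h y (π s))⁻¹) • y)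
  exact ⟨q, hq, by rw [hqy, S.frame.cover.smul_left, mul_assoc, inv_mul_cancel₀ hy, mul_one]⟩

/-- `Q` induces all transvections with centre `z`. -/
theorem exists_transvection {w : Cz z} (hwQ : w ∈ Q) (hπw : π w = (.om : K4) • π s) (i j : Bool) :
    ∃ q ∈ Q, (q : G) * s * (q : G)⁻¹ = s * pickEl i z ∧ (q : G) * w * (q : G)⁻¹ = w * pickEl j z := by
  obtain ⟨c, hc1, hc2⟩ := (by decide : ∀ i j : Bool, ∃ c : K4, c.b1 = i ∧ ((.om2 : K4) * c).b1 = j) i j
  obtain ⟨q, hq, hqs⟩ := S.exists_herm c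
  refine ⟨q, hq, by rw [S.conj_in_Q hq S.mem, hqs, hc1], ?_⟩
  rw [S.conj_in_Q hq hwQ, hπw, S.frame.cover.smul_right, hqs, show K4.conj .om = .om2 by decide, hc2]

theorem exists_scalar {k : K4} (hk : k ≠ 0) :
    ∃ m : Cz z, (m : G) ∈ Subgroup.normalizer (lineG Q g : Set G) ∧ π (m * s * m⁻¹) = k • π s := by
  obtain ⟨γ, hγ⟩ := S.frame.cover.scalar k hk
  obtain ⟨m, -, hm⟩ := S.frame.ofL γ γ.2
  exact ⟨m, S.norm_of_line fun a ha k' hk' => ⟨k * k', by rw [hm a ha, hγ, hk', mul_smul]⟩,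
    by rw [hm s S.mem, hγ]⟩

theorem exists_tau {h0 : Cz z} (hh0 : (h0 : G) * s * (h0 : G)⁻¹ = g⁻¹ * z * g) :
    ∃ τ ∈ Subgroup.normalizer (lineG Q g : Set G), τ * z * τ⁻¹ = (s : G) := by
  have hz0 : (h0 : G) * z * (h0 : G)⁻¹ = z :=
    mul_inv_eq_iff_eq_mul.2 (Subgroup.mem_centralizer_singleton_iff.1 h0.2)
  set τ := g * (h0 : G) with hτ
  have hτz : τ * z * τ⁻¹ = (s : G) := by
    rw [show τ * z * τ⁻¹ = g * ((h0 : G) * z * (h0 : G)⁻¹) * g⁻¹ by rw [hτ]; group, hz0, S.conj_eq]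
  have hτs : τ * s * τ⁻¹ = z := by
    rw [show τ * s * τ⁻¹ = g * ((h0 : G) * s * (h0 : G)⁻¹) * g⁻¹ by rw [hτ]; group, hh0]; group
  refine ⟨τ, ?_, hτz⟩
  set W := Fischer2.pairW z g
  have hW : ∀ c ∈ W, τ * c * τ⁻¹ ∈ W := fun c hc => by
    obtain ⟨h1, h2⟩ := Fischer2.LargePair.mem_W.1 hc
    rw [S.conj_eq] at h2
    refine Fischer2.LargePair.mem_W.2 ⟨?_, ?_⟩
    · conv_lhs => rw [← hτs]
      conv_rhs => rw [← hτs]
      rw [show τ * c * τ⁻¹ * (τ * s * τ⁻¹) = τ * (c * s) * τ⁻¹ by group, h2]; group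
    · rw [S.conj_eq]
      conv_lhs => rw [← hτz]
      conv_rhs => rw [← hτz]
      rw [show τ * c * τ⁻¹ * (τ * z * τ⁻¹) = τ * (c * z) * τ⁻¹ by group, h1]; group
  have hWmap : W.map (MulAut.conj τ).toMonoidHom = W :=
    Subgroup.eq_of_le_of_card_ge (by rintro _ ⟨c, hc, rfl⟩; exact hW c hc)
      (Subgroup.card_map_of_injective (MulAut.conj τ).injective).ge
  refine mem_normalizer_of_conj_le fun x hx => ⟨⟨?_, ?_⟩, ?_⟩
  · obtain ⟨y, hy, hye⟩ := (lineG_le Q g hx).2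
    have hg : τ * g * z = z * (τ * g) := by
      have : τ * g * z * (τ * g)⁻¹ = z := by
        rw [show τ * g * z * (τ * g)⁻¹ = τ * (g * z * g⁻¹) * τ⁻¹ by group, S.conj_eq, hτs]
      exact mul_inv_eq_iff_eq_mul.1 this
    have := S.pair.normalize hg hy
    rw [← hye]
    rw [show τ * (MulAut.conj g).toMonoidHom y * τ⁻¹ = τ * g * y * (τ * g)⁻¹ by
      show τ * (g * y * g⁻¹) * τ⁻¹ = _; group]
    exact this
  · refine ⟨(h0 : G) * x * (h0 : G)⁻¹,
      S.pair.normalize (Subgroup.mem_centralizer_singleton_iff.1 h0.2) (lineG_le Q g hx).1, ?_⟩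
    show g * ((h0 : G) * x * (h0 : G)⁻¹) * g⁻¹ = _
    rw [hτ]; group
  · refine Subgroup.mem_centralizer_iff.2 fun d hd => ?_
    obtain ⟨d', hd', rfl⟩ : d ∈ (⁅W, W⁆ : Subgroup G).map (MulAut.conj τ).toMonoidHom := by
      rw [Subgroup.map_commutator, hWmap]; exact hd
    have h1 := Subgroup.mem_centralizer_iff.1 hx.2 d' hd'
    show τ * d' * τ⁻¹ * (τ * x * τ⁻¹) = τ * x * τ⁻¹ * (τ * d' * τ⁻¹)
    rw [show τ * d' * τ⁻¹ * (τ * x * τ⁻¹) = τ * (d' * x) * τ⁻¹ by group, h1]; group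

theorem transitive {h0 : Cz z} (hh0 : (h0 : G) * s * (h0 : G)⁻¹ = g⁻¹ * z * g) {x : G}
    (hx : x ∈ lineG Q g) (hx1 : x ≠ 1) :
    ∃ n ∈ Subgroup.normalizer (lineG Q g : Set G), n * z * n⁻¹ = x := by
  by_cases hxz : x = z
  · exact ⟨1, one_mem _, by rw [hxz]; group⟩
  obtain ⟨τ, hτN, hτ⟩ := S.exists_tau hh0
  obtain ⟨a, rfl⟩ : ∃ a : Cz z, (a : G) = x := ⟨⟨x, S.line_mem_cz hx⟩, rfl⟩
  obtain ⟨haQ, k, hk⟩ := S.mem_lineG_iff.1 hx
  have ha0 := S.frame.ne_zero_of haQ hx1 hxz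
  obtain ⟨m, hm, hms⟩ := S.exists_scalar (k := k) (fun e => ha0 (by rw [hk, e, zero_smul]))
  suffices ∃ c ∈ Subgroup.normalizer (lineG Q g : Set G), c * (s : G) * c⁻¹ = a by
    obtain ⟨c, hc, hcs⟩ := this
    exact ⟨c * τ, mul_mem hc hτN, by
      rw [show c * τ * z * (c * τ)⁻¹ = c * (τ * z * τ⁻¹) * c⁻¹ by group, hτ, hcs]⟩
  rcases S.frame.fiber (hQn.conj_mem s S.mem m) haQ (hms.trans hk.symm) with e | e
  · exact ⟨m, hm, (congrArg Subtype.val e).symm⟩
  · obtain ⟨q, hq, hqe⟩ := S.frame.exists_swap (hQn.conj_mem s S.mem m)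
      (by rw [hms, ← hk]; exact ha0)
    refine ⟨(q : G) * m, mul_mem (S.Q_norm hq) hm, ?_⟩
    rw [e, ← hqe]; push_cast; group

/-- The centraliser of `V` in terms of generators. -/
theorem mem_lineC {w : Cz z} (hwQ : w ∈ Q) (hπw : π w = (.om : K4) • π s) {c : Cz z} :
    c ∈ lineC Q g ↔ c * s = s * c ∧ c * w = w * c := by
  rw [Subgroup.mem_subgroupOf, Subgroup.mem_centralizer_iff]
  constructor
  · intro hc
    exact ⟨Subtype.ext (hc _ S.s_line).symm,
      Subtype.ext (hc _ (S.mem_lineG_iff.2 ⟨hwQ, _, hπw⟩)).symm⟩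
  · rintro ⟨hcs, hcw⟩ x hx
    obtain ⟨i, j, k, rfl⟩ := S.line_gen hwQ hπw hx
    have h1 : Commute (c : G) z := Subgroup.mem_centralizer_singleton_iff.1 c.2
    have h2 : Commute (c : G) s := congrArg Subtype.val hcs
    have h3 : Commute (c : G) w := congrArg Subtype.val hcw
    have hp : ∀ (i : Bool) {y : G}, Commute (c : G) y → Commute (c : G) (pickEl i y) := fun i y hy => by
      cases i
      · exact Commute.one_right _
      · exact hy
    exact (((hp i h1).mul_right (hp j h2)).mul_right (hp k h3)).eq.symm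

theorem lineC_le_M : lineC Q g ≤ M := by
  intro c hc
  obtain ⟨w, hwQ, -, hπw⟩ := S.exists_om_line
  obtain ⟨h1, h2⟩ := (S.mem_lineC hwQ hπw).1 hc
  by_contra hM
  have h3 := S.semi_of_notMem hM S.mem hwQ hπw
  rw [mul_inv_eq_iff_eq_mul.2 h1, mul_inv_eq_iff_eq_mul.2 h2, hπw] at h3
  exact absurd (smul_left_injective K4 S.v_ne h3) (by decide)

theorem Q_lineC {q : Cz z} (hq : q ∈ Q) : q ∈ lineC Q g ↔ h (π q) (π s) = 0 := by
  obtain ⟨w, hwQ, -, hπw⟩ := S.exists_om_line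
  rw [S.mem_lineC hwQ hπw, S.frame.comm q hq s S.mem, S.frame.comm q hq w hwQ, hπw,
    S.frame.cover.smul_right]
  generalize h (π q) (π s) = c
  revert c; decide

theorem inI_lineC {a : Cz z} (ha : (a : G) ∈ qG Q ⊓ Fischer2.conjQ (qG Q) g) : a ∈ lineC Q g ⊓ Q := by
  refine ⟨(S.Q_lineC (S.memQ.1 ha.1)).2 ?_, S.memQ.1 ha.1⟩
  rw [S.frame.cover.symm, S.orth_in ha, _root_.map_zero]

theorem card_CQ : Nat.card (lineC Q g ⊓ Q : Subgroup (Cz z)) = 2 ^ 11 := by
  let κ : Q →* Multiplicative K4 :=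
    MonoidHom.mk' (fun q => Multiplicative.ofAdd (h (π (q : Cz z)) (π s))) fun a b => by
      rw [Subgroup.coe_mul, S.frame.map_mul _ a.2 _ b.2, S.frame.cover.add_left, ofAdd_add]
  have hκ : Function.Surjective κ := fun c => by
    obtain ⟨q, hq, hqc⟩ := S.exists_herm c.toAdd
    exact ⟨⟨q, hq⟩, congrArg Multiplicative.ofAdd hqc⟩
  have h1 := Subgroup.card_mul_index κ.ker
  rw [Subgroup.index_ker, MonoidHom.range_eq_top.2 hκ, Subgroup.card_top,
    Nat.card_congr Multiplicative.toAdd, K4.card_eq, S.cardQ,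
    show κ.ker = (lineC Q g).subgroupOf Q from Subgroup.ext fun q => by
      rw [MonoidHom.mem_ker, Subgroup.mem_subgroupOf, S.Q_lineC q.2]; rfl,
    ← Subgroup.inf_subgroupOf_right, Nat.card_congr (Subgroup.subgroupOfEquivOfLe inf_le_right).toEquiv] at h1
  omega

theorem sideA_not_le : ¬ (Fischer2.sideA (qG Q) z g).subgroupOf (Cz z) ≤ M := by
  intro hle
  obtain ⟨w, hwQ, hwL, hπw⟩ := S.exists_om_line
  have hX : Fischer2.sideA (qG Q) z g ≤ Fischer2.conjQ (qG Q) g := inf_le_left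
  have hcomm : ∀ j ∈ lineG Q g, ∀ x ∈ Fischer2.sideA (qG Q) z g, j * x = x * j := by
    intro j hj x hx
    let c : Cz z := ⟨x, hx.2⟩
    obtain ⟨e, -, he⟩ := S.frame.lift c (hle (Subgroup.mem_subgroupOf.2 hx))
    obtain ⟨h3, h4⟩ := S.linear_comm (c := c) hx.1 he (fun v => map_smul e _ v) S.v_in (lineG_le Q g hwL) hπw
    exact Subgroup.mem_centralizer_iff.1 ((S.mem_lineC hwQ hπw (c := c)).2 ⟨Subtype.ext h3, Subtype.ext h4⟩) j hj
  have h1 := S.bound (lineG_le Q g) S.s_line hX hcomm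
  rw [S.card_line, ← Nat.card_congr (Subgroup.subgroupOfEquivOfLe
    (inf_le_right : Fischer2.sideA (qG Q) z g ≤ Cz z)).toEquiv, S.card_sideA] at h1
  omega

theorem AM_le_lineC : (Fischer2.sideA (qG Q) z g).subgroupOf (Cz z) ⊓ M ≤ lineC Q g := by
  rintro c ⟨hc, hcM⟩
  obtain ⟨w, hwQ, hwL, hπw⟩ := S.exists_om_line
  obtain ⟨e, -, he⟩ := S.frame.lift c hcM
  obtain ⟨h3, h4⟩ := S.linear_comm (Subgroup.mem_subgroupOf.1 hc).1 he (fun v => map_smul e _ v) S.v_in
    (lineG_le Q g hwL) hπw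
  exact (S.mem_lineC hwQ hπw).2 ⟨Subtype.ext h3, Subtype.ext h4⟩

theorem lineR_decomp {c : Cz z} (hc : c ∈ lineR Q g) :
    ∃ a ∈ (Fischer2.sideA (qG Q) z g).subgroupOf (Cz z) ⊓ M, ∃ q ∈ lineC Q g ⊓ Q, c = a * q := by
  obtain ⟨a, ha, hae⟩ := hc.2
  have haq : a⁻¹ * c ∈ Q := (QuotientGroup.eq).1 hae
  have haM : a ∈ M := by
    have h1 : a = c * (a⁻¹ * c)⁻¹ := by group
    rw [h1]; exact mul_mem (S.lineC_le_M hc.1) (inv_mem (S.le_M haq))
  exact ⟨a, ⟨ha, haM⟩, a⁻¹ * c, ⟨(lineC Q g).mul_mem ((lineC Q g).inv_mem (S.AM_le_lineC ⟨ha, haM⟩)) hc.1, haq⟩, by group⟩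

theorem CQ_le_R : lineC Q g ⊓ Q ≤ lineR Q g := fun c hc =>
  ⟨hc.1, show QuotientGroup.mk' Q c ∈ eIm Q g by
    rw [show QuotientGroup.mk' Q c = 1 from (QuotientGroup.eq_one_iff c).2 hc.2]; exact one_mem _⟩

theorem AM_le_R : (Fischer2.sideA (qG Q) z g).subgroupOf (Cz z) ⊓ M ≤ lineR Q g := fun c hc =>
  ⟨S.AM_le_lineC hc, ⟨c, hc.1, rfl⟩⟩

theorem card_lineR : Nat.card (lineR Q g) = 2 ^ 15 := by
  set A' := (Fischer2.sideA (qG Q) z g).subgroupOf (Cz z) with hA'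
  have hcard := S.card_sideA_M
  rw [Subgroup.card_map_of_injective (Cz z).subtype_injective, ← hA'] at hcard
  have hAM : Nat.card (A' ⊓ M : Subgroup (Cz z)) = 2 ^ 11 := by
    have hd : Nat.card (A' ⊓ M : Subgroup (Cz z)) ∣ 2 ^ 12 := by
      rw [← S.card_sideA]; exact Subgroup.card_dvd_of_le inf_le_left
    obtain ⟨k, hk, hk'⟩ := (Nat.dvd_prime_pow Nat.prime_two).1 hd
    rw [hk'] at hcard ⊢
    have h11 : 11 ≤ k := (Nat.pow_le_pow_iff_right (by norm_num)).1 hcard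
    have h12 : k ≠ 12 := fun e => by
      refine S.sideA_not_le ?_
      have : A' ⊓ M = A' := Subgroup.eq_of_le_of_card_ge inf_le_left (by rw [hk', e, S.card_sideA])
      exact fun x hx => (this.symm ▸ hx : x ∈ A' ⊓ M).2
    rw [show k = 11 by omega]
  have h1 := card_map_mul_card_inf (QuotientGroup.mk' Q) (A' ⊓ M)
  have h2 := card_map_mul_card_inf (QuotientGroup.mk' Q) (lineR Q g)
  rw [QuotientGroup.ker_mk'] at h1 h2
  have hmap : (lineR Q g).map (QuotientGroup.mk' Q) = (A' ⊓ M).map (QuotientGroup.mk' Q) := by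
    refine le_antisymm ?_ (Subgroup.map_mono S.AM_le_R)
    rintro _ ⟨c, hc, rfl⟩
    obtain ⟨a, ha, q, hq, rfl⟩ := S.lineR_decomp hc
    exact ⟨a, ha, by rw [map_mul, show QuotientGroup.mk' Q q = 1 from (QuotientGroup.eq_one_iff q).2 hq.2, mul_one]⟩
  have hI : Nat.card (A' ⊓ M ⊓ Q : Subgroup (Cz z)) = 2 ^ 7 := by
    rw [← S.facts.cardI, ← Subgroup.card_map_of_injective (Cz z).subtype_injective]
    congr 2
    ext x
    constructor
    · rintro ⟨a, ⟨⟨ha, -⟩, haQ⟩, rfl⟩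
      exact ⟨⟨a, haQ, rfl⟩, (Subgroup.mem_subgroupOf.1 ha).1⟩
    · rintro ⟨⟨a, haQ, rfl⟩, hx⟩
      exact ⟨a, ⟨⟨Subgroup.mem_subgroupOf.2 ⟨hx, a.2⟩, S.le_M haQ⟩, haQ⟩, rfl⟩
  have hRQ : lineR Q g ⊓ Q = lineC Q g ⊓ Q :=
    le_antisymm (inf_le_inf_right _ inf_le_left) (le_inf S.CQ_le_R inf_le_right)
  rw [hI, hAM] at h1
  rw [hRQ, S.card_CQ, hmap] at h2
  omega

/-- The quotient of the centraliser of `V` by the radical. -/
theorem exists_theta : ∃ θ : lineC Q g →* alternatingGroup (Fin 6), Function.Surjective θ ∧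
    θ.ker = (lineR Q g).subgroupOf (lineC Q g) := by
  obtain ⟨hn, ⟨iso⟩⟩ := S.facts.quot
  obtain ⟨w, hwQ, hwL, hπw⟩ := S.exists_om_line
  set X := xIm Q (s : G) with hX
  have hmemX : ∀ c : Cz z, c * s = s * c → QuotientGroup.mk' Q c ∈ X := fun c hc =>
    ⟨c, Subgroup.mem_subgroupOf.2 ⟨c.2, Subgroup.mem_centralizer_singleton_iff.2 (congrArg Subtype.val hc)⟩, rfl⟩
  let ι : lineC Q g →* X := MonoidHom.codRestrict ((QuotientGroup.mk' Q).comp (lineC Q g).subtype) X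
    fun c => hmemX c ((S.mem_lineC hwQ hπw).1 c.2).1
  let θ := iso.toMonoidHom.comp ((QuotientGroup.mk' ((eIm Q g).subgroupOf X)).comp ι)
  refine ⟨θ, ?_, ?_⟩
  · refine iso.surjective.comp fun x => ?_
    obtain ⟨⟨_, c, hc, rfl⟩, rfl⟩ := QuotientGroup.mk_surjective x
    have hcs : c * s = s * c :=
      Subtype.ext (Subgroup.mem_centralizer_singleton_iff.1 (Subgroup.mem_subgroupOf.1 hc).2)
    obtain ⟨a, haA, haM⟩ := SetLike.not_le_iff_exists.1 S.sideA_not_le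
    have has : a * s = s * a :=
      Subtype.ext (S.conj_eq ▸ S.pair.s_comm_conj (Subgroup.mem_subgroupOf.1 haA).1).symm
    obtain ⟨c1, hc1M, hc1s, hc1e⟩ : ∃ c1 : Cz z, c1 ∈ M ∧ c1 * s = s * c1 ∧
        ∃ b, b ∈ (Fischer2.sideA (qG Q) z g).subgroupOf (Cz z) ∧ c1 = c * b := by
      by_cases hcM : c ∈ M
      · exact ⟨c, hcM, hcs, 1, one_mem _, (mul_one _).symm⟩
      · exact ⟨c * a, (Subgroup.mul_mem_iff_of_index_two S.idx).2 (iff_of_false hcM haM),
          ((show Commute c s from hcs).mul_left has).eq, a, haA, rfl⟩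
    obtain ⟨b, hb, rfl⟩ := hc1e
    obtain ⟨e, -, he⟩ := S.frame.lift _ hc1M
    have hπc : π (c * b * w * (c * b)⁻¹) = π w := by
      rw [he w hwQ, hπw, map_smul, ← he s S.mem, mul_inv_eq_iff_eq_mul.2 hc1s]
    obtain ⟨q, hq, hqs, hqw⟩ : ∃ q ∈ Q, q * (c * b) * s = s * (q * (c * b)) ∧ q * (c * b) * w = w * (q * (c * b)) := by
      rcases S.frame.fiber hwQ (hQn.conj_mem w hwQ (c * b)) hπc.symm with e' | e'
      · exact ⟨1, one_mem _, by rw [one_mul, hc1s], by rw [one_mul, ← mul_inv_eq_iff_eq_mul]; exact e'⟩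
      · obtain ⟨q, hq, hqs, hqw⟩ := S.exists_transvection hwQ hπw false true
        refine ⟨q, hq, ?_, ?_⟩
        · have h1 : q * s = s * q := Subtype.ext (by simpa [pickEl, mul_inv_eq_iff_eq_mul] using hqs)
          exact ((show Commute q s from h1).mul_left hc1s).eq
        · apply Subtype.ext
          push_cast at e' ⊢
          rw [← mul_inv_eq_iff_eq_mul]
          have hzc : (q : G) * z * (q : G)⁻¹ = z :=
            mul_inv_eq_iff_eq_mul.2 (Subgroup.mem_centralizer_singleton_iff.1 q.2)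
          rw [show (q : G) * ((c : G) * b) * w * ((q : G) * ((c : G) * b))⁻¹ =
            (q : G) * ((c : G) * b * w * ((c : G) * b)⁻¹) * (q : G)⁻¹ by group, e',
            show (q : G) * ((w : G) * z) * (q : G)⁻¹ = ((q : G) * w * (q : G)⁻¹) * ((q : G) * z * (q : G)⁻¹) by group,
            hqw, hzc]
          rw [show pickEl true z = z from rfl, mul_assoc, S.pair.z_sq, mul_one]
    refine ⟨⟨q * (c * b), (S.mem_lineC hwQ hπw).2 ⟨hqs, hqw⟩⟩, ?_⟩
    refine QuotientGroup.eq.2 (Subgroup.mem_subgroupOf.2 ?_)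
    show (QuotientGroup.mk' Q (q * (c * b)))⁻¹ * QuotientGroup.mk' Q c ∈ eIm Q g
    rw [map_mul, map_mul, show QuotientGroup.mk' Q q = 1 from (QuotientGroup.eq_one_iff q).2 hq, one_mul,
      mul_inv_rev, inv_mul_cancel_right]
    exact inv_mem (Subgroup.mem_map_of_mem _ hb)
  · ext c
    rw [MonoidHom.mem_ker, Subgroup.mem_subgroupOf]
    show iso (QuotientGroup.mk (ι c)) = 1 ↔ _
    rw [MulEquiv.map_eq_one_iff, QuotientGroup.eq_one_iff, Subgroup.mem_subgroupOf]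
    exact ⟨fun e => ⟨c.2, e⟩, fun e => e.2⟩

/-- A vector orthogonal to the hermitian orthogonal of `π s` lies on the line. -/
theorem line_of_orth {u : V} (hu : ∀ y, h y (π s) = 0 → h u y = 0) : ∃ k : K4, u = k • π s := by
  obtain ⟨q, -, hq⟩ := S.exists_herm 1
  set x := π q
  have hvx : h (π s) x = 1 := by rw [S.frame.cover.symm, hq, map_one]
  refine ⟨h u x, ?_⟩
  have key : u + h u x • π s = 0 := by
    refine S.frame.cover.nondeg _ fun y => ?_
    rw [S.frame.cover.add_left, S.frame.cover.smul_left]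
    have hy : h (y + h y (π s) • x) (π s) = 0 := by
      rw [S.frame.cover.add_left, S.frame.cover.smul_left, hq, mul_one, K4.add_self]
    have h1 := hu _ hy
    rw [S.frame.cover.add_right, S.frame.cover.smul_right, ← S.frame.cover.symm] at h1
    rw [mul_comm (h u x)]
    exact h1
  calc u = u + (h u x • π s + h u x • π s) := by rw [S.frame.add_self, add_zero]
    _ = u + h u x • π s + h u x • π s := by abel
    _ = _ := by rw [key, zero_add]

theorem commutator_mixed {a q : Cz z} (ha : a ∈ (Fischer2.sideA (qG Q) z g).subgroupOf (Cz z) ⊓ M)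
    (hq : q ∈ lineC Q g ⊓ Q) : (a : G) * q * (a : G)⁻¹ * (q : G)⁻¹ ∈ lineG Q g := by
  obtain ⟨w, hwQ, -, hπw⟩ := S.exists_om_line
  obtain ⟨e, -, he⟩ := S.frame.lift a ha.2
  have hI : ∀ x : Cz z, x ∈ lineC Q g ⊓ Q →
      ((a * x * a⁻¹ * x⁻¹ : Cz z) : G) ∈ qG Q ⊓ Fischer2.conjQ (qG Q) g ∧
      π (a * x * a⁻¹ * x⁻¹) = e (π x) + π x := by
    intro x hx
    refine ⟨?_, ?_⟩
    · push_cast
      refine S.pair.commutator_A_B (Subgroup.mem_subgroupOf.1 ha.1)
        (Fischer2.LargePair.mem_B.2 ⟨S.memQ.2 hx.2, ?_⟩)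
      rw [S.conj_eq]
      exact congrArg Subtype.val ((S.mem_lineC hwQ hπw).1 hx.1).1
    · rw [S.frame.map_mul _ (hQn.conj_mem x hx.2 a) _ (inv_mem hx.2), he x hx.2, S.frame.map_inv hx.2]
  obtain ⟨q2, hq2, hq2e⟩ := S.frame.surj ((.om : K4) • π q)
  have hq2C : q2 ∈ lineC Q g := by
    rw [S.Q_lineC hq2, hq2e, S.frame.cover.smul_left, (S.Q_lineC hq.2).1 hq.1, mul_zero]
  obtain ⟨hd, hde⟩ := hI q hq
  obtain ⟨hd2, hd2e⟩ := hI q2 ⟨hq2C, hq2⟩
  obtain ⟨k, hk⟩ := S.pair_line hd hd2 (by rw [hd2e, hde, hq2e, map_smul, smul_add])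
  have := (S.mem_lineG_iff (a := a * q * a⁻¹ * q⁻¹)).2 ⟨S.memQ.1 hd.1, k, hk⟩
  push_cast at this
  exact this

theorem line_le_R {x : G} (hx : x ∈ lineG Q g) : ∃ a ∈ lineR Q g, (a : G) = x := by
  refine ⟨⟨x, S.line_mem_cz hx⟩, S.CQ_le_R (S.inI_lineC ?_), rfl⟩
  exact lineG_le Q g hx

theorem line_central {x : G} (hx : x ∈ lineG Q g) {c : Cz z} (hc : c ∈ lineR Q g) : x * c = c * x :=
  Subgroup.mem_centralizer_iff.1 (Subgroup.mem_subgroupOf.1 hc.1) x hx

theorem conj_sq_cases {x : G} (hx : x ∈ Fischer2.conjQ (qG Q) g) : x * x ∈ lineG Q g := by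
  rcases S.pair.sq_conj hx with e | e <;> rw [e]
  · exact one_mem _
  · rw [S.conj_eq]; exact S.s_line

theorem special_R (hz : ∀ x ∈ lineG Q g, x ≠ 1 → ∃ n ∈ Subgroup.normalizer (lineG Q g : Set G),
      n * z * n⁻¹ = x)
    (hnorm : ∀ n ∈ Subgroup.normalizer (lineG Q g : Set G), ∀ r ∈ (lineR Q g).map (Cz z).subtype,
      n * r * n⁻¹ ∈ (lineR Q g).map (Cz z).subtype) :
    IsSpecial 2 ((lineR Q g).map (Cz z).subtype) ∧
      (Subgroup.center ((lineR Q g).map (Cz z).subtype)).map ((lineR Q g).map (Cz z).subtype).subtype =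
        lineG Q g := by
  haveI : Fact (Nat.Prime 2) := ⟨Nat.prime_two⟩
  set R := (lineR Q g).map (Cz z).subtype with hR
  have hp : IsPGroup 2 R := IsPGroup.iff_card.2 ⟨15, by
    rw [hR, Subgroup.card_map_of_injective (Cz z).subtype_injective, S.card_lineR]⟩
  have hVR : lineG Q g ≤ R := fun x hx => by
    obtain ⟨a, ha, e⟩ := S.line_le_R hx
    exact ⟨a, ha, e⟩
  set D := (lineG Q g).subgroupOf R with hD
  have hVc : D ≤ Subgroup.center R := fun x hx => Subgroup.mem_center_iff.2 fun r => by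
    obtain ⟨c, hc, hce⟩ := r.2
    apply Subtype.ext
    show (r : G) * x = x * r
    rw [← hce]
    exact (S.line_central (Subgroup.mem_subgroupOf.1 hx) hc).symm
  haveI hDn : D.Normal := ⟨fun d hd r => by
    rw [Subgroup.mem_center_iff.1 (hVc hd) r, mul_inv_cancel_right]; exact hd⟩
  set p := QuotientGroup.mk' D
  have hmemA : ∀ a ∈ (Fischer2.sideA (qG Q) z g).subgroupOf (Cz z) ⊓ M, (a : G) ∈ R := fun a ha =>
    ⟨a, S.AM_le_R ha, rfl⟩
  have hmemB : ∀ q ∈ lineC Q g ⊓ Q, (q : G) ∈ R := fun q hq => ⟨q, S.CQ_le_R hq, rfl⟩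
  let cm : R → R → Prop := fun x y => p x * p y = p y * p x
  have hcm : ∀ x y : R, (x : G) * y * (x : G)⁻¹ * (y : G)⁻¹ ∈ lineG Q g → cm x y := fun x y hxy => by
    have h1 : p (x * y * x⁻¹ * y⁻¹) = 1 := (QuotientGroup.eq_one_iff _).2 (Subgroup.mem_subgroupOf.2 hxy)
    rwa [map_mul, map_mul, map_mul, map_inv, map_inv, mul_inv_eq_one, mul_inv_eq_iff_eq_mul] at h1
  have hsq1 : ∀ x : R, (x : G) * x ∈ lineG Q g → p x * p x = 1 := fun x hx => by
    rw [← map_mul]; exact (QuotientGroup.eq_one_iff _).2 (Subgroup.mem_subgroupOf.2 hx)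
  have hall : ∀ x : R, ∃ a : Cz z, ∃ ha : a ∈ (Fischer2.sideA (qG Q) z g).subgroupOf (Cz z) ⊓ M,
      ∃ q : Cz z, ∃ hq : q ∈ lineC Q g ⊓ Q, p x = p ⟨a, hmemA a ha⟩ * p ⟨q, hmemB q hq⟩ := by
    intro x
    obtain ⟨c, hc, hce⟩ := x.2
    obtain ⟨a, ha, q, hq, rfl⟩ := S.lineR_decomp hc
    refine ⟨a, ha, q, hq, ?_⟩
    rw [← map_mul]
    congr 1
    exact Subtype.ext hce.symm
  have hAA : ∀ a a' (ha : a ∈ (Fischer2.sideA (qG Q) z g).subgroupOf (Cz z) ⊓ M)
      (ha' : a' ∈ (Fischer2.sideA (qG Q) z g).subgroupOf (Cz z) ⊓ M), cm ⟨a, hmemA a ha⟩ ⟨a', hmemA a' ha'⟩ := by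
    intro a a' ha ha'
    refine hcm _ _ ?_
    rcases S.pair.commutator_conj (Subgroup.mem_subgroupOf.1 ha.1).1 (Subgroup.mem_subgroupOf.1 ha'.1).1 with e | e
    · rw [e]; exact one_mem _
    · rw [e, S.conj_eq]; exact S.s_line
  have hBB : ∀ a a' (ha : a ∈ lineC Q g ⊓ Q) (ha' : a' ∈ lineC Q g ⊓ Q),
      cm ⟨a, hmemB a ha⟩ ⟨a', hmemB a' ha'⟩ := by
    intro a a' ha ha'
    refine hcm _ _ ?_
    rcases S.pair.commutator_cases (S.memQ.2 ha.2) (S.memQ.2 ha'.2) with e | e <;> rw [e]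
    exacts [one_mem _, S.z_line]
  have hAB : ∀ a q (ha : a ∈ (Fischer2.sideA (qG Q) z g).subgroupOf (Cz z) ⊓ M) (hq : q ∈ lineC Q g ⊓ Q),
      cm ⟨a, hmemA a ha⟩ ⟨q, hmemB q hq⟩ := fun a q ha hq => hcm _ _ (S.commutator_mixed ha hq)
  have hcomm : ∀ x y : R, cm x y := by
    intro x y
    obtain ⟨a, ha, q, hq, hx⟩ := hall x
    obtain ⟨a', ha', q', hq', hy⟩ := hall y
    show p x * p y = p y * p x
    rw [hx, hy]
    exact (((show Commute _ _ from hAA a a' ha ha').mul_right (show Commute _ _ from hAB a q' ha hq')).mul_left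
      ((show Commute _ _ from hAB a' q ha' hq).symm.mul_right (show Commute _ _ from hBB q q' hq hq'))).eq
  have hsq : ∀ x : R, p x * p x = 1 := by
    intro x
    obtain ⟨a, ha, q, hq, hx⟩ := hall x
    rw [hx, (show Commute _ _ from hAB a q ha hq).symm.mul_mul_mul_comm,
      hsq1 _ (S.conj_sq_cases (Subgroup.mem_subgroupOf.1 ha.1).1), hsq1 _ ?_, mul_one]
    rcases S.pair.sq_cases (S.memQ.2 hq.2) with e | e
    · rw [show ((⟨q, hmemB q hq⟩ : R) : G) = q from rfl, e]; exact one_mem _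
    · rw [show ((⟨q, hmemB q hq⟩ : R) : G) = q from rfl, e]; exact S.z_line
  have hcD : ∀ x y : R, ⁅x, y⁆ ∈ D := fun x y => (QuotientGroup.eq_one_iff _).1 (by
    show p ⁅x, y⁆ = 1
    rw [map_commutatorElement]; exact commutatorElement_eq_one_iff_commute.2 (hcomm x y))
  have hsD : ∀ x : R, x ^ 2 ∈ D := fun x => (QuotientGroup.eq_one_iff _).1 (by
    show p (x ^ 2) = 1
    rw [map_pow, pow_two]; exact hsq x)
  have hzD : Subgroup.center R ≤ D := by
    intro r hr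
    obtain ⟨c, hc, hce⟩ := r.2
    obtain ⟨a, ha, q, hq, rfl⟩ := S.lineR_decomp hc
    have hcen : ∀ x : Cz z, x ∈ lineC Q g ⊓ Q → a * q * x = x * (a * q) := fun x hx => by
      have := congrArg Subtype.val (Subgroup.mem_center_iff.1 hr ⟨x, hmemB x hx⟩)
      apply Subtype.ext
      simp only [Subgroup.coe_mul] at this
      rw [← hce] at this
      exact this.symm
    obtain ⟨e, -, he⟩ := S.frame.lift a ha.2
    have hfix : ∀ x : Cz z, x ∈ lineC Q g ⊓ Q → e (π x) = π x := fun x hx => by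
      have h1 : π (a * (q * x * q⁻¹) * a⁻¹) = π x := by
        congr 1
        rw [show a * (q * x * q⁻¹) * a⁻¹ = a * q * x * (a * q)⁻¹ by group, hcen x hx, mul_inv_cancel_right]
      rwa [he _ (hQn.conj_mem x hx.2 q), S.frame.map_conj_eq hq.2 hx.2] at h1
    have haI : (a : G) ∈ qG Q ⊓ Fischer2.conjQ (qG Q) g := by
      set I0 := qG Q ⊓ Fischer2.conjQ (qG Q) g with hI0
      set X := Fischer2.conjQ (qG Q) g ⊓ Subgroup.centralizer (I0 : Set G)
      have hIX : I0 ≤ X := le_inf inf_le_right fun x hx => Subgroup.mem_centralizer_iff.2 fun y hy =>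
        S.pair.E_comm hy hx
      have h7 : Nat.card I0 * Nat.card X ≤ 2 ^ 14 := S.bound le_rfl S.v_in inf_le_left fun j hj x hx =>
        Subgroup.mem_centralizer_iff.1 hx.2 j hj
      have hXI : X = I0 := (Subgroup.eq_of_le_of_card_ge hIX (by
        rw [S.facts.cardI] at h7 ⊢; omega)).symm
      rw [← hXI]
      refine ⟨(Subgroup.mem_subgroupOf.1 ha.1).1, Subgroup.mem_centralizer_iff.2 fun j hj => ?_⟩
      obtain ⟨b, hb, rfl⟩ := hj.1
      refine ((S.conj_eq_iff (Subgroup.mem_subgroupOf.1 ha.1).1 hj).1 ?_).symm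
      rw [he b hb]
      exact hfix b (S.inI_lineC hj)
    have haQ := S.memQ.1 haI.1
    have haq : a * q ∈ lineC Q g ⊓ Q := ⟨hc.1, mul_mem haQ hq.2⟩
    have key : ∀ x : Cz z, x ∈ lineC Q g ⊓ Q → h (π (a * q)) (π x) = 0 := by
      intro x hx
      obtain ⟨x2, hx2, hx2e⟩ := S.frame.surj ((.om : K4) • π x)
      have hx2C : x2 ∈ lineC Q g := by
        rw [S.Q_lineC hx2, hx2e, S.frame.cover.smul_left, (S.Q_lineC hx.2).1 hx.1, mul_zero]
      have h1 := (S.frame.comm _ haq.2 x hx.2).1 (hcen x hx)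
      have h2 := (S.frame.comm _ haq.2 x2 hx2).1 (hcen x2 ⟨hx2C, hx2⟩)
      rw [hx2e, S.frame.cover.smul_right] at h2
      revert h1 h2
      generalize h (π (a * q)) (π x) = k
      revert k; decide
    obtain ⟨k, hk⟩ := S.line_of_orth (u := π (a * q)) fun y hy => by
      obtain ⟨x, hx, rfl⟩ := S.frame.surj y
      exact key x ⟨(S.Q_lineC hx).2 hy, hx⟩
    rw [Subgroup.mem_subgroupOf, ← hce]
    exact S.mem_lineG_iff.2 ⟨haq.2, k, hk⟩
  have hcen : Subgroup.center R = D := le_antisymm hzD hVc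
  have hcom_le : commutator R ≤ D := by
    rw [commutator_def, Subgroup.commutator_le]; exact fun x _ y _ => hcD x y
  have hfr_le : frattini R ≤ D := CfsgLib.Subnormal.frattini_le_of_forall (p := 2) hcD hsD
  have hD_le : D ≤ commutator R := by
    have hzz : z ∈ (commutator R).map R.subtype := by
      obtain ⟨x, hx, y, hy, hxy⟩ : ∃ x ∈ lineC Q g ⊓ Q, ∃ y ∈ lineC Q g ⊓ Q, x * y ≠ y * x := by
        by_contra hno
        push Not at hno
        set T := (lineC Q g ⊓ Q).map (Cz z).subtype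
        have hT : T ≤ qG Q := Subgroup.map_mono inf_le_right
        have hzT : z ∈ T := ⟨⟨z, Subgroup.mem_centralizer_singleton_iff.2 rfl⟩,
          S.inI_lineC S.z_in, rfl⟩
        have h1 := card_centralizing_le S.pair.extra S.pair.center_eq S.pair.z_ne_one S.cardQG hT hzT hT (by
          rintro _ ⟨x, hx, rfl⟩ _ ⟨y, hy, rfl⟩
          exact congrArg Subtype.val (hno x hx y hy))
        rw [Subgroup.card_map_of_injective (Cz z).subtype_injective, S.card_CQ] at h1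
        omega
      refine ⟨⁅(⟨x, hmemB x hx⟩ : R), ⟨y, hmemB y hy⟩⁆,
        Subgroup.commutator_mem_commutator (Subgroup.mem_top _) (Subgroup.mem_top _), ?_⟩
      show (x : G) * y * (x : G)⁻¹ * (y : G)⁻¹ = z
      refine (S.pair.commutator_cases (S.memQ.2 hx.2) (S.memQ.2 hy.2)).resolve_left fun e => hxy ?_
      exact Subtype.ext (mul_inv_eq_iff_eq_mul.1 (mul_inv_eq_one.1 e))
    intro d hd
    by_cases hd1 : (d : G) = 1
    · rw [show d = 1 from Subtype.ext hd1]; exact one_mem _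
    obtain ⟨n, hn, hne⟩ := hz _ (Subgroup.mem_subgroupOf.1 hd) hd1
    have hinv : ((commutator R).map R.subtype).map (MulAut.conj n).toMonoidHom ≤ (commutator R).map R.subtype := by
      rw [commutator_def, Subgroup.map_commutator, ← MonoidHom.range_eq_map, Subgroup.range_subtype,
        Subgroup.map_commutator]
      refine Subgroup.commutator_mono ?_ ?_ <;>
      · rintro _ ⟨r, hr, rfl⟩
        exact hnorm n hn r hr
    obtain ⟨d', hd', hde⟩ := hinv ⟨z, hzz, hne⟩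
    exact (Subtype.ext hde : d' = d) ▸ hd'
  refine ⟨⟨hp, ?_, ?_⟩, ?_⟩
  · rw [hcen]
    exact le_antisymm hfr_le (hD_le.trans (CfsgLib.PGroups.commutator_le_frattini hp))
  · rw [hcen]; exact le_antisymm hcom_le hD_le
  · rw [hcen, hD, Subgroup.subgroupOf_map_subtype, inf_eq_left.2 hVR]

end LineSetting

end CfsgLib.FischerLarge
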