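import Cfsg.Agent.Lib.FischerLarge.Conjugates

/-!
FischerLarge: the eight group over the line of a conjugate of the central involution.  The part of
the conjugate of `Q` centralising `z` acts on the intersection by transvections along `π s`; exactly
half of it is linear, which forces the whole line of `π s` into the intersection.
-/

set_option autoImplicit false
set_option linter.style.haveILetI false
set_option linter.unusedSectionVars false

namespace CfsgLib.FischerLarge

open scoped Classical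
open Cfsg

universe u

variable {G : Type u} [Group G] [Finite G] {z : G} {P : Type} [Group P] [Finite P]
variable {Q M : Subgroup (Cz z)} [hQn : Q.Normal] {V : Type u} [AddCommGroup V] [Module K4 V] [Finite V]
variable {L : Subgroup (V ≃ₗ[K4] V)} {f : L →* P} {h : V → V → K4} {π : Cz z → V} {s : Cz z} {g : G}

/-- The data attached to a conjugate `s` of `z` in `Q`. -/
structure LineSetting (Q M : Subgroup (Cz z)) [Q.Normal] (L : Subgroup (V ≃ₗ[K4] V)) (f : L →* P)
    (h : V → V → K4) (π : Cz z → V) (s : Cz z) (g : G) : Prop where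
  frame : Frame Q M L f h π
  le_M : Q ≤ M
  idx : M.index = 2
  mem : s ∈ Q
  conj_eq : g * z * g⁻¹ = (s : G)
  pair : Fischer2.LargePair (qG Q) z g
  facts : ConjFacts Q L π s g
  cardQ : Nat.card Q = 2 ^ 13
  mono : ∃ ψ : V ≃ₗ[K4] (Fin 6 → K4), Ortho h ψ ∧ HasMonomial L ψ

theorem Cover.add_right (c : Cover L f h) (u v w : V) : h u (v + w) = h u v + h u w := by
  rw [c.symm, c.add_left, map_add, ← c.symm, ← c.symm]

theorem Cover.zero_right (c : Cover L f h) (v : V) : h v 0 = 0 := by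
  rw [c.symm, c.zero_left, _root_.map_zero]

/-- A bound on subgroups centralising each other in an extraspecial group of order `2^13`. -/
theorem card_centralizing_le {Q0 : Subgroup G} {c : G} (hQ : IsExtraspecial 2 Q0)
    (hc : (Subgroup.center Q0).map Q0.subtype = Subgroup.zpowers c) (hc1 : c ≠ 1)
    (hcard : Nat.card Q0 = 2 ^ 13) {J X : Subgroup G} (hJ : J ≤ Q0) (hcJ : c ∈ J) (hX : X ≤ Q0)
    (hcomm : ∀ j ∈ J, ∀ x ∈ X, j * x = x * j) : Nat.card J * Nat.card X ≤ 2 ^ 14 := by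
  haveI : Fact (Nat.Prime 2) := ⟨Nat.prime_two⟩
  obtain ⟨u, hu, huc⟩ := CfsgLib.LargeSubgroups.exists_good_top hQ
  obtain ⟨c', hc', hcc⟩ : c ∈ (Subgroup.center Q0).map Q0.subtype := hc ▸ Subgroup.mem_zpowers c
  have hu' : u = c' := by
    rcases (huc c').1 hc' with e | e
    · exact absurd (by rw [← hcc, e]; rfl) hc1
    · exact e.symm
  have huJ : u ∈ J.subgroupOf Q0 := by
    rw [hu', Subgroup.mem_subgroupOf, show (c' : G) = c from hcc]
    exact hcJ
  obtain ⟨k, hk⟩ := IsPGroup.iff_card.1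
    ((IsPGroup.iff_card.2 ⟨13, hcard⟩ : IsPGroup 2 Q0).to_subgroup (J.subgroupOf Q0))
  have hk0 : k ≠ 0 := fun e => by
    rw [e, pow_zero] at hk
    have h1 := Subgroup.eq_bot_of_card_eq _ hk
    rw [h1, Subgroup.mem_bot] at huJ
    exact hc1 (by rw [← hcc, ← hu', huJ]; rfl)
  obtain ⟨n, rfl⟩ : ∃ n, k = n + 1 := ⟨k - 1, by omega⟩
  have h1 := CfsgLib.LargeSubgroups.card_mul_card_centralizer_le hu n _ huJ hk
  have h2 : X.subgroupOf Q0 ≤ Subgroup.centralizer (J.subgroupOf Q0 : Set Q0) := fun x hx =>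
    Subgroup.mem_centralizer_iff.2 fun j hj => Subtype.ext (hcomm _ hj _ hx)
  have h3 := (Nat.mul_le_mul_left _ (Subgroup.card_le_of_le h2)).trans h1
  rw [Nat.card_congr (Subgroup.subgroupOfEquivOfLe hJ).toEquiv,
    Nat.card_congr (Subgroup.subgroupOfEquivOfLe hX).toEquiv, hcard] at h3
  omega

theorem card_map_mul_card_inf {A B : Type*} [Group A] [Group B] [Finite A] (φ : A →* B)
    (K : Subgroup A) : Nat.card (K.map φ) * Nat.card (K ⊓ φ.ker : Subgroup A) = Nat.card K := by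
  have h1 := Subgroup.card_mul_index (φ.ker.subgroupOf K)
  rw [show (φ.ker.subgroupOf K).index = Nat.card (K.map φ) from Subgroup.relIndex_ker _ _] at h1
  rw [mul_comm, ← h1]
  congr 1
  rw [← Subgroup.inf_subgroupOf_left]
  exact (Nat.card_congr (Subgroup.subgroupOfEquivOfLe inf_le_left).toEquiv).symm

namespace LineSetting

variable (S : LineSetting Q M L f h π s g)
include S

/-- The conjugate of `Q`. -/
theorem pair_conj : Fischer2.LargePair (Fischer2.conjQ (qG Q) g) (s : G) g⁻¹ := by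
  have := S.pair.flip
  rwa [S.conj_eq] at this

theorem normal_M : M.Normal := Subgroup.normal_of_index_eq_two S.idx

theorem memQ {a : Cz z} : (a : G) ∈ qG Q ↔ a ∈ Q :=
  ⟨fun ⟨_, hb, e⟩ => (show _ = a from Subtype.ext e) ▸ hb, fun ha => ⟨a, ha, rfl⟩⟩

theorem cardQG : Nat.card (qG Q) = 2 ^ 13 := by
  rw [Subgroup.card_map_of_injective (Cz z).subtype_injective, S.cardQ]

theorem cardConj : Nat.card (Fischer2.conjQ (qG Q) g) = 2 ^ 13 := by
  rw [Subgroup.card_map_of_injective (MulAut.conj g).injective, S.cardQG]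

theorem s_mem_conj : (s : G) ∈ Fischer2.conjQ (qG Q) g := S.conj_eq ▸ S.pair.s_mem_conj

theorem s_ne_z : (s : G) ≠ z := S.conj_eq ▸ S.pair.s_ne

theorem s_ne_one : (s : G) ≠ 1 := S.conj_eq ▸ S.pair.s_ne_one

theorem v_ne : π s ≠ 0 := S.frame.ne_zero_of S.mem S.s_ne_one S.s_ne_z

theorem v_iso : h (π s) (π s) = 0 :=
  (S.frame.sq s S.mem).2 (Subtype.ext (show (s : G) * s = 1 from S.conj_eq ▸ S.pair.s_sq))

theorem v_in : (s : G) ∈ qG Q ⊓ Fischer2.conjQ (qG Q) g :=
  ⟨S.memQ.2 S.mem, S.s_mem_conj⟩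

theorem z_in : z ∈ qG Q ⊓ Fischer2.conjQ (qG Q) g := ⟨S.pair.z_mem, S.pair.z_mem_conj⟩

theorem comm_in {a b : Cz z} (ha : (a : G) ∈ qG Q ⊓ Fischer2.conjQ (qG Q) g)
    (hb : (b : G) ∈ qG Q ⊓ Fischer2.conjQ (qG Q) g) : a * b = b * a :=
  Subtype.ext (S.pair.E_comm ha hb)

theorem b1_in {a b : Cz z} (ha : (a : G) ∈ qG Q ⊓ Fischer2.conjQ (qG Q) g)
    (hb : (b : G) ∈ qG Q ⊓ Fischer2.conjQ (qG Q) g) : (h (π a) (π b)).b1 = false :=
  (S.frame.comm a (S.memQ.1 ha.1) b (S.memQ.1 hb.1)).1 (S.comm_in ha hb)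

/-- The conjugate of `Q` moves the intersection only along `s`. -/
theorem conj_cases {c a : Cz z} (hc : (c : G) ∈ Fischer2.conjQ (qG Q) g)
    (ha : (a : G) ∈ qG Q ⊓ Fischer2.conjQ (qG Q) g) :
    c * a * c⁻¹ = a ∨ (c * a * c⁻¹ = s * a ∧ π (c * a * c⁻¹) = π s + π a) := by
  rcases S.pair.commutator_conj hc ha.2 with e | e
  · exact Or.inl (Subtype.ext (mul_inv_eq_one.1 e))
  · rw [S.conj_eq] at e
    have e' : c * a * c⁻¹ = s * a := Subtype.ext (mul_inv_eq_iff_eq_mul.1 e)
    exact Or.inr ⟨e', by rw [e', S.frame.map_mul s S.mem a (S.memQ.1 ha.1)]⟩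

theorem conj_eq_iff {c a : Cz z} (hc : (c : G) ∈ Fischer2.conjQ (qG Q) g)
    (ha : (a : G) ∈ qG Q ⊓ Fischer2.conjQ (qG Q) g) :
    π (c * a * c⁻¹) = π a ↔ (c : G) * a = a * c := by
  constructor
  · intro e
    rcases S.conj_cases hc ha with e' | ⟨-, e'⟩
    · exact mul_inv_eq_iff_eq_mul.1 (congrArg Subtype.val e')
    · exact absurd (by rw [e'] at e; simpa using e) S.v_ne
  · intro e
    rw [show c * a * c⁻¹ = a from mul_inv_eq_iff_eq_mul.2 (Subtype.ext e)]

/-- `gQg⁻¹ ∩ C(z)` inside the centraliser. -/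
theorem card_sideA : Nat.card ((Fischer2.sideA (qG Q) z g).subgroupOf (Cz z)) = 2 ^ 12 := by
  set A' := (Fischer2.sideA (qG Q) z g).subgroupOf (Cz z) with hA'
  have h1 := card_map_mul_card_inf (QuotientGroup.mk' Q) A'
  rw [QuotientGroup.ker_mk', show Nat.card (A'.map (QuotientGroup.mk' Q)) = 32 from S.facts.cardE] at h1
  have hIeq : Nat.card (A' ⊓ Q : Subgroup (Cz z)) =
      Nat.card ↥(qG Q ⊓ Fischer2.conjQ (qG Q) g) := by
    rw [← Subgroup.card_map_of_injective (Cz z).subtype_injective]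
    congr 2
    ext x
    constructor
    · rintro ⟨a, ⟨ha, haQ⟩, rfl⟩
      exact ⟨⟨a, haQ, rfl⟩, (Subgroup.mem_subgroupOf.1 ha).1⟩
    · rintro ⟨⟨a, haQ, rfl⟩, hx⟩
      exact ⟨a, ⟨Subgroup.mem_subgroupOf.2 ⟨hx, a.2⟩, haQ⟩, rfl⟩
  rw [hIeq, S.facts.cardI] at h1
  omega

/-- The linear half. -/
theorem card_sideA_M : 2 ^ 11 ≤
    Nat.card (((Fischer2.sideA (qG Q) z g).subgroupOf (Cz z) ⊓ M).map (Cz z).subtype) := by
  rw [Subgroup.card_map_of_injective (Cz z).subtype_injective]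
  set A' := (Fischer2.sideA (qG Q) z g).subgroupOf (Cz z) with hA'
  haveI := S.normal_M
  have h1 := Subgroup.card_mul_index (M.subgroupOf A')
  have h2 : M.relIndex A' ≤ 2 := by
    refine Nat.le_of_dvd (by norm_num) ?_
    rw [← S.idx]
    exact Subgroup.relIndex_dvd_index_of_normal (H := M) (K := A')
  have h3 : Nat.card (M.subgroupOf A') = Nat.card (A' ⊓ M : Subgroup (Cz z)) := by
    rw [← Subgroup.inf_subgroupOf_left]
    exact Nat.card_congr (Subgroup.subgroupOfEquivOfLe inf_le_left).toEquiv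
  rw [h3, show (M.subgroupOf A').index = M.relIndex A' from rfl, S.card_sideA] at h1
  have := Nat.mul_le_mul_left (Nat.card (A' ⊓ M : Subgroup (Cz z))) h2
  rw [h1] at this
  omega

theorem bound {J X : Subgroup G} (hJ : J ≤ qG Q ⊓ Fischer2.conjQ (qG Q) g) (hsJ : (s : G) ∈ J)
    (hX : X ≤ Fischer2.conjQ (qG Q) g) (hcomm : ∀ j ∈ J, ∀ x ∈ X, j * x = x * j) :
    Nat.card J * Nat.card X ≤ 2 ^ 14 :=
  card_centralizing_le S.pair_conj.extra S.pair_conj.center_eq S.s_ne_one S.cardConj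
    (hJ.trans inf_le_right) hsJ hX hcomm

/-- Elements with a linear action fix two members of a pair `x, ω x` together. -/
theorem linear_comm {c a b : Cz z} (hc : (c : G) ∈ Fischer2.conjQ (qG Q) g) {e : V → V}
    (he : ∀ x ∈ Q, π (c * x * c⁻¹) = e (π x)) (hlin : ∀ v, e ((.om : K4) • v) = (.om : K4) • e v)
    (ha : (a : G) ∈ qG Q ⊓ Fischer2.conjQ (qG Q) g)
    (hb : (b : G) ∈ qG Q ⊓ Fischer2.conjQ (qG Q) g) (hab : π b = (.om : K4) • π a) :
    (c : G) * a = a * c ∧ (c : G) * b = b * c := by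
  have key : π (c * b * c⁻¹) = (.om : K4) • π (c * a * c⁻¹) := by
    rw [he b (S.memQ.1 hb.1), he a (S.memQ.1 ha.1), hab, hlin]
  rcases S.conj_cases hc ha with e1 | ⟨-, e1⟩
  · have ha' : π (c * a * c⁻¹) = π a := by rw [e1]
    refine ⟨(S.conj_eq_iff hc ha).1 ha', (S.conj_eq_iff hc hb).1 ?_⟩
    rw [key, ha', hab]
  · exfalso
    rw [e1, smul_add, ← hab] at key
    rcases S.conj_cases hc hb with e2 | ⟨-, e2⟩
    · rw [e2, eq_comm, add_eq_right, smul_eq_zero] at key
      exact key.elim (by decide) S.v_ne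
    · rw [e2, add_left_inj] at key
      have h0 : ((1 : K4) + .om) • π s = 0 := by
        rw [add_smul, one_smul, ← key, S.frame.add_self]
      exact (smul_eq_zero.1 h0).elim (by decide) S.v_ne

theorem mem_AM {x : G} (hx : x ∈ ((Fischer2.sideA (qG Q) z g).subgroupOf (Cz z) ⊓ M).map (Cz z).subtype) :
    ∃ c : Cz z, (c : G) = x ∧ (c : G) ∈ Fischer2.conjQ (qG Q) g ∧ ∃ e ∈ L,
      ∀ a ∈ Q, π (c * a * c⁻¹) = e (π a) := by
  obtain ⟨c, ⟨hc, hcM⟩, rfl⟩ := hx
  exact ⟨c, rfl, (Subgroup.mem_subgroupOf.1 hc).1, S.frame.lift c hcM⟩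

theorem exists_pair_le {a b : Cz z} (ha : (a : G) ∈ qG Q ⊓ Fischer2.conjQ (qG Q) g)
    (hb : (b : G) ∈ qG Q ⊓ Fischer2.conjQ (qG Q) g) :
    ∃ J : Subgroup G, J ≤ qG Q ⊓ Fischer2.conjQ (qG Q) g ∧ (s : G) ∈ J ∧ z ∈ J ∧ (a : G) ∈ J ∧ (b : G) ∈ J ∧
      ∀ x : G, (x * s = s * x) → (x * z = z * x) → (x * a = a * x) → (x * b = b * x) →
        ∀ j ∈ J, j * x = x * j := by
  refine ⟨Subgroup.closure {z, (s : G), (a : G), (b : G)}, ?_, Subgroup.subset_closure (by simp),
    Subgroup.subset_closure (by simp), Subgroup.subset_closure (by simp),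
    Subgroup.subset_closure (by simp), fun x h1 h2 h3 h4 j hj => ?_⟩
  · rw [Subgroup.closure_le]
    simp only [Set.insert_subset_iff, Set.singleton_subset_iff]
    exact ⟨S.z_in, S.v_in, ha, hb⟩
  · have : Subgroup.closure {z, (s : G), (a : G), (b : G)} ≤ Subgroup.centralizer ({x} : Set G) := by
      rw [Subgroup.closure_le]
      rintro y (rfl | rfl | rfl | rfl) <;> exact Subgroup.mem_centralizer_singleton_iff.2 (Eq.symm (by assumption))
    exact Subgroup.mem_centralizer_singleton_iff.1 (this hj)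

theorem pair_line {a b : Cz z} (ha : (a : G) ∈ qG Q ⊓ Fischer2.conjQ (qG Q) g)
    (hb : (b : G) ∈ qG Q ⊓ Fischer2.conjQ (qG Q) g) (hab : π b = (.om : K4) • π a) :
    ∃ k : K4, π a = k • π s := by
  by_contra hno
  push Not at hno
  obtain ⟨J, hJ, hsJ, hzJ, haJ, hbJ, hJc⟩ := S.exists_pair_le ha hb
  set X := ((Fischer2.sideA (qG Q) z g).subgroupOf (Cz z) ⊓ M).map (Cz z).subtype
  have hX : X ≤ Fischer2.conjQ (qG Q) g := fun x hx => by
    obtain ⟨c, rfl, hc, -⟩ := S.mem_AM hx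
    exact hc
  have hcomm : ∀ j ∈ J, ∀ x ∈ X, j * x = x * j := fun j hj x hx => by
    obtain ⟨c, rfl, hc, e, -, he⟩ := S.mem_AM hx
    obtain ⟨h3, h4⟩ := S.linear_comm hc he (fun v => map_smul e _ v) ha hb hab
    exact hJc c (S.conj_eq ▸ S.pair.s_comm_conj hc).symm
      (Subgroup.mem_centralizer_singleton_iff.1 c.2) h3 h4 j hj
  have h16 : 16 ≤ Nat.card J := by
    let zz : Cz z := ⟨z, Subgroup.mem_centralizer_singleton_iff.2 rfl⟩
    let pick : Bool → Cz z → Cz z := fun i x => if i then x else 1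
    have hsQ := S.mem
    have haQ := S.memQ.1 ha.1
    have hbQ := S.memQ.1 hb.1
    have hzQ : zz ∈ Q := S.memQ.1 S.pair.z_mem
    have hpQ : ∀ i {x : Cz z}, x ∈ Q → pick i x ∈ Q := fun i x hx => by cases i <;> simp [pick, hx, one_mem]
    have hpJ : ∀ i {x : Cz z}, (x : G) ∈ J → (pick i x : G) ∈ J := fun i x hx => by
      cases i <;> simp [pick, hx, one_mem]
    let F : Bool × Bool × K4 → J := fun p =>
      ⟨((pick p.1 zz * pick p.2.1 s * (pick p.2.2.b0 a * pick p.2.2.b1 b) : Cz z) : G), by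
        rw [Subgroup.coe_mul, Subgroup.coe_mul, Subgroup.coe_mul]
        exact mul_mem (mul_mem (hpJ _ hzJ) (hpJ _ hsJ)) (mul_mem (hpJ _ haJ) (hpJ _ hbJ))⟩
    have hπ : ∀ p : Bool × Bool × K4, π (pick p.1 zz * pick p.2.1 s * (pick p.2.2.b0 a * pick p.2.2.b1 b)) =
        (if p.2.1 then (1 : K4) else 0) • π s + p.2.2 • π a := by
      rintro ⟨i, j, c⟩
      have hz0 : π zz = 0 := (S.frame.ker _ hzQ).2 (Or.inr rfl)
      rw [S.frame.map_mul _ (mul_mem (hpQ _ hzQ) (hpQ _ hsQ)) _ (mul_mem (hpQ _ haQ) (hpQ _ hbQ)),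
        S.frame.map_mul _ (hpQ _ hzQ) _ (hpQ _ hsQ), S.frame.map_mul _ (hpQ _ haQ) _ (hpQ _ hbQ)]
      have hc : c = (if c.b0 then 1 else 0) + (if c.b1 then .om else 0) := by revert c; decide
      conv_rhs => rw [hc]
      cases i <;> cases j <;> cases hb0 : c.b0 <;> cases hb1 : c.b1 <;>
        simp [pick, hz0, S.frame.map_one, hab, add_smul]
    have hinj : Function.Injective F := by
      rintro ⟨i, j, c⟩ ⟨i', j', c'⟩ e
      have e' : (pick i zz * pick j s * (pick c.b0 a * pick c.b1 b) : Cz z) =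
          pick i' zz * pick j' s * (pick c'.b0 a * pick c'.b1 b) := Subtype.ext (congrArg Subtype.val e :)
      have e2 := congrArg π e'
      rw [hπ (i, j, c), hπ (i', j', c')] at e2
      obtain rfl : c = c' := by
        by_contra hne
        refine hno (((c + c')⁻¹) * ((if j then (1 : K4) else 0) + (if j' then 1 else 0))) ?_
        have hne' : c + c' ≠ 0 := fun e0 => hne ((by decide : ∀ p q : K4, p + q = 0 → p = q) c c' e0)
        rw [mul_smul, eq_inv_smul_iff₀ hne', add_smul, add_smul]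
        dsimp only at e2
        calc c • π a + c' • π a
            = ((if j then (1 : K4) else 0) • π s + c • π a) + (c' • π a + (if j then (1 : K4) else 0) • π s) := by
              rw [show ∀ x y w : V, (x + y) + (w + x) = (x + x) + (y + w) from fun x y w => by abel,
                S.frame.add_self, zero_add]
          _ = _ := by
              rw [e2, show ∀ x y w : V, (x + y) + (y + w) = (y + y) + (w + x) from fun x y w => by abel,
                S.frame.add_self, zero_add]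
      dsimp only at e2
      rw [add_left_inj] at e2
      obtain rfl : j = j' := by
        cases j <;> cases j' <;> simp [S.v_ne, eq_comm (a := (0 : V))] at e2 ⊢
      obtain rfl : i = i' := by
        have e4 : pick i zz = pick i' zz := mul_right_cancel (mul_right_cancel e')
        cases i <;> cases i' <;> simp [pick, zz, Subtype.ext_iff, S.pair.z_ne_one, eq_comm (a := (1 : G))] at e4 ⊢
      rfl
    have := Nat.card_le_card_of_injective F hinj
    rw [Nat.card_prod, Nat.card_prod, K4.card_eq, Nat.card_eq_fintype_card (α := Bool), Fintype.card_bool] at this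
    omega
  have h1 := S.bound hJ hsJ hX hcomm
  have h2 : 16 * 2 ^ 11 ≤ Nat.card J * Nat.card X := Nat.mul_le_mul h16 S.card_sideA_M
  omega

theorem exists_om : ∃ w : Cz z, (w : G) ∈ qG Q ⊓ Fischer2.conjQ (qG Q) g ∧ π w = (.om : K4) • π s := by
  by_contra hno
  push Not at hno
  have hz0 : ∀ a b : Cz z, (a : G) ∈ qG Q ⊓ Fischer2.conjQ (qG Q) g →
      (b : G) ∈ qG Q ⊓ Fischer2.conjQ (qG Q) g → π b = (.om : K4) • π a → π a = 0 := by
    intro a b ha hb hab
    obtain ⟨k, hk⟩ := S.pair_line ha hb hab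
    rcases K4.cases4 k with rfl | rfl | rfl | rfl
    · rw [hk, zero_smul]
    · rw [hk, one_smul] at hab
      exact absurd hab (hno b hb)
    · exact absurd hk (hno a ha)
    · refine absurd ?_ (hno (s * a) (mul_mem S.v_in ha))
      rw [S.frame.map_mul s S.mem a (S.memQ.1 ha.1), hk,
        show (K4.om : K4) = 1 + .om2 by decide, add_smul, one_smul]
  set I' := (qG Q ⊓ Fischer2.conjQ (qG Q) g).subgroupOf (Cz z) with hI'
  have hI'Q : ∀ a ∈ I', a ∈ Q := fun a ha => S.memQ.1 (Subgroup.mem_subgroupOf.1 ha).1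
  let U : AddSubgroup V :=
    { carrier := {x | ∃ a ∈ I', π a = x}
      zero_mem' := ⟨1, one_mem _, S.frame.map_one⟩
      add_mem' := by
        rintro _ _ ⟨a, ha, rfl⟩ ⟨b, hb, rfl⟩
        exact ⟨a * b, mul_mem ha hb, S.frame.map_mul _ (hI'Q a ha) _ (hI'Q b hb)⟩
      neg_mem' := by
        rintro _ ⟨a, ha, rfl⟩
        exact ⟨a, ha, (eq_neg_of_add_eq_zero_left (S.frame.add_self _))⟩ }
  have hcU : 64 ≤ Nat.card U := by
    choose rep hrep hrep' using fun x : U => x.2
    have : Nat.card I' ≤ Nat.card (U × Bool) := by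
      refine Nat.card_le_card_of_injective (fun a : I' =>
        ((⟨π a, a, a.2, rfl⟩ : U), decide ((a : Cz z) = rep ⟨π a, a, a.2, rfl⟩))) ?_
      intro a b e
      simp only [Prod.mk.injEq, Subtype.mk.injEq, decide_eq_decide] at e
      obtain ⟨e1, e2⟩ := e
      have er : rep ⟨π (a : Cz z), a, a.2, rfl⟩ = rep ⟨π (b : Cz z), b, b.2, rfl⟩ := by congr 1; exact Subtype.ext e1
      rw [← er] at e2
      set r := rep ⟨π (a : Cz z), a, a.2, rfl⟩
      have hr : r ∈ Q := hI'Q _ (hrep _)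
      have hra : π r = π (a : Cz z) := hrep' _
      apply Subtype.ext
      by_cases ha : (a : Cz z) = r
      · rw [ha, e2.1 ha]
      · have h1 := (S.frame.fiber hr (hI'Q _ a.2) hra).resolve_left ha
        have h2 := (S.frame.fiber hr (hI'Q _ b.2) (hra.trans e1)).resolve_left fun hb => ha (e2.2 hb)
        exact Subtype.ext (h1.trans h2.symm)
    rw [Nat.card_prod, Nat.card_eq_fintype_card (α := Bool), Fintype.card_bool, hI',
      Nat.card_congr (Subgroup.subgroupOfEquivOfLe (show qG Q ⊓ Fischer2.conjQ (qG Q) g ≤ Cz z from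
        fun x hx => by obtain ⟨a, -, rfl⟩ := hx.1; exact a.2)).toEquiv, S.facts.cardI] at this
    omega
  let Φ : U × U → V := fun p => (p.1 : V) + (.om : K4) • (p.2 : V)
  have hΦ : Function.Injective Φ := by
    rintro ⟨x, y⟩ ⟨x', y'⟩ e
    obtain ⟨a, ha, hax⟩ := (y + y').2
    obtain ⟨b, hb, hbx⟩ := (x + x').2
    have e' : π b = (.om : K4) • π a := by
      rw [hax, hbx]
      simp only [Φ] at e
      push_cast
      rw [smul_add]
      calc (x : V) + x' = ((x : V) + (.om : K4) • (y : V)) + ((.om : K4) • (y : V) + x') := by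
            rw [show ∀ p q r : V, (p + q) + (q + r) = (q + q) + (p + r) from fun p q r => by abel,
              S.frame.add_self, zero_add]
        _ = _ := by
            rw [e, show ∀ p q r : V, (p + q) + (r + p) = (p + p) + (r + q) from fun p q r => by abel,
              S.frame.add_self, zero_add]
    have ha0 := hz0 a b (Subgroup.mem_subgroupOf.1 ha) (Subgroup.mem_subgroupOf.1 hb) e'
    rw [ha0, smul_zero] at e'
    rw [hax] at ha0
    rw [hbx] at e'
    have hh : ∀ p q : U, ((p + q : U) : V) = 0 → p = q := fun p q e0 => Subtype.ext (by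
      calc (p : V) = (p : V) + ((q : V) + q) := by rw [S.frame.add_self, add_zero]
        _ = ((p + q : U) : V) + q := by push_cast; abel
        _ = q := by rw [e0, zero_add])
    exact Prod.ext (hh _ _ e') (hh _ _ ha0)
  have hΦb : Function.Bijective Φ := by
    refine (Nat.bijective_iff_injective_and_card Φ).2 ⟨hΦ, le_antisymm (Nat.card_le_card_of_injective Φ hΦ) ?_⟩
    rw [S.frame.cover.card, Nat.card_prod]
    exact le_trans (by norm_num) (Nat.mul_le_mul hcU hcU)
  obtain ⟨a0, ha0, hva⟩ : ∃ a0 : Cz z, a0 ∈ I' ∧ h (π s) (π a0) ≠ 0 := by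
    by_contra hall
    push Not at hall
    refine S.v_ne (S.frame.cover.nondeg _ fun y => ?_)
    obtain ⟨⟨⟨_, a, ha, rfl⟩, ⟨_, b, hb, rfl⟩⟩, rfl⟩ := hΦb.2 y
    show h (π s) (π a + (.om : K4) • π b) = 0
    rw [S.frame.cover.add_right, S.frame.cover.smul_right, hall a ha, hall b hb, mul_zero, add_zero]
  have hva1 : h (π s) (π a0) = 1 := by
    have h1 := S.b1_in S.v_in (Subgroup.mem_subgroupOf.1 ha0)
    revert hva h1
    generalize h (π s) (π a0) = k
    revert k; decide
  set AM := ((Fischer2.sideA (qG Q) z g).subgroupOf (Cz z) ⊓ M).map (Cz z).subtype with hAM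
  set X := AM ⊓ Subgroup.centralizer ({(a0 : G)} : Set G) with hX
  have hXI : ∀ j ∈ qG Q ⊓ Fischer2.conjQ (qG Q) g, ∀ x ∈ X, j * x = x * j := by
    rintro j hj x ⟨hxA, hxa⟩
    obtain ⟨c, rfl, hc, e, heL, he⟩ := S.mem_AM hxA
    obtain ⟨a, ha, rfl⟩ := hj.1
    rcases S.conj_cases hc hj with e1 | ⟨-, e1⟩
    · exact (mul_inv_eq_iff_eq_mul.1 (congrArg Subtype.val e1)).symm
    · exfalso
      have hfix : e (π a0) = π a0 := by
        rw [← he a0 (hI'Q _ ha0)]
        exact (S.conj_eq_iff hc (Subgroup.mem_subgroupOf.1 ha0)).2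
          (Subgroup.mem_centralizer_singleton_iff.1 hxa)
      have h1 := S.frame.cover.pres ⟨e, heL⟩ (π a) (π a0)
      simp only at h1
      rw [hfix, ← he a ha, e1, S.frame.cover.add_left, hva1, add_eq_right] at h1
      exact one_ne_zero h1
  have hX7 := S.bound le_rfl S.v_in
    (show X ≤ Fischer2.conjQ (qG Q) g from fun x hx => by
      obtain ⟨c, rfl, hc, -⟩ := S.mem_AM hx.1; exact hc) hXI
  rw [S.facts.cardI] at hX7
  have hcard : Nat.card AM ≤ Nat.card (X × Bool) := by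
    by_cases hall : AM ≤ Subgroup.centralizer ({(a0 : G)} : Set G)
    · have : X = AM := inf_eq_left.2 hall
      rw [this, Nat.card_prod]
      exact Nat.le_mul_of_pos_right _ Nat.card_pos
    obtain ⟨m, hm, hmn⟩ := SetLike.not_le_iff_exists.1 hall
    have hcases : ∀ x ∈ AM, x ∉ Subgroup.centralizer ({(a0 : G)} : Set G) → x * a0 * x⁻¹ = (s : G) * a0 := by
      intro x hx hxn
      obtain ⟨c, rfl, hc, -⟩ := S.mem_AM hx
      rcases S.conj_cases hc (Subgroup.mem_subgroupOf.1 ha0) with e1 | ⟨e1, -⟩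
      · exact absurd (Subgroup.mem_centralizer_singleton_iff.2
          (mul_inv_eq_iff_eq_mul.1 (congrArg Subtype.val e1))) hxn
      · exact congrArg Subtype.val e1
    have hstep : ∀ x ∈ AM, x ∉ Subgroup.centralizer ({(a0 : G)} : Set G) → m⁻¹ * x ∈ X := by
      intro x hx hxn
      refine ⟨AM.mul_mem (AM.inv_mem hm) hx, Subgroup.mem_centralizer_singleton_iff.2 ?_⟩
      calc m⁻¹ * x * a0 = m⁻¹ * (x * a0 * x⁻¹) * x := by group
        _ = m⁻¹ * (m * a0 * m⁻¹) * x := by rw [hcases x hx hxn, hcases m hm hmn]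
        _ = _ := by group
    refine Nat.card_le_card_of_injective (fun x : AM =>
      if hxc : (x : G) ∈ Subgroup.centralizer ({(a0 : G)} : Set G) then ((⟨x, x.2, hxc⟩ : X), false)
      else (⟨m⁻¹ * x, hstep _ x.2 hxc⟩, true)) fun x y e => ?_
    simp only at e
    split_ifs at e with h1 h2 h2
    · exact Subtype.ext (congrArg (fun p : X × Bool => (p.1 : G)) e :)
    · exact Bool.noConfusion (congrArg Prod.snd e)
    · exact Bool.noConfusion (congrArg Prod.snd e)
    · exact Subtype.ext (mul_left_cancel (congrArg (fun p : X × Bool => (p.1 : G)) e :))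
  rw [Nat.card_prod, Nat.card_eq_fintype_card (α := Bool), Fintype.card_bool] at hcard
  have := S.card_sideA_M
  rw [← hAM] at this
  omega

/-- The intersection lies in the hermitian orthogonal of the line. -/
theorem orth_in {a : Cz z} (ha : (a : G) ∈ qG Q ⊓ Fischer2.conjQ (qG Q) g) :
    h (π s) (π a) = 0 := by
  obtain ⟨w, hw, hπw⟩ := S.exists_om
  have h1 := S.b1_in S.v_in ha
  have h2 := S.b1_in hw ha
  rw [hπw, S.frame.cover.smul_left] at h2
  revert h1 h2
  generalize h (π s) (π a) = k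
  revert k; decide

/-- Outside `M` the action is semilinear. -/
theorem semi_of_notMem {c : Cz z} (hc : c ∉ M) {a b : Cz z} (ha : a ∈ Q) (hb : b ∈ Q) {k : K4}
    (hab : π b = k • π a) : π (c * b * c⁻¹) = K4.conj k • π (c * a * c⁻¹) := by
  obtain ⟨w, hw, hπw⟩ := S.exists_om
  obtain ⟨n, e, hne, hsemi⟩ : ∃ n : Cz z, ∃ e : V ≃+ V, (∀ a ∈ Q, π (n * a * n⁻¹) = e (π a)) ∧
      ∀ (k : K4) v, e (k • v) = K4.conj k • e v := by
    by_contra hall
    push Not at hall
    obtain ⟨J, hJ, hsJ, hzJ, -, hwJ, hJc⟩ := S.exists_pair_le S.v_in hw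
    have hA : Fischer2.sideA (qG Q) z g ≤ Fischer2.conjQ (qG Q) g := inf_le_left
    have hcomm : ∀ j ∈ J, ∀ x ∈ Fischer2.sideA (qG Q) z g, j * x = x * j := fun j hj x hx => by
      obtain ⟨e, he, hl | hl⟩ := S.frame.semi ⟨x, hx.2⟩
      · obtain ⟨h3, h4⟩ := S.linear_comm (c := ⟨x, hx.2⟩) hx.1 he (fun v => hl _ v) S.v_in hw hπw
        exact hJc x h3 (Subgroup.mem_centralizer_singleton_iff.1 hx.2) h3 h4 j hj
      · obtain ⟨k, v, hkv⟩ := hall ⟨x, hx.2⟩ e he
        exact absurd (hl k v) hkv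
    have h1 := S.bound hJ hsJ hA hcomm
    rw [← Nat.card_congr (Subgroup.subgroupOfEquivOfLe
      (inf_le_right : Fischer2.sideA (qG Q) z g ≤ Cz z)).toEquiv, S.card_sideA] at h1
    have h8 : 5 ≤ Nat.card J := by
      let pts : Fin 5 → J := ![1, ⟨z, hzJ⟩, ⟨s, hsJ⟩, ⟨w, hwJ⟩, ⟨s * w, mul_mem hsJ hwJ⟩]
      have hzs : ∀ x : Cz z, x ∈ Q → π x ≠ 0 → (x : G) ≠ 1 ∧ (x : G) ≠ z := fun x hx hx0 =>
        ⟨fun e1 => hx0 ((S.frame.ker x hx).2 (Or.inl e1)), fun e1 => hx0 ((S.frame.ker x hx).2 (Or.inr e1))⟩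
      have hwQ := S.memQ.1 hw.1
      have hsw : π (s * w) = ((1 : K4) + .om) • π s := by
        rw [S.frame.map_mul s S.mem w hwQ, hπw, add_smul, one_smul]
      have n1 := hzs w hwQ (by rw [hπw]; exact smul_ne_zero (by decide) S.v_ne)
      have n2 := hzs (s * w) (mul_mem S.mem hwQ) (by rw [hsw]; exact smul_ne_zero (by decide) S.v_ne)
      rw [Subgroup.coe_mul] at n2
      have n3 : (w : G) ≠ s := fun e1 => by
        rw [show w = s from Subtype.ext e1] at hπw
        have : ((1 : K4) + .om) • π s = 0 := by rw [add_smul, one_smul, ← hπw, S.frame.add_self]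
        exact (smul_eq_zero.1 this).elim (by decide) S.v_ne
      have hinj : Function.Injective pts := by
        intro i j e1
        have e2 := congrArg Subtype.val e1
        fin_cases i <;> fin_cases j <;>
          simp [pts, S.pair.z_ne_one, S.pair.z_ne_one.symm, S.s_ne_one, S.s_ne_one.symm, S.s_ne_z, S.s_ne_z.symm,
            n1.1, n1.1.symm, n1.2, n1.2.symm, n2.1, n2.1.symm, n2.2, n2.2.symm, n3, n3.symm] at e2 ⊢
      have := Nat.card_le_card_of_injective pts hinj
      rwa [Nat.card_fin] at this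
    have := Nat.mul_le_mul_right (2 ^ 12) h8
    omega
  have hnM : n ∉ M := fun hnM => by
    obtain ⟨l, -, hl⟩ := S.frame.lift n hnM
    have hle : ∀ v, e v = l v := fun v => by
      obtain ⟨x, hx, rfl⟩ := S.frame.surj v
      rw [← hne x hx, hl x hx]
    have h1 := hsemi .om (π s)
    rw [hle, hle, map_smul] at h1
    exact absurd (smul_left_injective K4 (by simpa using S.v_ne : l (π s) ≠ 0) h1) (by decide)
  have hm : n⁻¹ * c ∈ M := by
    rw [Subgroup.mul_mem_iff_of_index_two S.idx, inv_mem_iff]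
    exact iff_of_false hnM hc
  obtain ⟨l, -, hl⟩ := S.frame.lift _ hm
  have key : ∀ x ∈ Q, π (c * x * c⁻¹) = e (l (π x)) := fun x hx => by
    rw [← hl x hx, ← hne _ (hQn.conj_mem x hx _)]
    congr 1; group
  rw [key b hb, key a ha, hab, map_smul, hsemi]

end LineSetting

end CfsgLib.FischerLarge
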