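import Cfsg.Agent.Lib.FischerLarge.Monomial
import Mathlib.LinearAlgebra.Matrix.GeneralLinearGroup.Card

/-!
FischerLarge: a simple group with a subgroup `3^4` normalised by a simple group of order 360 has no
small modules in characteristic two.
-/

set_option autoImplicit false
set_option linter.style.haveILetI false
set_option linter.unusedSectionVars false

namespace CfsgLib.FischerLarge

open scoped Classical

variable {P : Type*} [Group P] [Finite P] {E S : Subgroup P}

/-- A simple group of order 360 does not move at most ten points commuting with a fixed-point-free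
involution. -/
theorem trivial_of_pairs {S O : Type*} [Group S] [Finite S] [Finite O] [IsSimpleGroup S]
    (hS : Nat.card S = 360) (hO : Nat.card O ≤ 10) (ι : O → O) (hne : ∀ a, ι a ≠ a)
    (hinv : ∀ a, ι (ι a) = a) (φ : S →* Equiv.Perm O) (hc : ∀ s a, φ s (ι a) = ι (φ s a)) :
    ∀ s, φ s = 1 := by
  letI r : Setoid O := ⟨fun a b => a = b ∨ a = ι b, fun a => Or.inl rfl,
    fun {a b} hab => by rcases hab with e | e <;> subst e
                        · exact Or.inl rfl
                        · exact Or.inr (hinv b).symm,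
    fun {a b c} hab hbc => by
      rcases hab with e | e <;> rcases hbc with e' | e' <;> subst e <;> subst e'
      · exact Or.inl rfl
      · exact Or.inr rfl
      · exact Or.inr rfl
      · exact Or.inl (hinv c)⟩
  set B := Quotient r
  have h5 : Nat.card B ≤ 5 := by
    have := Nat.card_le_card_of_injective (fun p : B × Bool => if p.2 then ι p.1.out else p.1.out) (by
      rintro ⟨q, b⟩ ⟨q', b'⟩ h
      have hq : q = q' := by
        rw [← q.out_eq, ← q'.out_eq]
        apply Quotient.sound
        cases b <;> cases b' <;> simp only [if_true, if_false, Bool.false_eq_true] at h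
        · exact Or.inl h
        · exact Or.inr h
        · exact Or.inr (by rw [← hinv q.out, h])
        · exact Or.inl (by rw [← hinv q.out, h, hinv])
      subst hq
      cases b <;> cases b' <;> simp only [if_true, if_false, Bool.false_eq_true] at h
      · rfl
      · exact absurd h.symm (hne _)
      · exact absurd h (hne _)
      · rfl)
    rw [Nat.card_prod, Nat.card_eq_fintype_card (α := Bool), Fintype.card_bool] at this
    omega
  let ψ : S →* Equiv.Perm B :=
    { toFun := fun s =>
        { toFun := Quotient.map (φ s) fun a b hab => by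
            rcases hab with e | e
            · exact Or.inl (e ▸ rfl)
            · exact Or.inr (by rw [e, hc])
          invFun := Quotient.map (φ s⁻¹) fun a b hab => by
            rcases hab with e | e
            · exact Or.inl (e ▸ rfl)
            · exact Or.inr (by rw [e, hc])
          left_inv := fun q => Quotient.inductionOn q fun a => by
            show Quotient.mk r (φ s⁻¹ (φ s a)) = _
            rw [← Equiv.Perm.mul_apply, ← map_mul, inv_mul_cancel, map_one]; rfl
          right_inv := fun q => Quotient.inductionOn q fun a => by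
            show Quotient.mk r (φ s (φ s⁻¹ a)) = _
            rw [← Equiv.Perm.mul_apply, ← map_mul, mul_inv_cancel, map_one]; rfl }
      map_one' := Equiv.ext fun q => Quotient.inductionOn q fun a => by
        show Quotient.mk r (φ 1 a) = _
        rw [map_one]; rfl
      map_mul' := fun s t => Equiv.ext fun q => Quotient.inductionOn q fun a => by
        show Quotient.mk r (φ (s * t) a) = Quotient.mk r (φ s (φ t a))
        rw [map_mul]; rfl }
  have hψ : ψ.ker = ⊤ := by
    rcases ψ.normal_ker.eq_bot_or_eq_top with hb | ht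
    · exfalso
      have := Subgroup.card_dvd_of_injective ψ ((MonoidHom.ker_eq_bot_iff _).1 hb)
      rw [hS, Nat.card_perm] at this
      have h2 := Nat.le_of_dvd (Nat.factorial_pos _) this
      have h3 := h2.trans (Nat.factorial_le h5)
      norm_num [Nat.factorial] at h3
    · exact ht
  have hsq : ∀ s, φ s * φ s = 1 := fun s => Equiv.ext fun a => by
    have hs : ψ s = 1 := MonoidHom.mem_ker.1 (show s ∈ ψ.ker by rw [hψ]; exact Subgroup.mem_top s)
    have h1 : Quotient.mk r (φ s a) = Quotient.mk r a := Equiv.ext_iff.1 hs (Quotient.mk r a)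
    show φ s (φ s a) = a
    rcases Quotient.exact h1 with e | e
    · rw [e, e]
    · rw [e, hc, e, hinv]
  intro s
  rcases φ.normal_ker.eq_bot_or_eq_top with hb | ht
  · exfalso
    haveI : Fact (Nat.Prime 5) := ⟨by norm_num⟩
    obtain ⟨y, hy⟩ := exists_prime_orderOf_dvd_card' (G := S) 5 (by rw [hS]; norm_num)
    have h2 : y ^ 2 = 1 := (MonoidHom.ker_eq_bot_iff _).1 hb (by rw [map_one, map_pow, pow_two]; exact hsq y)
    have := orderOf_dvd_of_pow_eq_one h2
    rw [hy] at this
    norm_num at this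
  · exact MonoidHom.mem_ker.1 (ht ▸ Subgroup.mem_top s)

/-- No faithful module of order at most `2^10`. -/
theorem trivial_of_small [IsSimpleGroup P] (hP : Para E S) {A : Type*} [AddCommGroup A] [Finite A]
    (h2 : ∀ a : A, a + a = 0) (hA : Nat.card A ≤ 2 ^ 10) (act : P →* AddMonoid.End A) :
    ∀ p, act p = 1 := by
  haveI : Finite (AddMonoid.End A) := Finite.of_injective (fun φ : AddMonoid.End A => (φ : A → A))
    DFunLike.coe_injective
  let actU : P →* (AddMonoid.End A)ˣ := act.toHomUnits
  rcases actU.normal_ker.eq_bot_or_eq_top with hb | ht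
  swap
  · exact fun p => congrArg Units.val (MonoidHom.mem_ker.1 (ht ▸ Subgroup.mem_top p : p ∈ actU.ker))
  exfalso
  have hinj : Function.Injective act := fun p q hpq => (MonoidHom.ker_eq_bot_iff _).1 hb (Units.ext hpq)
  let t : AddMonoid.End (A × A) :=
    AddMonoidHom.mk' (fun v => (v.2, v.1 + v.2)) fun u v => Prod.ext rfl (by
      show (u + v).1 + (u + v).2 = u.1 + u.2 + (v.1 + v.2)
      rw [Prod.fst_add, Prod.snd_add]; abel)
  have h2' : ∀ v : A × A, v + v = 0 := fun v => Prod.ext (h2 _) (h2 _)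
  have ht : ∀ v : A × A, t (t v) + t v + v = 0 := fun v => Prod.ext (by
      show v.1 + v.2 + v.2 + v.1 = 0
      calc v.1 + v.2 + v.2 + v.1 = (v.1 + v.1) + (v.2 + v.2) := by abel
        _ = 0 := by rw [h2, h2, add_zero]) (by
      show v.2 + (v.1 + v.2) + (v.1 + v.2) + v.2 = 0
      calc v.2 + (v.1 + v.2) + (v.1 + v.2) + v.2 = (v.2 + v.2) + ((v.1 + v.2) + (v.1 + v.2)) := by abel
        _ = 0 := by rw [h2, h2, add_zero])
  letI : Module K4 (A × A) := Module.compHom (A × A) (endHom t h2' ht)
  have hsm : ∀ (a : K4) (v : A × A), a • v = endHom t h2' ht a v := fun _ _ => rfl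
  have hcases : ∀ (a : K4) (v : A × A), (a = 0 ∧ a • v = 0) ∨ (a = 1 ∧ a • v = v) ∨
      (a = .om ∧ a • v = (v.2, v.1 + v.2)) ∨ (a = .om2 ∧ a • v = (v.1 + v.2, v.1)) := by
    intro a v
    rcases K4.cases4 a with rfl | rfl | rfl | rfl
    · exact Or.inl ⟨rfl, zero_smul _ _⟩
    · exact Or.inr (Or.inl ⟨rfl, one_smul _ _⟩)
    · exact Or.inr (Or.inr (Or.inl ⟨rfl, by rw [hsm, endHom_om]; rfl⟩))
    · refine Or.inr (Or.inr (Or.inr ⟨rfl, ?_⟩))
      rw [show (K4.om2 : K4) = .om * .om by decide, mul_smul, hsm, hsm, endHom_om, endHom_om]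
      show (v.1 + v.2, v.2 + (v.1 + v.2)) = _
      rw [add_comm v.1 v.2, ← add_assoc v.2 v.2, h2, zero_add]
  letI : CommGroup E :=
    { (inferInstance : Group E) with mul_comm := fun a b => Subtype.ext (hP.comm _ a.2 _ b.2) }
  have h3 : IsThree E := fun e => Subtype.ext (hP.three _ e.2)
  let ρ : E →* Module.End K4 (A × A) :=
    { toFun := fun e =>
        { toFun := fun v => (act (e : P) v.1, act (e : P) v.2)
          map_add' := fun u v => Prod.ext (map_add _ _ _) (map_add _ _ _)
          map_smul' := fun a v => by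
            rcases hcases a v with ⟨ha, e1⟩ | ⟨ha, e1⟩ | ⟨ha, e1⟩ | ⟨ha, e1⟩ <;>
              rcases hcases a (act (e : P) v.1, act (e : P) v.2) with
                ⟨ha', e2⟩ | ⟨ha', e2⟩ | ⟨ha', e2⟩ | ⟨ha', e2⟩ <;>
              simp only [RingHom.id_apply] <;> rw [e1, e2] <;>
              first
              | (subst ha; exact absurd ha' (by decide))
              | simp [map_add] }
      map_one' := LinearMap.ext fun v => by
        show (act ((1 : E) : P) v.1, act ((1 : E) : P) v.2) = v
        rw [OneMemClass.coe_one, map_one]; rfl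
      map_mul' := fun a b => LinearMap.ext fun v => by
        show (act ((a * b : E) : P) v.1, act ((a * b : E) : P) v.2) = _
        rw [Subgroup.coe_mul, map_mul]; rfl }
  have hρ : ∀ (e : E) v, ρ e v = (act (e : P) v.1, act (e : P) v.2) := fun _ _ => rfl
  -- weights are closed under inversion
  let σ : A × A → A × A := fun v => (v.1 + v.2, v.2)
  have hσs : ∀ (a : K4) v, σ (a • v) = K4.conj a • σ v := by
    intro a v
    rcases hcases a v with ⟨rfl, e1⟩ | ⟨rfl, e1⟩ | ⟨rfl, e1⟩ | ⟨rfl, e1⟩ <;> rw [e1]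
    · rw [map_zero, zero_smul]; exact Prod.ext (add_zero _) rfl
    · rw [map_one, one_smul]
    · rcases hcases (K4.conj .om) (σ v) with ⟨h', -⟩ | ⟨h', -⟩ | ⟨h', -⟩ | ⟨-, e2⟩ <;>
        first
        | exact absurd h' (by decide)
        | (rw [e2]; show (v.2 + (v.1 + v.2), v.1 + v.2) = (v.1 + v.2 + v.2, v.1 + v.2)
           rw [add_comm])
    · rcases hcases (K4.conj .om2) (σ v) with ⟨h', -⟩ | ⟨h', -⟩ | ⟨-, e2⟩ | ⟨h', -⟩ <;>
        first
        | exact absurd h' (by decide)
        | (rw [e2]; show (v.1 + v.2 + v.1, v.1) = (v.2, v.1 + v.2 + v.2)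
           rw [add_comm v.1 v.2, add_assoc, h2, add_zero, add_comm v.2 v.1, add_assoc, h2, add_zero])
  have hinvw : ∀ χ : E →* K4ˣ, χ ∈ weights ρ → χ⁻¹ ∈ weights ρ := by
    intro χ hχ
    obtain ⟨v, hv, hv0⟩ := Submodule.exists_mem_ne_zero_of_ne_bot hχ
    intro hbot
    have hmem : σ v ∈ wSpace ρ χ⁻¹ := fun e => by
      have h1 := hv e
      rw [hρ] at h1
      rw [MonoidHom.inv_apply, Units.val_inv_eq_inv_val, ← K4.conj_inv, ← hσs, ← h1, hρ]
      show (act (e : P) (v.1 + v.2), act (e : P) v.2) = _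
      rw [map_add]
    rw [hbot, Submodule.mem_bot] at hmem
    have h20 : v.2 = 0 := congrArg Prod.snd hmem
    have h10 : v.1 + v.2 = 0 := congrArg Prod.fst hmem
    rw [h20, add_zero] at h10
    exact hv0 (Prod.ext h10 h20)
  -- the action of `S`
  let cj : S → (E →* E) := fun s => MonoidHom.mk'
    (fun e => ⟨(s : P)⁻¹ * e * s, by simpa using hP.norm _ (inv_mem s.2) _ e.2⟩)
    (fun a b => Subtype.ext (by simp [mul_assoc]))
  have hmove : ∀ (s : S) (χ : E →* K4ˣ), χ ∈ weights ρ → χ.comp (cj s) ∈ weights ρ := by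
    intro s χ hχ
    obtain ⟨v, hv, hv0⟩ := Submodule.exists_mem_ne_zero_of_ne_bot hχ
    intro hbot
    have hsmul : ∀ (a : K4), (act (s : P) (a • v).1, act (s : P) (a • v).2) =
        a • ((act (s : P) v.1, act (s : P) v.2) : A × A) := by
      intro a
      rcases hcases a v with ⟨ha, e1⟩ | ⟨ha, e1⟩ | ⟨ha, e1⟩ | ⟨ha, e1⟩ <;>
        rcases hcases a (act (s : P) v.1, act (s : P) v.2) with
          ⟨ha', e2⟩ | ⟨ha', e2⟩ | ⟨ha', e2⟩ | ⟨ha', e2⟩ <;>
        rw [e1, e2] <;> first
          | (subst ha; exact absurd ha' (by decide))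
          | simp [map_add]
    have hmem : ((act (s : P) v.1, act (s : P) v.2) : A × A) ∈ wSpace ρ (χ.comp (cj s)) := fun e => by
      have h1 := hv (cj s e)
      rw [hρ] at h1
      rw [MonoidHom.comp_apply, ← hsmul, ← h1, hρ]
      have key : act (e : P) * act (s : P) = act (s : P) * act ((cj s e : E) : P) := by
        rw [← map_mul, ← map_mul]; congr 1
        show (e : P) * s = s * ((s : P)⁻¹ * e * s)
        group
      exact Prod.ext (DFunLike.congr_fun key v.1) (DFunLike.congr_fun key v.2)
    rw [hbot, Submodule.mem_bot] at hmem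
    have hu : ∀ a : A, act (s : P) a = 0 → a = 0 := fun a ha => by
      have : act ((s : P)⁻¹ * s) a = act (s : P)⁻¹ (act (s : P) a) := by rw [map_mul]; rfl
      rw [inv_mul_cancel, map_one, ha, map_zero] at this
      exact this
    exact hv0 (Prod.ext (hu _ (congrArg Prod.fst hmem)) (hu _ (congrArg Prod.snd hmem)))
  have hcomp : ∀ (s : S) (χ : E →* K4ˣ), χ ≠ 1 → χ.comp (cj s) ≠ 1 := fun s χ hχ h =>
    hχ (MonoidHom.ext fun e => by
      have := DFunLike.congr_fun h (cj s⁻¹ e)
      rw [MonoidHom.comp_apply, MonoidHom.one_apply] at this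
      rw [MonoidHom.one_apply, ← this]
      congr 1; apply Subtype.ext; simp [cj, mul_assoc])
  let O := {χ : E →* K4ˣ // χ ∈ weights ρ ∧ χ ≠ 1}
  have hO : Nat.card O ≤ 10 := by
    have h1 : Nat.card O ≤ Nat.card (weights ρ) :=
      Nat.card_le_card_of_injective (fun χ : O => (⟨χ.1, χ.2.1⟩ : weights ρ))
        fun a b h => Subtype.ext (congrArg Subtype.val h :)
    have h2 := pow_card_weights_le ρ h3
    rw [Nat.card_prod] at h2
    have h3' : 4 ^ Nat.card (weights ρ) ≤ 4 ^ 10 := h2.trans ((Nat.mul_le_mul hA hA).trans (by norm_num))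
    exact h1.trans ((Nat.pow_le_pow_iff_right (by norm_num)).1 h3')
  let φ : S →* Equiv.Perm O :=
    { toFun := fun s =>
        { toFun := fun χ => ⟨χ.1.comp (cj s), hmove s _ χ.2.1, hcomp s _ χ.2.2⟩
          invFun := fun χ => ⟨χ.1.comp (cj s⁻¹), hmove _ _ χ.2.1, hcomp _ _ χ.2.2⟩
          left_inv := fun χ => Subtype.ext (MonoidHom.ext fun e => by
            show χ.1 (cj s (cj s⁻¹ e)) = χ.1 e
            congr 1; apply Subtype.ext; simp [cj, mul_assoc])
          right_inv := fun χ => Subtype.ext (MonoidHom.ext fun e => by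
            show χ.1 (cj s⁻¹ (cj s e)) = χ.1 e
            congr 1; apply Subtype.ext; simp [cj, mul_assoc]) }
      map_one' := Equiv.ext fun χ => Subtype.ext (MonoidHom.ext fun e => by
        show χ.1 (cj 1 e) = χ.1 e
        congr 1; apply Subtype.ext; simp [cj])
      map_mul' := fun a b => Equiv.ext fun χ => Subtype.ext (MonoidHom.ext fun e => by
        show χ.1 (cj (a * b) e) = χ.1 (cj b (cj a e))
        congr 1; apply Subtype.ext; simp [cj, mul_assoc]) }
  haveI := hP.simple
  have htriv := trivial_of_pairs hP.cardS hO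
    (fun χ => ⟨χ.1⁻¹, hinvw _ χ.2.1, fun h => χ.2.2 (MonoidHom.ext fun e => inv_eq_one.1 (DFunLike.congr_fun h e))⟩)
    (fun χ h => χ.2.2 (by
      have h' : χ.1⁻¹ = χ.1 := congrArg Subtype.val h
      refine MonoidHom.ext fun e => ?_
      have he := DFunLike.congr_fun h' e
      rw [MonoidHom.inv_apply, inv_eq_iff_mul_eq_one] at he
      have h3' := K4.unit_cube (χ.1 e)
      rwa [pow_succ, pow_two, he, one_mul] at h3'))
    (fun χ => Subtype.ext (MonoidHom.ext fun e => inv_inv (χ.1 e))) φ
    (fun s χ => Subtype.ext (MonoidHom.ext fun e => rfl))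
  obtain ⟨s, hs, e, he, hne⟩ := hP.moves
  refine hne ?_
  let e' : E := ⟨e, he⟩
  have hfix : ρ (cj ⟨s, hs⟩ e') = ρ e' := by
    apply LinearMap.ext
    intro v
    letI := Fintype.ofFinite (E →* K4ˣ)
    rw [← sum_wProj ρ h3 v, map_sum, map_sum]
    refine Finset.sum_congr rfl fun χ _ => ?_
    by_cases hw : χ ∈ weights ρ
    · rw [wProj_mem ρ χ v, wProj_mem ρ χ v]
      congr 2
      by_cases h1 : χ = 1
      · subst h1; rfl
      · exact DFunLike.congr_fun
          (congrArg Subtype.val (Equiv.ext_iff.1 (htriv ⟨s, hs⟩) ⟨χ, hw, h1⟩)) e'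
    · have := wProj_mem ρ χ v
      simp only [weights, Set.mem_ofPred_eq, not_not] at hw
      rw [hw, Submodule.mem_bot] at this
      rw [this, map_zero, map_zero]
  have : s⁻¹ * e * s = e := hinj (AddMonoidHom.ext fun a => congrArg Prod.fst (LinearMap.congr_fun hfix (a, 0)))
  calc s * e = s * (s⁻¹ * e * s) := by rw [this]
    _ = e * s := by group

/-- The scalar maps. -/
noncomputable def scal (U : Type*) [AddCommGroup U] [Module K4 U] : K4ˣ →* (U ≃ₗ[K4] U) :=
  MonoidHom.mk' (fun u => LinearEquiv.smulOfUnit u) fun a b => LinearEquiv.ext fun v => by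
    show ((a * b : K4ˣ) • v) = a • b • v
    rw [mul_smul]

theorem scal_apply {U : Type*} [AddCommGroup U] [Module K4 U] (u : K4ˣ) (v : U) :
    scal U u v = (u : K4) • v := rfl

theorem card_linearEquiv {U : Type*} [AddCommGroup U] [Module K4 U] [Finite U] (hU : Nat.card U ≤ 4 ^ 5) :
    ¬ 3 ^ 7 ∣ Nat.card (U ≃ₗ[K4] U) := by
  set k := Module.finrank K4 U
  have hk : Nat.card U = 4 ^ k := by rw [Module.natCard_eq_pow_finrank (K := K4), K4.card_eq]
  have hk5 : k ≤ 5 := by rw [hk] at hU; exact (Nat.pow_le_pow_iff_right (by norm_num)).1 hU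
  obtain ⟨b⟩ : Nonempty (U ≃ₗ[K4] (Fin k → K4)) := ⟨(Module.finBasis K4 U).equivFun⟩
  have e : Nat.card (U ≃ₗ[K4] U) = Nat.card (GL (Fin k) K4) := by
    rw [Nat.card_congr (Matrix.GeneralLinearGroup.toLin (n := Fin k) (R := K4)).toEquiv,
      ← Nat.card_congr (LinearMap.GeneralLinearGroup.generalLinearEquiv K4 (Fin k → K4)).symm.toEquiv]
    exact Nat.card_congr
      { toFun := fun g => b.symm.trans (g.trans b)
        invFun := fun g => b.trans (g.trans b.symm)
        left_inv := fun g => by ext v; simp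
        right_inv := fun g => by ext v; simp }
  rw [e, Matrix.card_GL_field, show Fintype.card K4 = 4 from rfl]
  interval_cases k <;> norm_num [Fin.prod_univ_succ]

/-- No projective representation of degree at most five. -/
theorem scalar_of_small [IsSimpleGroup P] (h36 : 3 ^ 6 ∣ Nat.card P) {M : Type*} [Group M] [Finite M]
    {π : M →* P} (hπ : Function.Surjective π) {U : Type*} [AddCommGroup U] [Module K4 U] [Finite U]
    (hU : Nat.card U ≤ 4 ^ 5) (ψ : M →* (U ≃ₗ[K4] U))
    (hk : ∀ m, π m = 1 → ∃ u : K4ˣ, ψ m = scal U u) : ∀ m, ∃ u : K4ˣ, ψ m = scal U u := by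
  haveI : Finite (U ≃ₗ[K4] U) := Finite.of_injective (fun φ : U ≃ₗ[K4] U => (φ : U → U)) DFunLike.coe_injective
  have hc : ∀ (u : K4ˣ) (g : U ≃ₗ[K4] U), g * scal U u = scal U u * g := fun u g =>
    LinearEquiv.ext fun v => g.map_smul (u : K4) v
  haveI : (scal U).range.Normal := ⟨by
    rintro _ ⟨u, rfl⟩ g
    rw [hc, mul_inv_cancel_right]; exact ⟨u, rfl⟩⟩
  by_cases hsub : Subsingleton U
  · exact fun m => ⟨1, LinearEquiv.ext fun v => Subsingleton.elim _ _⟩
  rw [not_subsingleton_iff_nontrivial] at hsub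
  let q : M →* (U ≃ₗ[K4] U) ⧸ (scal U).range := (QuotientGroup.mk' _).comp ψ
  have hq : ∀ m, q m = 1 ↔ ∃ u : K4ˣ, ψ m = scal U u := fun m => by
    show ((ψ m : _) : (U ≃ₗ[K4] U) ⧸ (scal U).range) = 1 ↔ _
    rw [QuotientGroup.eq_one_iff]
    exact ⟨fun ⟨u, hu⟩ => ⟨u, hu.symm⟩, fun ⟨u, hu⟩ => ⟨u, hu.symm⟩⟩
  have hle : π.ker ≤ q.ker := fun m hm => (hq m).2 (hk m hm)
  let q' : P →* (U ≃ₗ[K4] U) ⧸ (scal U).range := π.liftOfSurjective hπ ⟨q, hle⟩
  have hq' : ∀ m, q' (π m) = q m := fun m => MonoidHom.liftOfRightInverse_comp_apply _ _ _ ⟨q, hle⟩ m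
  intro m
  rcases q'.normal_ker.eq_bot_or_eq_top with hb | ht
  · exfalso
    have h1 := Subgroup.card_dvd_of_injective q' ((MonoidHom.ker_eq_bot_iff _).1 hb)
    have h3 : Nat.card (scal U).range = 3 := by
      have hinj : Function.Injective (scal U) := fun a b hab => by
        obtain ⟨v, hv⟩ := exists_ne (0 : U)
        exact Units.ext (smul_left_injective K4 hv (LinearEquiv.congr_fun hab v))
      rw [← Nat.card_congr (MonoidHom.ofInjective hinj).toEquiv, Nat.card_units, K4.card_eq]
    refine card_linearEquiv (U := U) hU ?_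
    rw [Subgroup.card_eq_card_quotient_mul_card_subgroup (scal U).range, h3,
      show (3 : ℕ) ^ 7 = 3 ^ 6 * 3 from rfl]
    exact Nat.mul_dvd_mul_right (h36.trans h1) 3
  · rw [← hq, ← hq']
    exact MonoidHom.mem_ker.1 (ht ▸ Subgroup.mem_top _)

end CfsgLib.FischerLarge
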