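import Cfsg.Agent.Lib.FischerLarge.Frame
import Mathlib.GroupTheory.SpecificGroups.Alternating

/-!
FischerLarge: the monomial subgroup `3^5 : A_6`.
-/

set_option autoImplicit false
set_option linter.style.haveILetI false
set_option linter.unusedSectionVars false

namespace CfsgLib.FischerLarge

open scoped Classical

variable {V : Type*} [AddCommGroup V] [Module K4 V] [Finite V]
variable {P : Type*} [Group P] [Finite P]
variable {E S : Subgroup P} {L : Subgroup (V ≃ₗ[K4] V)} {f : L →* P} {h : V → V → K4}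

theorem finite_equiv : Finite (V ≃ₗ[K4] V) := Finite.of_injective _ DFunLike.coe_injective

theorem Cover.nontrivial (c : Cover L f h) : Nontrivial V :=
  Finite.one_lt_card_iff_nontrivial.1 (by rw [c.card]; norm_num)

theorem Cover.smul_right (c : Cover L f h) (a : K4) (u v : V) : h u (a • v) = K4.conj a * h u v := by
  rw [c.symm (a • v) u, c.smul_left, map_mul, ← c.symm v u]

theorem Cover.zero_left (c : Cover L f h) (v : V) : h 0 v = 0 := by
  have := c.smul_left 0 0 v
  rwa [zero_smul, zero_mul] at this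

theorem Cover.sum_left (c : Cover L f h) {ι : Type*} (s : Finset ι) (F : ι → V) (v : V) :
    h (∑ i ∈ s, F i) v = ∑ i ∈ s, h (F i) v := by
  induction s using Finset.induction_on with
  | empty => simpa using c.zero_left v
  | insert a s ha ih => rw [Finset.sum_insert ha, Finset.sum_insert ha, c.add_left, ih]

theorem perm_alternating {G : Type*} [Group G] [Finite G] (φ : G →* Equiv.Perm (Fin 6))
    (hinj : Function.Injective φ) (hG : Nat.card G = 360) : φ.range = alternatingGroup (Fin 6) := by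
  apply Equiv.Perm.eq_alternatingGroup_of_index_eq_two
  have hc : Nat.card φ.range = 360 := by
    rw [← Nat.card_congr (MonoidHom.ofInjective hinj).toEquiv, hG]
  have := φ.range.card_mul_index
  rw [hc, Nat.card_perm, Nat.card_fin] at this
  norm_num [Nat.factorial] at this
  omega

theorem card_prod_one : Nat.card {c : Fin 6 → K4ˣ // ∏ i, c i = 1} = 243 := by
  rw [Nat.card_congr (show {c : Fin 6 → K4ˣ // ∏ i, c i = 1} ≃ (Fin 5 → K4ˣ) from
    { toFun := fun c => fun i : Fin 5 => c.1 i.succ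
      invFun := fun d => ⟨Fin.cons (∏ i, d i)⁻¹ d, by simp [Fin.prod_univ_succ]⟩
      left_inv := fun c => by
        apply Subtype.ext
        funext i
        refine Fin.cases ?_ (fun j => ?_) i
        · have := c.2
          rw [Fin.prod_univ_succ, mul_eq_one_iff_eq_inv] at this
          simp [this]
        · simp
      right_inv := fun d => by funext i; simp })]
  rw [Nat.card_fun, Nat.card_units, K4.card_eq, Nat.card_fin]; norm_num

/-- An orthonormal basis. -/
structure Ortho (h : V → V → K4) (ψ : V ≃ₗ[K4] (Fin 6 → K4)) : Prop where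
  form : ∀ x y, h x y = ∑ i, ψ x i * K4.conj (ψ y i)

/-- The monomial property: all monomial maps with even permutation and product one lie in `L`. -/
def HasMonomial (L : Subgroup (V ≃ₗ[K4] V)) (ψ : V ≃ₗ[K4] (Fin 6 → K4)) : Prop :=
  ∀ σ ∈ alternatingGroup (Fin 6), ∀ cf : Fin 6 → K4, ∏ i, cf i = 1 →
    ∃ g ∈ L, ∀ v i, ψ (g v) i = cf i * ψ v (σ i)

set_option maxHeartbeats 1000000 in
theorem Cover.exists_monomial (hP : Para E S) (c : Cover L f h) :
    ∃ ψ : V ≃ₗ[K4] (Fin 6 → K4), Ortho h ψ ∧ HasMonomial L ψ := by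
  haveI : Finite (V ≃ₗ[K4] V) := finite_equiv
  haveI := c.nontrivial
  set E' : Subgroup L := E.comap f with hE'
  set S' : Subgroup L := S.comap f with hS'
  have hker : ∀ g : L, f g = 1 → g ∈ E' ∧ g ∈ S' := fun g hg =>
    ⟨by show f g ∈ E; rw [hg]; exact one_mem _, by show f g ∈ S; rw [hg]; exact one_mem _⟩
  have hnorm : ∀ g ∈ S', ∀ e ∈ E', g * e * g⁻¹ ∈ E' := fun g hg e he => by
    show f (g * e * g⁻¹) ∈ E
    rw [map_mul, map_mul, map_inv]; exact hP.norm _ hg _ he
  letI : CommGroup E' :=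
    { (inferInstance : Group E') with mul_comm := fun a b => Subtype.ext (c.commute hP a.2 b.2) }
  have h3 : IsThree E' := fun e => Subtype.ext (c.cube_eq_one hP e.2)
  let ρ : E' →* Module.End K4 V :=
    { toFun := fun e => ((e : L) : V ≃ₗ[K4] V).toLinearMap
      map_one' := rfl
      map_mul' := fun a b => rfl }
  have hρ : ∀ (e : E') v, ρ e v = ((e : L) : V ≃ₗ[K4] V) v := fun _ _ => rfl
  let cj : S' → (E' →* E') := fun g => MonoidHom.mk'
    (fun e => ⟨(g : L)⁻¹ * e * g, by simpa using hnorm _ (inv_mem g.2) _ e.2⟩)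
    (fun a b => Subtype.ext (by simp [mul_assoc]))
  have hmove : ∀ (g : S') (χ : E' →* K4ˣ) (v : V), v ∈ wSpace ρ χ →
      ((g : L) : V ≃ₗ[K4] V) v ∈ wSpace ρ (χ.comp (cj g)) := by
    intro g χ v hv e
    rw [hρ]
    have h1 := hv (cj g e)
    rw [hρ] at h1
    have h2 : ((e : L) : V ≃ₗ[K4] V) (((g : L) : V ≃ₗ[K4] V) v) =
        ((g : L) : V ≃ₗ[K4] V) ((cj g e : L).1 v) := by
      show ((e : L) * g).1 v = ((g : L) * (cj g e : L)).1 v
      rw [show (g : L) * (cj g e : L) = (e : L) * g by simp [cj, mul_assoc]]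
    rw [h2, h1, map_smul]; rfl
  have hmem : ∀ (g : S') (χ : E' →* K4ˣ), χ ∈ weights ρ → χ.comp (cj g) ∈ weights ρ := by
    intro g χ hχ
    obtain ⟨v, hv, hv0⟩ := Submodule.exists_mem_ne_zero_of_ne_bot hχ
    intro hb
    have := hmove g χ v hv
    rw [hb, Submodule.mem_bot, LinearEquiv.map_eq_zero_iff] at this
    exact hv0 this
  let act : S' →* Equiv.Perm (weights ρ) :=
    { toFun := fun g =>
        { toFun := fun χ => ⟨χ.1.comp (cj g), hmem g χ.1 χ.2⟩
          invFun := fun χ => ⟨χ.1.comp (cj g⁻¹), hmem g⁻¹ χ.1 χ.2⟩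
          left_inv := fun χ => Subtype.ext (MonoidHom.ext fun e => by
            show χ.1 (cj g (cj g⁻¹ e)) = χ.1 e
            congr 1; apply Subtype.ext; simp [cj, mul_assoc])
          right_inv := fun χ => Subtype.ext (MonoidHom.ext fun e => by
            show χ.1 (cj g⁻¹ (cj g e)) = χ.1 e
            congr 1; apply Subtype.ext; simp [cj, mul_assoc]) }
      map_one' := Equiv.ext fun χ => Subtype.ext (MonoidHom.ext fun e => by
        show χ.1 (cj 1 e) = χ.1 e
        congr 1)
      map_mul' := fun a b => Equiv.ext fun χ => Subtype.ext (MonoidHom.ext fun e => by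
        show χ.1 (cj (a * b) e) = χ.1 (cj b (cj a e))
        congr 1) }
  let π : S' →* S := MonoidHom.codRestrict (f.comp S'.subtype) S fun g => g.2
  have hπsurj : Function.Surjective π := fun s => by
    obtain ⟨g, hg⟩ := c.surj s
    exact ⟨⟨g, by show f g ∈ S; rw [hg]; exact s.2⟩, Subtype.ext hg⟩
  have hπk : ∀ g : S', π g = 1 ↔ f (g : L) = 1 := fun g =>
    ⟨fun e => congrArg Subtype.val e, fun e => Subtype.ext e⟩
  have hcjk : ∀ g : S', π g = 1 → ∀ e, cj g e = e := fun g hg e => Subtype.ext (by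
    show (g : L)⁻¹ * e * g = e
    rw [mul_assoc, c.scalar_central ((hπk g).1 hg), inv_mul_cancel_left])
  haveI := hP.simple
  -- the action is not trivial
  have hnt : act.ker.map π ≠ ⊤ := by
    intro htop
    have hfix : ∀ (g : S') (χ : weights ρ), χ.1.comp (cj g) = χ.1 := by
      intro g χ
      obtain ⟨k, hk, hkg⟩ : π g ∈ act.ker.map π := htop ▸ Subgroup.mem_top _
      have hk1 : π (k⁻¹ * g) = 1 := by rw [map_mul, map_inv, hkg, inv_mul_cancel]
      have h1 : act (k⁻¹ * g) = 1 := Equiv.ext fun χ => Subtype.ext (MonoidHom.ext fun e => by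
        show χ.1 (cj _ e) = χ.1 e
        rw [hcjk _ hk1])
      rw [map_mul, map_inv, MonoidHom.mem_ker.1 hk, inv_one, one_mul] at h1
      exact congrArg Subtype.val (Equiv.ext_iff.1 h1 χ)
    -- all weights are equal
    have heq : ∀ χ χ' : weights ρ, χ = χ' := by
      intro χ χ'
      let D : Subgroup L := (χ.1 / χ'.1).ker.map E'.subtype
      have hDinv : ∀ g ∈ S', ∀ d ∈ D, g * d * g⁻¹ ∈ D := by
        rintro g hg _ ⟨d, hd, rfl⟩
        refine ⟨⟨g * d * g⁻¹, hnorm g hg d d.2⟩, ?_, rfl⟩
        rw [SetLike.mem_coe, MonoidHom.mem_ker] at hd ⊢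
        have e1 := DFunLike.congr_fun (hfix ⟨g, hg⟩ χ) ⟨g * d * g⁻¹, hnorm g hg d d.2⟩
        have e2 := DFunLike.congr_fun (hfix ⟨g, hg⟩ χ') ⟨g * d * g⁻¹, hnorm g hg d d.2⟩
        have e3 : cj ⟨g, hg⟩ ⟨g * d * g⁻¹, hnorm g hg d d.2⟩ = d := Subtype.ext (by simp [cj, mul_assoc])
        rw [MonoidHom.comp_apply, e3] at e1 e2
        rw [MonoidHom.div_apply, ← e1, ← e2, ← MonoidHom.div_apply, hd]
      have hscal : ∀ (e : E'), f (e : L) = 1 → χ.1 e = χ'.1 e := by
        intro e he
        obtain ⟨a, ha⟩ := (c.ker _).1 he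
        have : ∀ θ : weights ρ, ((θ.1 e : K4ˣ) : K4) = a := fun θ => by
          obtain ⟨v, hv, hv0⟩ := Submodule.exists_mem_ne_zero_of_ne_bot θ.2
          have := hv e
          rw [hρ, ha] at this
          exact smul_left_injective K4 hv0 this.symm
        exact Units.ext ((this χ).trans (this χ').symm)
      rcases c.image_invariant hP D (fun x ⟨d, _, e⟩ => e ▸ d.2) hDinv with hb | ht
      · exfalso
        have hbig : Nat.card E ≤ Nat.card K4ˣ := by
          have hl : ∀ e : E, ∃ x : L, f x = e := fun e => c.surj e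
          choose x hx using hl
          have hxm : ∀ e, x e ∈ E' := fun e => by show f (x e) ∈ E; rw [hx]; exact e.2
          refine Nat.card_le_card_of_injective (fun e => (χ.1 / χ'.1) ⟨x e, hxm e⟩) fun e e' hee => ?_
          dsimp only at hee
          have hd : (x e * (x e')⁻¹) ∈ D := ⟨⟨x e, hxm e⟩ * ⟨x e', hxm e'⟩⁻¹, by
            rw [SetLike.mem_coe, MonoidHom.mem_ker, map_mul, map_inv, hee, mul_inv_cancel], rfl⟩
          have : f (x e * (x e')⁻¹) ∈ D.map f := ⟨_, hd, rfl⟩
          rw [hb, Subgroup.mem_bot, map_mul, map_inv, hx, hx, mul_inv_eq_one] at this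
          exact Subtype.ext this
        rw [hP.cardE, Nat.card_units, K4.card_eq] at hbig
        norm_num at hbig
      · apply Subtype.ext
        ext e
        have : f (e : L) ∈ D.map f := ht.symm ▸ e.2
        obtain ⟨d, ⟨d', hd', rfl⟩, hfd⟩ := this
        have h1 := hscal (d'⁻¹ * e) (by
          show f ((d' : L)⁻¹ * e) = 1
          rw [map_mul, map_inv, show f (d' : L) = f (e : L) from hfd, inv_mul_cancel])
        rw [SetLike.mem_coe, MonoidHom.mem_ker, MonoidHom.div_apply, div_eq_one] at hd'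
        rw [map_mul, map_mul, map_inv, map_inv, hd'] at h1
        exact congrArg Units.val (mul_left_cancel h1)
    -- so all of `E'` is scalar
    have hE : E = ⊥ := by
      rw [Subgroup.eq_bot_iff_forall]
      intro e he
      obtain ⟨x, rfl⟩ := c.surj e
      obtain ⟨χ, hχ⟩ : ∃ χ, χ ∈ weights ρ := by
        by_contra hno
        push Not at hno
        obtain ⟨v, hv⟩ := exists_ne (0 : V)
        exact hv (eq_zero_of_forall_weight ρ h3 fun χ hχ => absurd hχ (hno χ))
      refine (c.ker x).2 ⟨(χ ⟨x, he⟩ : K4ˣ), fun v => ?_⟩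
      letI := Fintype.ofFinite (E' →* K4ˣ)
      have hall : v ∈ wSpace ρ χ := by
        rw [← sum_wProj ρ h3 v]
        refine Submodule.sum_mem _ fun θ _ => ?_
        by_cases hθ : θ ∈ weights ρ
        · have hθχ : θ = χ := congrArg Subtype.val (heq ⟨θ, hθ⟩ ⟨χ, hχ⟩)
          exact hθχ ▸ wProj_mem ρ θ v
        · simp only [weights, Set.mem_ofPred_eq, not_not] at hθ
          have := wProj_mem ρ θ v
          rw [hθ, Submodule.mem_bot] at this
          rw [this]; exact zero_mem _
      exact hall ⟨x, he⟩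
    have := hP.cardE
    rw [hE, Subgroup.card_bot] at this
    norm_num at this
  haveI : (act.ker.map π).Normal := act.normal_ker.map π hπsurj
  have hbot : act.ker.map π = ⊥ := (Subgroup.Normal.eq_bot_or_eq_top inferInstance).resolve_right hnt
  -- there are six weights
  have hle : π.ker ≤ act.ker := fun g hg => MonoidHom.mem_ker.2 (Equiv.ext fun χ =>
    Subtype.ext (MonoidHom.ext fun e => by
      show χ.1 (cj g e) = χ.1 e
      rw [hcjk g hg]))
  let act' : S →* Equiv.Perm (weights ρ) := π.liftOfSurjective hπsurj ⟨act, hle⟩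
  have hact' : ∀ g, act' (π g) = act g := fun g =>
    MonoidHom.liftOfRightInverse_comp_apply _ _ _ ⟨act, hle⟩ g
  have hinj : Function.Injective act' := by
    rw [injective_iff_map_eq_one]
    intro s hs
    obtain ⟨g, rfl⟩ := hπsurj s
    rw [hact'] at hs
    have : π g ∈ act.ker.map π := ⟨g, hs, rfl⟩
    rwa [hbot, Subgroup.mem_bot] at this
  have hW6 : Nat.card (weights ρ) = 6 := by
    have hle6 : Nat.card (weights ρ) ≤ 6 :=
      (Nat.pow_le_pow_iff_right (by norm_num)).1 ((pow_card_weights_le ρ h3).trans c.card.le)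
    have := Subgroup.card_dvd_of_injective act' hinj
    rw [hP.cardS, Nat.card_perm] at this
    set n := Nat.card (weights ρ)
    interval_cases n <;> norm_num [Nat.factorial] at this
    rfl
  obtain ⟨ι⟩ : Nonempty (Fin 6 ≃ weights ρ) := by
    exact ⟨(Finite.equivFinOfCardEq hW6).symm⟩
  have hw4 : ∀ i, Nat.card (wSpace ρ (ι i).1) = 4 := fun i =>
    card_wSpace_eq_four ρ h3 (by rw [hW6, c.card]) (ι i).2
  choose u hu hu0 using fun i => Submodule.exists_mem_ne_zero_of_ne_bot (ι i).2
  have horth : ∀ i j, i ≠ j → h (u i) (u j) = 0 := by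
    intro i j hij
    obtain ⟨e, he⟩ : ∃ e, (ι i).1 e ≠ (ι j).1 e := by
      by_contra hno
      push Not at hno
      exact hij (ι.injective (Subtype.ext (MonoidHom.ext hno)))
    have h1 := c.pres (e : L) (u i) (u j)
    rw [← hρ, ← hρ, hu i e, hu j e, c.smul_left, c.smul_right, ← mul_assoc] at h1
    by_contra hne
    have h2 : ((ι i).1 e : K4) * K4.conj ((ι j).1 e : K4) = 1 := (mul_eq_right₀ hne).1 h1
    rw [K4.conj_inv, ← Units.val_inv_eq_inv_val, ← Units.val_mul] at h2
    exact he (mul_inv_eq_one.1 (Units.ext h2))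
  have hspan : ∀ v : V, ∃ a : Fin 6 → K4, v = ∑ i, a i • u i := by
    intro v
    choose a ha using fun i => eq_smul_of_card_four ρ (hw4 i) (hu i) (hu0 i) (wProj_mem ρ (ι i).1 v)
    refine ⟨a, ?_⟩
    letI := Fintype.ofFinite (E' →* K4ˣ)
    conv_lhs => rw [← sum_wProj ρ h3 v]
    rw [← Finset.sum_subset (Finset.subset_univ (Finset.univ.image fun i => (ι i).1))]
    · rw [Finset.sum_image fun i _ j _ e => ι.injective (Subtype.ext e)]
      exact Finset.sum_congr rfl fun i _ => ha i
    · intro χ _ hχ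
      by_cases hw : χ ∈ weights ρ
      · exact absurd (Finset.mem_image.2 ⟨ι.symm ⟨χ, hw⟩, Finset.mem_univ _, by simp⟩) hχ
      · simp only [weights, Set.mem_ofPred_eq, not_not] at hw
        have := wProj_mem ρ χ v
        rwa [hw, Submodule.mem_bot] at this
  have huu : ∀ i, h (u i) (u i) = 1 := by
    intro i
    have hfix : K4.conj (h (u i) (u i)) = h (u i) (u i) := (c.symm _ _).symm
    have hd : ∀ a : K4, K4.conj a = a → a = 0 ∨ a = 1 := by decide
    refine (hd _ hfix).resolve_left fun h0 => hu0 i (c.nondeg _ fun v => ?_)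
    obtain ⟨a, rfl⟩ := hspan v
    rw [c.symm, c.sum_left, map_sum]
    refine Finset.sum_eq_zero fun j _ => ?_
    rw [c.smul_left]
    by_cases hji : j = i
    · rw [hji, h0, mul_zero, map_zero]
    · rw [horth j i hji, mul_zero, map_zero]
  let ψ₀ : V →ₗ[K4] (Fin 6 → K4) :=
    { toFun := fun v i => h v (u i)
      map_add' := fun x y => funext fun i => c.add_left x y (u i)
      map_smul' := fun a x => funext fun i => c.smul_left a x (u i) }
  have hcoord : ∀ (a : Fin 6 → K4) i, ψ₀ (∑ j, a j • u j) i = a i := by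
    intro a i
    show h (∑ j, a j • u j) (u i) = a i
    rw [c.sum_left, Finset.sum_eq_single i]
    · rw [c.smul_left, huu, mul_one]
    · intro j _ hj; rw [c.smul_left, horth j i hj, mul_zero]
    · intro hi; exact absurd (Finset.mem_univ _) hi
  have hbij : Function.Bijective ψ₀ := by
    constructor
    · intro x y hxy
      obtain ⟨a, rfl⟩ := hspan x
      obtain ⟨b, rfl⟩ := hspan y
      refine Finset.sum_congr rfl fun i _ => ?_
      rw [← hcoord a i, ← hcoord b i, hxy]
    · exact fun a => ⟨∑ j, a j • u j, funext (hcoord a)⟩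
  let ψ := LinearEquiv.ofBijective ψ₀ hbij
  have hψ : ∀ v i, ψ v i = h v (u i) := fun _ _ => rfl
  have hexp : ∀ v, v = ∑ i, ψ v i • u i := fun v =>
    ψ.injective (funext fun i => (hcoord (fun j => ψ v j) i).symm)
  refine ⟨ψ, ⟨fun x y => ?_⟩, ?_⟩
  · conv_lhs => rw [hexp x]
    rw [c.sum_left]
    refine Finset.sum_congr rfl fun i _ => ?_
    rw [c.smul_left, c.symm y (u i)]; rfl
  -- action of `E'`
  have hEact : ∀ (e : E') v i, ψ (((e : L) : V ≃ₗ[K4] V) v) i = ((ι i).1 e : K4) * ψ v i := by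
    intro e v i
    rw [hψ, hψ]
    have h1 := c.pres (e : L) v ((((ι i).1 e : K4))⁻¹ • u i)
    rw [map_smul, ← hρ e (u i), hu i e, smul_smul, inv_mul_cancel₀ (Units.ne_zero _), one_smul,
      c.smul_right, K4.conj_inv, inv_inv] at h1
    exact h1
  let coef : E' →* (Fin 6 → K4ˣ) :=
    { toFun := fun e i => (ι i).1 e
      map_one' := funext fun i => map_one _
      map_mul' := fun a b => funext fun i => map_mul _ _ _ }
  have hcoefinj : Function.Injective coef := by
    intro a b hab
    apply Subtype.ext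
    apply Subtype.ext
    apply LinearEquiv.ext
    intro v
    apply ψ.injective
    funext i
    rw [hEact, hEact, show (ι i).1 a = (ι i).1 b from congrFun hab i]
  -- permutation action of `S'`
  let perm : S' →* Equiv.Perm (Fin 6) := (ι.symm.permCongrHom.toMonoidHom).comp act
  have hperm : ∀ g i, ι (perm g i) = act g (ι i) := fun g i => by
    show ι (ι.symm (act g (ι i))) = _
    rw [Equiv.apply_symm_apply]
  have hSact : ∀ g : S', ∃ cf : Fin 6 → K4ˣ, ∀ v i,
      ψ (((g : L) : V ≃ₗ[K4] V) v) (perm g i) = (cf i : K4) * ψ v i := by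
    intro g
    have hex : ∀ i, ∃ a : K4, ((g : L) : V ≃ₗ[K4] V) (u i) = a • u (perm g i) := fun i =>
      eq_smul_of_card_four ρ (hw4 _) (hu _) (hu0 _) (by
        rw [hperm]; exact hmove g _ _ (hu i))
    choose a ha using hex
    have ha0 : ∀ i, a i ≠ 0 := fun i h0 => hu0 i (by
      have := ha i
      rw [h0, zero_smul, LinearEquiv.map_eq_zero_iff] at this
      exact this)
    refine ⟨fun i => Units.mk0 (a i) (ha0 i), fun v i => ?_⟩
    have h1 := c.pres (g : L) v ((a i)⁻¹ • u i)
    rw [map_smul, ha, smul_smul, inv_mul_cancel₀ (ha0 i), one_smul, c.smul_right, K4.conj_inv,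
      inv_inv] at h1
    exact h1
  choose cf hcf using hSact
  have hcfu : ∀ g (b : Fin 6 → K4ˣ),
      (∀ v i, ψ (((g : S') : L).1 v) (perm g i) = (b i : K4) * ψ v i) → cf g = b := by
    intro g b hb
    funext i
    apply Units.ext
    have e1 := hcf g (u i) i
    rw [hb (u i) i, show ψ (u i) i = 1 from huu i, mul_one, mul_one] at e1
    exact e1.symm
  have hcmul : ∀ g g' : S', ∏ i, cf (g * g') i = (∏ i, cf g i) * ∏ i, cf g' i := by
    intro g g'
    rw [hcfu (g * g') (fun i => cf g (perm g' i) * cf g' i) (fun v i => by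
      rw [map_mul, Equiv.Perm.mul_apply]
      show ψ (((g : L) : V ≃ₗ[K4] V) (((g' : L) : V ≃ₗ[K4] V) v)) _ = _
      rw [hcf, hcf, Units.val_mul, mul_assoc]), Finset.prod_mul_distrib,
      Equiv.prod_comp (perm g') (cf g)]
  let PS : S' →* K4ˣ := MonoidHom.mk' (fun g => ∏ i, cf g i) hcmul
  let PE : E' →* K4ˣ := MonoidHom.mk' (fun e => ∏ i, coef e i) fun a b => by
    rw [map_mul, ← Finset.prod_mul_distrib]; rfl
  have hcube6 : ∀ x : K4ˣ, ∏ _i : Fin 6, x = 1 := fun x => by
    rw [Finset.prod_const, Finset.card_univ, Fintype.card_fin, show 6 = 3 * 2 from rfl, pow_mul,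
      K4.unit_cube, one_pow]
  have hPEs : ∀ e : E', f (e : L) = 1 → PE e = 1 := by
    intro e he
    obtain ⟨a, ha⟩ := (c.ker _).1 he
    have : ∀ i, coef e i = coef e 0 := fun i => by
      apply Units.ext
      have h1 : ∀ j, ((ι j).1 e : K4) = a := fun j => by
        have := hu j e
        rw [hρ, ha] at this
        exact smul_left_injective K4 (hu0 j) this.symm
      exact (h1 i).trans (h1 0).symm
    show ∏ i, coef e i = 1
    rw [Finset.prod_congr rfl fun i _ => this i, hcube6]
  have hPE : ∀ e, PE e = 1 := by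
    let D : Subgroup L := PE.ker.map E'.subtype
    have hinv : ∀ g ∈ S', ∀ d ∈ D, g * d * g⁻¹ ∈ D := by
      rintro g hg _ ⟨d, hd, rfl⟩
      refine ⟨⟨g * d * g⁻¹, hnorm g hg d d.2⟩, ?_, rfl⟩
      rw [SetLike.mem_coe, MonoidHom.mem_ker] at hd ⊢
      rw [← hd]
      let e' : E' := ⟨g * d * g⁻¹, hnorm g hg d d.2⟩
      have e3 : cj ⟨g, hg⟩ e' = d := Subtype.ext (by simp [cj, e', mul_assoc])
      show ∏ i, (ι i).1 e' = ∏ i, (ι i).1 d
      rw [← Equiv.prod_comp (perm ⟨g, hg⟩) fun i => (ι i).1 e']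
      refine Finset.prod_congr rfl fun i _ => ?_
      rw [hperm]
      show (ι i).1 (cj ⟨g, hg⟩ e') = _
      rw [e3]
    rcases c.image_invariant hP D (fun x ⟨d, _, e⟩ => e ▸ d.2) hinv with hb | ht
    · exfalso
      have hl : ∀ e : E, ∃ x : L, f x = e := fun e => c.surj e
      choose x hx using hl
      have hxm : ∀ e, x e ∈ E' := fun e => by show f (x e) ∈ E; rw [hx]; exact e.2
      have := Nat.card_le_card_of_injective (fun e => PE ⟨x e, hxm e⟩) fun e e' hee => by
        have hd : (x e * (x e')⁻¹) ∈ D := ⟨⟨x e, hxm e⟩ * ⟨x e', hxm e'⟩⁻¹, by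
          rw [SetLike.mem_coe, MonoidHom.mem_ker, map_mul, map_inv,
            show PE ⟨x e, hxm e⟩ = PE ⟨x e', hxm e'⟩ from hee, mul_inv_cancel], rfl⟩
        have : f (x e * (x e')⁻¹) ∈ D.map f := ⟨_, hd, rfl⟩
        rw [hb, Subgroup.mem_bot, map_mul, map_inv, hx, hx, mul_inv_eq_one] at this
        exact Subtype.ext this
      rw [hP.cardE, Nat.card_units, K4.card_eq] at this
      norm_num at this
    · intro e
      obtain ⟨d, ⟨d', hd', rfl⟩, hfd⟩ : f (e : L) ∈ D.map f := ht.symm ▸ e.2
      rw [SetLike.mem_coe, MonoidHom.mem_ker] at hd'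
      have h1 := hPEs (d'⁻¹ * e) (by
        show f ((d' : L)⁻¹ * e) = 1
        rw [map_mul, map_inv, show f (d' : L) = f (e : L) from hfd, inv_mul_cancel])
      rwa [map_mul, map_inv, hd', inv_one, one_mul] at h1
  have hcardE' : Nat.card E' = 243 := by
    have hsurjE : ∀ e : E, ∃ x : E', f (x : L) = e := fun e => by
      obtain ⟨x, hx⟩ := c.surj e
      exact ⟨⟨x, by show f x ∈ E; rw [hx]; exact e.2⟩, hx⟩
    let q : E' →* E := MonoidHom.codRestrict (f.comp E'.subtype) E fun g => g.2
    have hq : Function.Surjective q := fun e => by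
      obtain ⟨x, hx⟩ := hsurjE e; exact ⟨x, Subtype.ext hx⟩
    have hk : Nat.card q.ker = 3 := by
      have hsc : ∀ a : K4ˣ, ∃ g : L, ∀ v, (g : V ≃ₗ[K4] V) v = (a : K4) • v := fun a =>
        c.scalar a a.ne_zero
      choose sg hsg using hsc
      have hsf : ∀ a, f (sg a) = 1 := fun a => (c.ker _).2 ⟨_, hsg a⟩
      rw [show 3 = Nat.card K4ˣ by rw [Nat.card_units, K4.card_eq]]
      refine (Nat.card_congr (Equiv.ofBijective
        (fun a => (⟨⟨sg a, (hker _ (hsf a)).1⟩, Subtype.ext (hsf a)⟩ : q.ker)) ⟨?_, ?_⟩)).symm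
      · intro a b hab
        obtain ⟨v, hv⟩ := exists_ne (0 : V)
        have := congrArg (fun x : q.ker => (((x : E') : L) : V ≃ₗ[K4] V) v) hab
        simp only [hsg] at this
        exact Units.ext (smul_left_injective K4 hv this)
      · rintro ⟨⟨g, hgE⟩, hg⟩
        obtain ⟨a, ha⟩ := (c.ker g).1 (congrArg Subtype.val hg)
        obtain ⟨v, hv⟩ := exists_ne (0 : V)
        have ha0 : a ≠ 0 := fun h0 => hv (by
          have := ha v
          rwa [h0, zero_smul, LinearEquiv.map_eq_zero_iff] at this)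
        refine ⟨Units.mk0 a ha0, ?_⟩
        apply Subtype.ext
        apply Subtype.ext
        apply Subtype.ext
        exact LinearEquiv.ext fun w => (hsg _ w).trans (ha w).symm
    rw [Subgroup.card_eq_card_quotient_mul_card_subgroup q.ker,
      Nat.card_congr (QuotientGroup.quotientKerEquivOfSurjective q hq).toEquiv, hP.cardE, hk]
  have hEsurj : ∀ b : Fin 6 → K4ˣ, ∏ i, b i = 1 → ∃ e, coef e = b := by
    have hb : Function.Bijective fun e => (⟨coef e, hPE e⟩ : {c : Fin 6 → K4ˣ // ∏ i, c i = 1}) := by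
      rw [Nat.bijective_iff_injective_and_card]
      exact ⟨fun a b hab => hcoefinj (congrArg Subtype.val hab), by rw [hcardE', card_prod_one]⟩
    intro b hbp
    obtain ⟨e, he⟩ := hb.2 ⟨b, hbp⟩
    exact ⟨e, congrArg Subtype.val he⟩
  have hPS : ∀ g, PS g = 1 := by
    intro g
    have hPSk : π.ker ≤ PS.ker := by
      intro k hk
      have hfk := (hπk k).1 hk
      obtain ⟨a, ha⟩ := (c.ker _).1 hfk
      have hp1 : perm k = 1 := by
        show ι.symm.permCongrHom (act k) = 1
        rw [MonoidHom.mem_ker.1 (hle hk), map_one]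
      have ha0 : a ≠ 0 := fun h0 => by
        obtain ⟨v, hv⟩ := exists_ne (0 : V)
        have := ha v
        rw [h0, zero_smul, LinearEquiv.map_eq_zero_iff] at this
        exact hv this
      show ∏ i, cf k i = 1
      rw [hcfu k (fun _ => Units.mk0 a ha0) (fun v i => by
        rw [hp1, Equiv.Perm.one_apply, ha, map_smul]; rfl), hcube6]
    let PS' : S →* K4ˣ := π.liftOfSurjective hπsurj ⟨PS, hPSk⟩
    rcases PS'.normal_ker.eq_bot_or_eq_top with hb | ht
    · exfalso
      have hi : Function.Injective PS' := (MonoidHom.ker_eq_bot_iff _).1 hb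
      have := Nat.card_le_card_of_injective _ hi
      rw [hP.cardS, Nat.card_units, K4.card_eq] at this
      norm_num at this
    · have h1 : PS' (π g) = 1 := MonoidHom.mem_ker.1 (ht ▸ Subgroup.mem_top _)
      rwa [MonoidHom.liftOfRightInverse_comp_apply] at h1
  -- all even monomial maps
  intro σ hσ b hb
  let permS : S →* Equiv.Perm (Fin 6) := (ι.symm.permCongrHom.toMonoidHom).comp act'
  have hrange : permS.range = alternatingGroup (Fin 6) :=
    perm_alternating _ (ι.symm.permCongrHom.injective.comp hinj) hP.cardS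
  obtain ⟨s, hs⟩ : σ⁻¹ ∈ permS.range := hrange ▸ inv_mem hσ
  obtain ⟨g, rfl⟩ := hπsurj s
  have hpg : perm g = σ⁻¹ := by
    rw [← hs]
    show ι.symm.permCongrHom (act g) = ι.symm.permCongrHom (act' (π g))
    rw [hact']
  have hb0 : ∀ i, b i ≠ 0 := fun i h0 => by
    rw [Finset.prod_eq_zero (Finset.mem_univ i) h0] at hb
    exact zero_ne_one hb
  let b' : Fin 6 → K4ˣ := fun i => Units.mk0 (b i) (hb0 i) * (cf g (σ i))⁻¹
  have hb' : ∏ i, b' i = 1 := by
    have hPSg : ∏ i, cf g i = 1 := hPS g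
    rw [Finset.prod_mul_distrib, Finset.prod_inv_distrib, Equiv.prod_comp σ (cf g), hPSg, inv_one,
      mul_one]
    apply Units.ext
    rw [Units.coe_prod, Units.val_one]
    exact hb
  obtain ⟨e, he⟩ := hEsurj b' hb'
  refine ⟨((e : L) * (g : L) : L), SetLike.coe_mem _, fun v i => ?_⟩
  show ψ (((e : L) : V ≃ₗ[K4] V) (((g : L) : V ≃ₗ[K4] V) v)) i = _
  rw [hEact, show (ι i).1 e = b' i from congrFun he i]
  have := hcf g v (σ i)
  rw [hpg, Equiv.Perm.inv_def, Equiv.symm_apply_apply] at this
  rw [this, ← mul_assoc, ← Units.val_mul, inv_mul_cancel_right]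
  rfl

end CfsgLib.FischerLarge
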