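import Cfsg.Agent.Lib.FischerLarge.Monomial
import Mathlib.GroupTheory.Sylow

/-!
FischerLarge: the diagonal subgroup `3^5` is the only abelian subgroup of its order in a Sylow
3-subgroup; a linear map normalising the group is, up to the group, monomial.
-/

set_option autoImplicit false
set_option linter.style.haveILetI false
set_option linter.unusedSectionVars false

namespace CfsgLib.FischerLarge

open scoped Classical

variable {V : Type*} [AddCommGroup V] [Module K4 V] [Finite V]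
variable {L : Subgroup (V ≃ₗ[K4] V)} {ψ : V ≃ₗ[K4] (Fin 6 → K4)}

/-- A monomial map. -/
def IsMono (ψ : V ≃ₗ[K4] (Fin 6 → K4)) (T : V ≃ₗ[K4] V) (σ : Equiv.Perm (Fin 6)) (d : Fin 6 → K4) : Prop :=
  ∀ v i, ψ (T v) i = d i * ψ v (σ i)

theorem IsMono.one : IsMono ψ 1 1 fun _ => 1 := fun v i => (one_mul _).symm

theorem IsMono.mul {T T' : V ≃ₗ[K4] V} {σ σ' : Equiv.Perm (Fin 6)} {d d' : Fin 6 → K4}
    (h : IsMono ψ T σ d) (h' : IsMono ψ T' σ' d') :
    IsMono ψ (T * T') (σ' * σ) fun i => d i * d' (σ i) := fun v i => by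
  show ψ (T (T' v)) i = _
  rw [h, h', mul_assoc]; rfl

theorem IsMono.ne_zero {T : V ≃ₗ[K4] V} {σ : Equiv.Perm (Fin 6)} {d : Fin 6 → K4} (h : IsMono ψ T σ d)
    (i : Fin 6) : d i ≠ 0 := fun h0 => by
  have := h (T.symm (ψ.symm (Pi.single i 1))) i
  rw [LinearEquiv.apply_symm_apply, LinearEquiv.apply_symm_apply, h0, zero_mul, Pi.single_eq_same] at this
  exact one_ne_zero this

theorem IsMono.unique {T : V ≃ₗ[K4] V} {σ σ' : Equiv.Perm (Fin 6)} {d d' : Fin 6 → K4}
    (h : IsMono ψ T σ d) (h' : IsMono ψ T σ' d') : σ = σ' ∧ d = d' := by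
  have key : ∀ i, σ i = σ' i ∧ d i = d' i := fun i => by
    have e := (h (ψ.symm (Pi.single (σ i) 1)) i).symm.trans (h' _ i)
    rw [LinearEquiv.apply_symm_apply, Pi.single_eq_same, mul_one] at e
    by_cases hσ : σ' i = σ i
    · rw [hσ, Pi.single_eq_same, mul_one] at e
      exact ⟨hσ.symm, e⟩
    · rw [Pi.single_eq_of_ne hσ, mul_zero] at e
      exact absurd e (h.ne_zero i)
  exact ⟨Equiv.ext fun i => (key i).1, funext fun i => (key i).2⟩

theorem IsMono.eq {T T' : V ≃ₗ[K4] V} {σ : Equiv.Perm (Fin 6)} {d : Fin 6 → K4} (h : IsMono ψ T σ d)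
    (h' : IsMono ψ T' σ d) : T = T' := LinearEquiv.ext fun v => ψ.injective (funext fun i => by rw [h, h'])

theorem IsMono.inv {T : V ≃ₗ[K4] V} {σ : Equiv.Perm (Fin 6)} {d : Fin 6 → K4} (h : IsMono ψ T σ d) :
    IsMono ψ T⁻¹ σ⁻¹ fun i => (d (σ⁻¹ i))⁻¹ := fun v i => by
  have e := h (T.symm v) ((σ⁻¹ : Equiv.Perm (Fin 6)) i)
  rw [LinearEquiv.apply_symm_apply, show σ (σ⁻¹ i) = i from σ.apply_symm_apply i] at e
  show ψ (T.symm v) i = _
  rw [e, ← mul_assoc, inv_mul_cancel₀ (h.ne_zero _), one_mul]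

theorem HasMonomial.mem (hm : HasMonomial L ψ) {T : V ≃ₗ[K4] V} {σ : Equiv.Perm (Fin 6)} {d : Fin 6 → K4}
    (hσ : σ ∈ alternatingGroup (Fin 6)) (hd : ∏ i, d i = 1) (h : IsMono ψ T σ d) : T ∈ L := by
  obtain ⟨g, hg, hgv⟩ := hm σ hσ d hd
  rwa [h.eq (T' := g) hgv]

theorem prod_comp_inv {d : Fin 6 → K4} (hd : ∏ i, d i = 1) (σ : Equiv.Perm (Fin 6)) :
    ∏ i, (d (σ⁻¹ i))⁻¹ = 1 := by
  rw [Equiv.prod_comp σ⁻¹ fun i => (d i)⁻¹, Finset.prod_inv_distrib, hd, inv_one]

theorem prod_mul_comp {d d' : Fin 6 → K4} (hd : ∏ i, d i = 1) (hd' : ∏ i, d' i = 1)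
    (σ : Equiv.Perm (Fin 6)) : ∏ i, d i * d' (σ i) = 1 := by
  rw [Finset.prod_mul_distrib, Equiv.prod_comp σ d', hd, hd', mul_one]

/-- A product of two rotations. -/
def rot (p : Fin 3 × Fin 3) : Equiv.Perm (Fin 6) where
  toFun i := if h : (i : ℕ) < 3 then ⟨((⟨i, h⟩ : Fin 3) + p.1 : Fin 3), by omega⟩
    else ⟨3 + ((⟨i - 3, by omega⟩ : Fin 3) + p.2 : Fin 3), by omega⟩
  invFun i := if h : (i : ℕ) < 3 then ⟨((⟨i, h⟩ : Fin 3) - p.1 : Fin 3), by omega⟩
    else ⟨3 + ((⟨i - 3, by omega⟩ : Fin 3) - p.2 : Fin 3), by omega⟩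
  left_inv := by revert p; decide +kernel
  right_inv := by revert p; decide +kernel

theorem rot_mul : ∀ p q : Fin 3 × Fin 3, rot p * rot q = rot (p + q) := by decide +kernel
theorem rot_injective : ∀ p q : Fin 3 × Fin 3, rot p = rot q → p = q := by decide +kernel
theorem rot_zero : rot 0 = 1 := by decide +kernel
theorem rot_inv : ∀ p : Fin 3 × Fin 3, (rot p)⁻¹ = rot (-p) := fun p => by
  refine inv_eq_of_mul_eq_one_right ?_
  rw [rot_mul, add_neg_cancel, rot_zero]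
theorem rot_even : ∀ p : Fin 3 × Fin 3, Equiv.Perm.sign (rot p) = 1 := by decide +kernel
theorem rot_first : ∀ p : Fin 3 × Fin 3, p.1 ≠ 0 →
    rot p 0 ≠ 0 ∧ ((rot p 0 = 1 ∧ rot p 1 = 2) ∨ (rot p 0 = 2 ∧ rot p 2 = 1)) := by decide +kernel
theorem rot_second : ∀ p : Fin 3 × Fin 3, p.2 ≠ 0 →
    rot p 3 ≠ 3 ∧ ((rot p 3 = 4 ∧ rot p 4 = 5) ∨ (rot p 3 = 5 ∧ rot p 5 = 4)) := by decide +kernel

/-- The diagonal subgroup. -/
def diagSub (L : Subgroup (V ≃ₗ[K4] V)) (ψ : V ≃ₗ[K4] (Fin 6 → K4)) : Subgroup L where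
  carrier := {g | ∃ d, ∏ i, d i = 1 ∧ IsMono ψ (g : V ≃ₗ[K4] V) 1 d}
  one_mem' := ⟨fun _ => 1, by simp, IsMono.one⟩
  mul_mem' := by
    rintro a b ⟨d, hd, h⟩ ⟨d', hd', h'⟩
    exact ⟨_, prod_mul_comp hd hd' 1, by simpa using h.mul h'⟩
  inv_mem' := by
    rintro a ⟨d, hd, h⟩
    exact ⟨_, prod_comp_inv hd 1, by simpa using h.inv⟩

/-- A Sylow 3-subgroup. -/
def sylSub (L : Subgroup (V ≃ₗ[K4] V)) (ψ : V ≃ₗ[K4] (Fin 6 → K4)) : Subgroup L where
  carrier := {g | ∃ p d, ∏ i, d i = 1 ∧ IsMono ψ (g : V ≃ₗ[K4] V) (rot p) d}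
  one_mem' := ⟨0, fun _ => 1, by simp, by rw [rot_zero]; exact IsMono.one⟩
  mul_mem' := by
    rintro a b ⟨p, d, hd, h⟩ ⟨q, d', hd', h'⟩
    exact ⟨q + p, _, prod_mul_comp hd hd' _, by rw [← rot_mul]; exact h.mul h'⟩
  inv_mem' := by
    rintro a ⟨p, d, hd, h⟩
    exact ⟨-p, _, prod_comp_inv hd _, by rw [← rot_inv]; exact h.inv⟩

theorem diag_le_syl : diagSub L ψ ≤ sylSub L ψ := fun _ ⟨d, hd, h⟩ => ⟨0, d, hd, by rw [rot_zero]; exact h⟩

theorem HasMonomial.card_diag (hm : HasMonomial L ψ) : Nat.card (diagSub L ψ) = 243 := by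
  haveI : Finite (V ≃ₗ[K4] V) := finite_equiv
  rw [← card_prod_one]
  have hex : ∀ c : {c : Fin 6 → K4ˣ // ∏ i, c i = 1}, ∃ g : diagSub L ψ,
      IsMono ψ ((g : L) : V ≃ₗ[K4] V) 1 fun i => (c.1 i : K4) := by
    rintro ⟨c, hc⟩
    have hp : ∏ i, (c i : K4) = 1 := by rw [← Units.coe_prod, hc, Units.val_one]
    obtain ⟨g, hg, hgv⟩ := hm 1 (one_mem _) (fun i => (c i : K4)) hp
    exact ⟨⟨⟨g, hg⟩, _, hp, hgv⟩, hgv⟩
  choose g hg using hex
  refine (Nat.card_eq_of_bijective g ⟨fun a b e => ?_, ?_⟩).symm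
  · apply Subtype.ext
    funext i
    exact Units.ext (congrFun ((hg a).unique (e ▸ hg b)).2 i)
  · rintro ⟨x, d, hd, hx⟩
    refine ⟨⟨fun i => Units.mk0 (d i) (hx.ne_zero i), Units.ext (by rw [Units.coe_prod]; exact hd)⟩, ?_⟩
    exact Subtype.ext (Subtype.ext ((hg _).eq hx))

theorem HasMonomial.card_syl (hm : HasMonomial L ψ) : Nat.card (sylSub L ψ) = 2187 := by
  haveI : Finite (V ≃ₗ[K4] V) := finite_equiv
  rw [show 2187 = Nat.card ((Fin 3 × Fin 3) × diagSub L ψ) by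
    rw [Nat.card_prod, hm.card_diag, Nat.card_prod, Nat.card_fin]]
  have hex : ∀ p : Fin 3 × Fin 3, ∃ g : sylSub L ψ, IsMono ψ ((g : L) : V ≃ₗ[K4] V) (rot p) fun _ => 1 := by
    intro p
    obtain ⟨g, hg, hgv⟩ := hm (rot p) (Equiv.Perm.mem_alternatingGroup.2 (rot_even p)) (fun _ => 1) (by simp)
    exact ⟨⟨⟨g, hg⟩, p, _, by simp, hgv⟩, hgv⟩
  choose g hg using hex
  refine (Nat.card_eq_of_bijective (fun x : (Fin 3 × Fin 3) × diagSub L ψ =>
    g x.1 * ⟨(x.2 : L), diag_le_syl x.2.2⟩) ⟨?_, ?_⟩).symm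
  · rintro ⟨p, x, d, hd, hx⟩ ⟨q, y, d', hd', hy⟩ e
    have e' : ((g p : L) : V ≃ₗ[K4] V) * (x : V ≃ₗ[K4] V) = ((g q : L) : V ≃ₗ[K4] V) * (y : V ≃ₗ[K4] V) :=
      congrArg (fun u : sylSub L ψ => ((u : L) : V ≃ₗ[K4] V)) e
    have h1 := ((hg p).mul hx).unique (e' ▸ (hg q).mul hy)
    obtain rfl := rot_injective p q (by simpa using h1.1)
    exact Prod.ext rfl (Subtype.ext (Subtype.ext (mul_left_cancel e')))
  · rintro ⟨y, p, d, hd, hy⟩
    have hmem : ((g p : L))⁻¹ * y ∈ diagSub L ψ :=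
      ⟨_, prod_mul_comp (prod_comp_inv (d := fun _ => (1 : K4)) (by simp) (rot p)) hd (rot p)⁻¹,
        by simpa using (hg p).inv.mul hy⟩
    exact ⟨(p, ⟨_, hmem⟩), Subtype.ext (mul_inv_cancel_left _ _)⟩

/-- An abelian subgroup of order 243 of the Sylow subgroup is the diagonal subgroup. -/
theorem HasMonomial.abelian_eq (hm : HasMonomial L ψ) {A : Subgroup L} (hA : A ≤ sylSub L ψ)
    (hcomm : ∀ a ∈ A, ∀ b ∈ A, a * b = b * a) (hcard : Nat.card A = 243) : A = diagSub L ψ := by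
  haveI : Finite (V ≃ₗ[K4] V) := finite_equiv
  choose p d hd hp using fun a : A => hA a.2
  by_cases h0 : ∀ a, p a = 0
  · refine Subgroup.eq_of_le_of_card_ge (fun a ha => ⟨d ⟨a, ha⟩, hd _, ?_⟩) (by rw [hm.card_diag, hcard])
    have := hp ⟨a, ha⟩
    rwa [h0, rot_zero] at this
  exfalso
  push Not at h0
  obtain ⟨a₀, ha₀⟩ := h0
  let K := (diagSub L ψ).subgroupOf A
  have hKd : ∀ k : K, ∃ dk : Fin 6 → K4, ∏ i, dk i = 1 ∧ IsMono ψ (((k : A) : L) : V ≃ₗ[K4] V) 1 dk :=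
    fun k => Subgroup.mem_subgroupOf.1 k.2
  choose dk hdk hk using hKd
  have hfix : ∀ (a : A) (k : K) i, dk k (rot (p a) i) = dk k i := by
    intro a k i
    have e : ((a : L) : V ≃ₗ[K4] V) * (((k : A) : L) : V ≃ₗ[K4] V) =
        (((k : A) : L) : V ≃ₗ[K4] V) * ((a : L) : V ≃ₗ[K4] V) :=
      congrArg Subtype.val (hcomm _ a.2 _ (k : A).2)
    have h1 := congrFun (((hp a).mul (hk k)).unique (e ▸ (hk k).mul (hp a))).2 i
    simp only [Equiv.Perm.one_apply] at h1
    rw [mul_comm (dk k i)] at h1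
    exact mul_left_cancel₀ ((hp a).ne_zero i) h1
  have hkinj : ∀ k k' : K, dk k = dk k' → k = k' := fun k k' e =>
    Subtype.ext (Subtype.ext (Subtype.ext ((hk k).eq (e ▸ hk k'))))
  have hunit : ∀ (k : K) i, dk k i ≠ 0 := fun k i => (hk k).ne_zero i
  have hprod : ∀ k : K, dk k 0 * dk k 1 * dk k 2 * dk k 3 * dk k 4 * dk k 5 = 1 := fun k => by
    rw [← hdk k, Fin.prod_univ_six]
  have hfirst : ∀ a, (p a).1 ≠ 0 → ∀ k : K, dk k 1 = dk k 0 ∧ dk k 2 = dk k 0 := by
    intro a ha k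
    obtain ⟨-, ⟨e1, e2⟩ | ⟨e1, e2⟩⟩ := rot_first _ ha
    · have h1 := hfix a k 0; have h2 := hfix a k 1
      rw [e1] at h1; rw [e2] at h2
      exact ⟨h1, h2.trans h1⟩
    · have h1 := hfix a k 0; have h2 := hfix a k 2
      rw [e1] at h1; rw [e2] at h2
      exact ⟨h2.trans h1, h1⟩
  have hsecond : ∀ a, (p a).2 ≠ 0 → ∀ k : K, dk k 4 = dk k 3 ∧ dk k 5 = dk k 3 := by
    intro a ha k
    obtain ⟨-, ⟨e1, e2⟩ | ⟨e1, e2⟩⟩ := rot_second _ ha
    · have h1 := hfix a k 3; have h2 := hfix a k 4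
      rw [e1] at h1; rw [e2] at h2
      exact ⟨h1, h2.trans h1⟩
    · have h1 := hfix a k 3; have h2 := hfix a k 5
      rw [e1] at h1; rw [e2] at h2
      exact ⟨h2.trans h1, h1⟩
  have hdet : ∀ a b c d' e f f' : K4, a * b * c * d' * e * f = 1 → a * b * c * d' * e * f' = 1 → f = f' :=
    fun a b c d' e f f' h1 h2 => mul_left_cancel₀ (fun h0 => by rw [h0, zero_mul] at h1; exact zero_ne_one h1)
      (h1.trans h2.symm)
  have hK27 : Nat.card K ≤ 27 := by
    rw [show (27 : ℕ) = Nat.card (K4ˣ × K4ˣ × K4ˣ) by simp only [Nat.card_prod, Nat.card_units, K4.card_eq]]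
    rcases (show (p a₀).1 ≠ 0 ∨ (p a₀).2 ≠ 0 by
      by_contra h; push Not at h; exact ha₀ (Prod.ext h.1 h.2)) with h | h
    · refine Nat.card_le_card_of_injective
        (fun k => (Units.mk0 _ (hunit k 0), Units.mk0 _ (hunit k 3), Units.mk0 _ (hunit k 4))) fun k k' e => ?_
      simp only [Prod.mk.injEq] at e
      obtain ⟨e0, e3, e4⟩ := e
      have e0' := congrArg Units.val e0; have e3' := congrArg Units.val e3; have e4' := congrArg Units.val e4
      simp only [Units.val_mk0] at e0' e3' e4'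
      have p1 := hprod k; have p2 := hprod k'
      rw [(hfirst a₀ h k).1, (hfirst a₀ h k).2, e0', e3', e4'] at p1
      rw [(hfirst a₀ h k').1, (hfirst a₀ h k').2] at p2
      have e5 := hdet _ _ _ _ _ _ _ p1 p2
      refine hkinj k k' (funext fun i => ?_)
      fin_cases i
      exacts [e0', by show dk k 1 = dk k' 1; rw [(hfirst a₀ h k).1, (hfirst a₀ h k').1, e0'],
        by show dk k 2 = dk k' 2; rw [(hfirst a₀ h k).2, (hfirst a₀ h k').2, e0'], e3', e4', e5]
    · refine Nat.card_le_card_of_injective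
        (fun k => (Units.mk0 _ (hunit k 0), Units.mk0 _ (hunit k 1), Units.mk0 _ (hunit k 3))) fun k k' e => ?_
      simp only [Prod.mk.injEq] at e
      obtain ⟨e0, e1, e3⟩ := e
      have e0' := congrArg Units.val e0; have e1' := congrArg Units.val e1; have e3' := congrArg Units.val e3
      simp only [Units.val_mk0] at e0' e1' e3'
      have p1 := hprod k; have p2 := hprod k'
      rw [(hsecond a₀ h k).1, (hsecond a₀ h k).2, e0', e1', e3'] at p1
      rw [(hsecond a₀ h k').1, (hsecond a₀ h k').2] at p2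
      have e2 : dk k 2 = dk k' 2 := by
        have hne : ∀ a b c : K4, a * b * c = 1 → a * b ≠ 0 := fun a b c hc h0 => by
          rw [h0, zero_mul] at hc; exact zero_ne_one hc
        have q1 : dk k' 0 * dk k' 1 * (dk k' 3 * dk k' 3 * dk k' 3) * dk k 2 = 1 := by rw [← p1]; ring
        have q2 : dk k' 0 * dk k' 1 * (dk k' 3 * dk k' 3 * dk k' 3) * dk k' 2 = 1 := by rw [← p2]; ring
        exact mul_left_cancel₀ (fun h0 => by rw [h0, zero_mul] at q1; exact zero_ne_one q1) (q1.trans q2.symm)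
      refine hkinj k k' (funext fun i => ?_)
      fin_cases i
      exacts [e0', e1', e2, e3', by show dk k 4 = dk k' 4; rw [(hsecond a₀ h k).1, (hsecond a₀ h k').1, e3'],
        by show dk k 5 = dk k' 5; rw [(hsecond a₀ h k).2, (hsecond a₀ h k').2, e3']]
  set Im : Set (Fin 3 × Fin 3) := Set.range p with hIm
  have hbound : Nat.card A ≤ Nat.card Im * Nat.card K := by
    rw [← Nat.card_prod]
    let rep : Im → A := fun q => q.2.choose
    have hrep : ∀ q : Im, p (rep q) = q := fun q => q.2.choose_spec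
    have hmem : ∀ a : A, (rep ⟨p a, a, rfl⟩)⁻¹ * a ∈ K := fun a => by
      rw [Subgroup.mem_subgroupOf]
      refine ⟨_, prod_mul_comp (prod_comp_inv (hd (rep ⟨p a, a, rfl⟩)) (rot (p a))) (hd a) (rot (p a))⁻¹, ?_⟩
      have := (hp (rep ⟨p a, a, rfl⟩)).inv.mul (hp a)
      rw [hrep] at this
      simpa using this
    refine Nat.card_le_card_of_injective (fun a => (⟨p a, a, rfl⟩, ⟨_, hmem a⟩)) fun a b e => ?_
    simp only [Prod.mk.injEq, Subtype.mk.injEq] at e
    obtain ⟨e1, e2⟩ := e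
    have hr : rep ⟨p a, a, rfl⟩ = rep ⟨p b, b, rfl⟩ := congrArg rep e1
    rw [hr] at e2
    exact mul_left_cancel e2
  by_cases hall : ∀ q, q ∈ Im
  · obtain ⟨a1, ha1⟩ := hall (1, 0)
    obtain ⟨a2, ha2⟩ := hall (0, 1)
    have hK9 : Nat.card K ≤ 9 := by
      rw [show (9 : ℕ) = Nat.card (K4ˣ × K4ˣ) by simp only [Nat.card_prod, Nat.card_units, K4.card_eq]]
      refine Nat.card_le_card_of_injective
        (fun k => (Units.mk0 _ (hunit k 0), Units.mk0 _ (hunit k 3))) fun k k' e => ?_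
      simp only [Prod.mk.injEq] at e
      obtain ⟨e0, e3⟩ := e
      have e0' := congrArg Units.val e0; have e3' := congrArg Units.val e3
      simp only [Units.val_mk0] at e0' e3'
      have f1 := hfirst a1 (by rw [ha1]; decide)
      have f2 := hsecond a2 (by rw [ha2]; decide)
      refine hkinj k k' (funext fun i => ?_)
      fin_cases i
      exacts [e0', (f1 k).1.trans (e0'.trans (f1 k').1.symm), (f1 k).2.trans (e0'.trans (f1 k').2.symm),
        e3', (f2 k).1.trans (e3'.trans (f2 k').1.symm), (f2 k).2.trans (e3'.trans (f2 k').2.symm)]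
    have h9 : Nat.card Im ≤ 9 := (Nat.card_le_card_of_injective _ Subtype.val_injective).trans
      (by rw [Nat.card_prod, Nat.card_fin])
    have := Nat.mul_le_mul h9 hK9
    omega
  · have h8 : Nat.card Im ≤ 8 := by
      push Not at hall
      obtain ⟨q, hq⟩ := hall
      have := Set.ncard_lt_ncard ((Set.ssubset_univ_iff).2 fun e => hq (e ▸ Set.mem_univ q) : Im ⊂ Set.univ)
      rw [Set.ncard_univ, Nat.card_prod, Nat.card_fin, ← Nat.card_coe_set_eq] at this
      omega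
    have := Nat.mul_le_mul h8 hK27
    omega

/-- A map normalising `L` with square in `L` but outside `L` gives an odd monomial map. -/
theorem HasMonomial.exists_odd (hm : HasMonomial L ψ) (hL : Nat.card L = 9797760) {T : V ≃ₗ[K4] V}
    (hT : ∀ g ∈ L, T * g * T⁻¹ ∈ L) (hT' : ∀ g ∈ L, T⁻¹ * g * T ∈ L) (hTsq : T * T ∈ L) (hTn : T ∉ L) :
    ∃ (l : V ≃ₗ[K4] V) (σ : Equiv.Perm (Fin 6)) (d : Fin 6 → K4), l ∈ L ∧ σ ∉ alternatingGroup (Fin 6) ∧
      ∏ i, d i = 1 ∧ IsMono ψ ((l * T) ^ 3) σ d := by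
  haveI : Finite (V ≃ₗ[K4] V) := finite_equiv
  haveI : Fact (Nat.Prime 3) := ⟨Nat.prime_three⟩
  let α : L ≃* L :=
    { toFun := fun g => ⟨T * g * T⁻¹, hT g g.2⟩
      invFun := fun g => ⟨T⁻¹ * g * T, hT' g g.2⟩
      left_inv := fun g => Subtype.ext (by group)
      right_inv := fun g => Subtype.ext (by group)
      map_mul' := fun a b => Subtype.ext (by simp [mul_assoc]) }
  have hsyl : ¬ 3 ∣ (sylSub L ψ).index := by
    have := (sylSub L ψ).card_mul_index
    rw [hm.card_syl, hL] at this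
    omega
  let P0 : Sylow 3 L := (IsPGroup.iff_card.2 ⟨7, by rw [hm.card_syl]; norm_num⟩ : IsPGroup 3 (sylSub L ψ)).toSylow hsyl
  have hA3 : IsPGroup 3 ((diagSub L ψ).map α.toMonoidHom) := IsPGroup.iff_card.2 ⟨5, by
    rw [Subgroup.card_map_of_injective α.injective, hm.card_diag]; norm_num⟩
  obtain ⟨P1, hP1⟩ := hA3.exists_le_sylow
  obtain ⟨l, hl⟩ := MulAction.exists_smul_eq L P1 P0
  have hA : ((diagSub L ψ).map α.toMonoidHom).map (MulAut.conj l).toMonoidHom = diagSub L ψ := by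
    refine hm.abelian_eq ?_ ?_ ?_
    · have h0 : ((l • P1 : Sylow 3 L) : Subgroup L) = sylSub L ψ := by rw [hl]; rfl
      rw [← h0, Sylow.coe_subgroup_smul]
      rintro _ ⟨x, hx, rfl⟩
      exact Subgroup.smul_mem_pointwise_smul _ (MulAut.conj l) _ (hP1 hx)
    · rintro _ ⟨_, ⟨a, ⟨d, -, ha⟩, rfl⟩, rfl⟩ _ ⟨_, ⟨b, ⟨d', -, hb⟩, rfl⟩, rfl⟩
      rw [← map_mul, ← map_mul, ← map_mul, ← map_mul]
      congr 2
      refine Subtype.ext ((ha.mul hb).eq ?_)
      have := hb.mul ha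
      simp only [Equiv.Perm.one_apply, one_mul] at this ⊢
      rwa [show (fun i => d i * d' i) = fun i => d' i * d i from funext fun i => mul_comm _ _]
    · rw [Subgroup.card_map_of_injective (MulAut.conj l).injective, Subgroup.card_map_of_injective α.injective,
        hm.card_diag]
  set U : V ≃ₗ[K4] V := (l : V ≃ₗ[K4] V) * T with hU
  have hnorm : ∀ e ∈ diagSub L ψ, ∃ e' ∈ diagSub L ψ, (e : V ≃ₗ[K4] V) * U = U * (e' : V ≃ₗ[K4] V) := by
    intro e he
    rw [← hA] at he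
    obtain ⟨_, ⟨e', he', rfl⟩, rfl⟩ := he
    refine ⟨e', he', ?_⟩
    show (l : V ≃ₗ[K4] V) * (T * (e' : V ≃ₗ[K4] V) * T⁻¹) * (l : V ≃ₗ[K4] V)⁻¹ * ((l : V ≃ₗ[K4] V) * T) = _
    rw [hU]; group
  -- the images of the basis vectors
  have hsingle : ∀ j, ∃ i, ∀ k, k ≠ i → ψ (U (ψ.symm (Pi.single j 1))) k = 0 := by
    intro j
    set y := ψ (U (ψ.symm (Pi.single j 1))) with hy
    obtain ⟨i, hi⟩ : ∃ i, y i ≠ 0 := by
      by_contra hno
      push Not at hno
      have h0 : y = 0 := funext hno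
      rw [hy, LinearEquiv.map_eq_zero_iff, LinearEquiv.map_eq_zero_iff, LinearEquiv.map_eq_zero_iff] at h0
      exact one_ne_zero (by have := congrFun h0 j; rwa [Pi.single_eq_same] at this)
    refine ⟨i, fun k hki => Classical.byContradiction fun hk => ?_⟩
    let d : Fin 6 → K4 := fun m => if m = i then .om else if m = k then .om2 else 1
    have hd : ∏ m, d m = 1 := by
      rw [← Finset.prod_subset (Finset.subset_univ ({i, k} : Finset (Fin 6))) (fun m _ hm => by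
        simp only [Finset.mem_insert, Finset.mem_singleton, not_or] at hm
        simp [d, hm.1, hm.2]), Finset.prod_pair hki.symm]
      simp only [d, if_true, if_neg hki]
      decide
    obtain ⟨g, hg, hgv⟩ := hm 1 (one_mem _) d hd
    obtain ⟨e', ⟨d', -, he'⟩, hcomm⟩ := hnorm ⟨g, hg⟩ ⟨d, hd, hgv⟩
    have h1 : (e' : V ≃ₗ[K4] V) (ψ.symm (Pi.single j 1)) = d' j • ψ.symm (Pi.single j 1) := by
      apply ψ.injective
      funext m
      rw [he', map_smul, LinearEquiv.apply_symm_apply, Equiv.Perm.one_apply, Pi.smul_apply, smul_eq_mul]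
      by_cases hmj : m = j
      · rw [hmj]
      · rw [Pi.single_eq_of_ne hmj, mul_zero, mul_zero]
    have h2 : ∀ m, d m * y m = d' j * y m := fun m => by
      have hc' : g (U (ψ.symm (Pi.single j 1))) = U (d' j • ψ.symm (Pi.single j 1)) :=
        (LinearEquiv.congr_fun hcomm (ψ.symm (Pi.single j 1))).trans (congrArg (fun x => U x) h1)
      have e := congrFun (congrArg ψ hc') m
      rw [map_smul, map_smul, hgv, Equiv.Perm.one_apply, ← hy, Pi.smul_apply, smul_eq_mul] at e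
      exact e
    have e1 := mul_right_cancel₀ hi (h2 i)
    have e2 := mul_right_cancel₀ hk (h2 k)
    simp only [d, if_true, if_neg hki] at e1 e2
    exact absurd (e1.trans e2.symm) (by decide)
  choose p hp using hsingle
  set c : Fin 6 → K4 := fun j => ψ (U (ψ.symm (Pi.single j 1))) (p j) with hc
  have hcol : ∀ j, ψ (U (ψ.symm (Pi.single j 1))) = Pi.single (p j) (c j) := fun j => funext fun k => by
    by_cases hk : k = p j
    · rw [hk, Pi.single_eq_same]
    · rw [hp j k hk, Pi.single_eq_of_ne hk]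
  have hpinj : Function.Injective p := by
    intro j j' e
    by_contra hne
    have hc' : c j' ≠ 0 := fun h0 => by
      have := hcol j'
      rw [h0, Pi.single_zero, LinearEquiv.map_eq_zero_iff, LinearEquiv.map_eq_zero_iff,
        LinearEquiv.map_eq_zero_iff] at this
      exact one_ne_zero (by have := congrFun this j'; rwa [Pi.single_eq_same] at this)
    have h1 : ψ (U (ψ.symm (Pi.single j 1 - (c j * (c j')⁻¹) • Pi.single j' 1))) = 0 := by
      rw [map_sub, map_smul, map_sub, map_smul, map_sub, map_smul, hcol, hcol, e, ← Pi.single_smul',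
        smul_eq_mul, mul_assoc, inv_mul_cancel₀ hc', mul_one, sub_self]
    rw [LinearEquiv.map_eq_zero_iff, LinearEquiv.map_eq_zero_iff, LinearEquiv.map_eq_zero_iff] at h1
    have h2 := congrFun h1 j
    rw [Pi.sub_apply, Pi.smul_apply, Pi.single_eq_same, Pi.single_eq_of_ne hne, smul_zero, sub_zero] at h2
    exact one_ne_zero h2
  let P : Equiv.Perm (Fin 6) := Equiv.ofBijective p (Finite.injective_iff_bijective.1 hpinj)
  have hmono : IsMono ψ U P⁻¹ (fun i => c ((P⁻¹ : Equiv.Perm (Fin 6)) i)) := by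
    intro v i
    have hv : ψ (U v) = ∑ j, ψ v j • ψ (U (ψ.symm (Pi.single j 1))) := by
      have hb : v = ∑ j, ψ v j • ψ.symm (Pi.single j 1) := ψ.injective (by
        rw [map_sum]
        simp only [map_smul, LinearEquiv.apply_symm_apply]
        exact (pi_eq_sum_univ' (ψ v)))
      conv_lhs => rw [hb]
      simp only [map_sum, map_smul]
    rw [hv, Finset.sum_apply, Finset.sum_eq_single ((P⁻¹ : Equiv.Perm (Fin 6)) i)]
    · rw [Pi.smul_apply, hcol, smul_eq_mul, mul_comm]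
      congr 1
      rw [show p ((P⁻¹ : Equiv.Perm (Fin 6)) i) = i from P.apply_symm_apply i, Pi.single_eq_same]
    · intro j _ hj
      rw [Pi.smul_apply, hcol, Pi.single_eq_of_ne, smul_zero]
      intro e
      exact hj (by rw [e]; exact (P.symm_apply_apply j).symm)
    · intro h; exact absurd (Finset.mem_univ _) h
  set σ := P⁻¹
  set d : Fin 6 → K4 := fun i => c (σ i)
  have h3 : IsMono ψ (U ^ 3) (σ * (σ * σ)) (fun i => d i * d (σ i) * d ((σ * σ) i)) := by
    rw [pow_succ, pow_two]; exact (hmono.mul hmono).mul hmono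
  have hdp : ∏ i, d i * d (σ i) * d ((σ * σ) i) = 1 := by
    rw [Finset.prod_mul_distrib, Finset.prod_mul_distrib, Equiv.prod_comp σ d, Equiv.prod_comp (σ * σ) d]
    exact K4.cube_eq_one _ (Finset.prod_ne_zero_iff.2 fun i _ => hmono.ne_zero i)
  refine ⟨l, _, _, l.2, fun heven => ?_, hdp, h3⟩
  have hU3 : U ^ 3 ∈ L := hm.mem heven hdp h3
  have hU2 : U * U ∈ L := by
    rw [show U * U = (l : V ≃ₗ[K4] V) * (T * (l : V ≃ₗ[K4] V) * T⁻¹) * (T * T) by rw [hU]; group]
    exact L.mul_mem (L.mul_mem l.2 (hT _ l.2)) hTsq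
  have hUL : U ∈ L := by
    have := L.mul_mem (L.inv_mem hU2) hU3
    rwa [show (U * U)⁻¹ * U ^ 3 = U by rw [pow_succ, pow_two]; group] at this
  apply hTn
  rw [show T = (l : V ≃ₗ[K4] V)⁻¹ * U by rw [hU]; group]
  exact L.mul_mem (L.inv_mem l.2) hUL

end CfsgLib.FischerLarge
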