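import Cfsg.Agent.Lib.FischerLarge.Monomial
import Cfsg.Agent.Lib.FischerLarge.Count
import Mathlib.GroupTheory.SpecificGroups.Alternating.Simple

/-!
FischerLarge: two orbits, of lengths 378 and 1701, on the non-zero isotropic vectors.
-/

set_option autoImplicit false
set_option linter.style.haveILetI false
set_option linter.unusedSectionVars false

namespace CfsgLib.FischerLarge

open scoped Classical

variable {V : Type*} [AddCommGroup V] [Module K4 V] [Finite V]
variable {P : Type*} [Group P] [Finite P]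
variable {L : Subgroup (V ≃ₗ[K4] V)} {f : L →* P} {h : V → V → K4}

theorem endPow {α : Type*} (u : Function.End α) :
    ∀ m : ℕ, ((u ^ m : Function.End α) : α → α) = u^[m]
  | 0 => rfl
  | m + 1 => by
    rw [pow_succ]
    exact congrArg (fun w : α → α => w ∘ u) (endPow u m)

theorem seven_a : (2 * 1 - 64 : ZMod 7) = 1 := by decide

theorem seven_b : ¬ (((-2 : ℤ) ^ 3 : ℤ) : ZMod 7) = 1 := by decide

section Sums

/-- The sign sum of the hermitian norm over a submodule. -/
noncomputable def signSum (h : V → V → K4) (X : Submodule K4 V) : ℤ :=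
  letI := Fintype.ofFinite X
  ∑ x : X, if h (x : V) (x : V) = 0 then 1 else -1

theorem Cover.signSum_nondeg (c : Cover L f h) : ∀ (n : ℕ) (X : Submodule K4 V), Nat.card X = n →
    (∀ x ∈ X, (∀ y ∈ X, h x y = 0) → x = 0) →
    ∃ k, Nat.card X = 4 ^ k ∧ signSum h X = (-2) ^ k := by
  intro n
  induction n using Nat.strong_induction_on with
  | _ n ih =>
  intro X hn hX
  by_cases hbot : X = ⊥
  · subst hbot
    refine ⟨0, by simp, ?_⟩
    letI := Fintype.ofFinite (⊥ : Submodule K4 V)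
    show ∑ x : (⊥ : Submodule K4 V), (if h (x : V) x = 0 then (1 : ℤ) else -1) = _
    rw [Fintype.sum_subsingleton _ (0 : (⊥ : Submodule K4 V))]
    simp [c.zero_left]
  obtain ⟨u, hu, huu⟩ : ∃ u ∈ X, h u u ≠ 0 := by
    by_contra hno
    push Not at hno
    obtain ⟨x, hx, hx0⟩ := Submodule.exists_mem_ne_zero_of_ne_bot hbot
    refine hx0 (hX x hx fun y hy => ?_)
    have key : ∀ a : K4, K4.conj (h x y) * a + K4.conj a * h x y = 0 := by
      intro a
      have e := hno (x + a • y) (X.add_mem hx (X.smul_mem a hy))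
      rw [c.add_left, c.smul_left, c.symm (x + a • y) x, c.symm (x + a • y) y, c.add_left, c.add_left,
        c.smul_left, c.smul_left, hno x hx, hno y hy, c.symm x y, map_add, map_add, map_mul, map_mul,
        map_zero, K4.conj_conj] at e
      rw [← e]; ring
    exact (by decide : ∀ b : K4, (∀ a : K4, K4.conj b * a + K4.conj a * b = 0) → b = 0) _ key
  have hu1 : h u u = 1 := by
    have hd : ∀ a : K4, K4.conj a = a → a ≠ 0 → a = 1 := by decide
    exact hd _ (c.symm u u).symm huu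
  let X' : Submodule K4 V :=
    { carrier := {x | x ∈ X ∧ h x u = 0}
      zero_mem' := ⟨X.zero_mem, c.zero_left u⟩
      add_mem' := fun {a b} ha hb => ⟨X.add_mem ha.1 hb.1, by rw [c.add_left, ha.2, hb.2, add_zero]⟩
      smul_mem' := fun a b hb => ⟨X.smul_mem a hb.1, by rw [c.smul_left, hb.2, mul_zero]⟩ }
  let e : K4 × X' → X := fun p => ⟨p.1 • u + p.2, X.add_mem (X.smul_mem _ hu) p.2.2.1⟩
  have he : Function.Bijective e := by
    constructor
    · rintro ⟨a, x⟩ ⟨b, y⟩ hxy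
      have h1 : a • u + (x : V) = b • u + (y : V) := congrArg Subtype.val hxy
      have h2 := congrArg (fun v => h v u) h1
      simp only [c.add_left, c.smul_left, hu1, mul_one, x.2.2, y.2.2, add_zero] at h2
      subst h2
      exact Prod.ext rfl (Subtype.ext (add_left_cancel h1))
    · rintro ⟨x, hx⟩
      refine ⟨(h x u, ⟨x - h x u • u, X.sub_mem hx (X.smul_mem _ hu), ?_⟩), Subtype.ext (add_sub_cancel _ _)⟩
      have e1 := c.add_left (x - h x u • u) (h x u • u) u
      rw [sub_add_cancel, c.smul_left, hu1, mul_one] at e1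
      exact add_right_cancel (e1.symm.trans (zero_add _).symm)
  have hcard : Nat.card X = 4 * Nat.card X' := by
    rw [← Nat.card_congr (Equiv.ofBijective e he), Nat.card_prod, K4.card_eq]
  have hlt : Nat.card X' < n := by
    have : 0 < Nat.card X' := Nat.card_pos
    omega
  obtain ⟨k, hk, hsum⟩ := ih _ hlt X' rfl (fun x hx hxo => hX x hx.1 fun y hy => by
    obtain ⟨⟨a, y'⟩, hy'⟩ := he.2 ⟨y, hy⟩
    have hy'' : a • u + (y' : V) = y := congrArg Subtype.val hy'
    rw [← hy'', c.symm (a • u + (y' : V)) x, c.add_left, c.smul_left, c.symm x u, hx.2, map_zero,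
      mul_zero, zero_add, ← c.symm (y' : V) x, hxo _ y'.2])
  refine ⟨k + 1, by rw [hcard, hk, pow_succ']; , ?_⟩
  letI := Fintype.ofFinite X'
  letI := Fintype.ofFinite X
  have hval : ∀ a (x : X'), h (a • u + (x : V)) (a • u + (x : V)) = a * K4.conj a + h (x : V) x := by
    intro a x
    rw [c.add_left, c.smul_left, c.symm (a • u + (x : V)) u, c.symm (a • u + (x : V)) (x : V),
      c.add_left, c.smul_left, c.add_left, c.smul_left, hu1, x.2.2, c.symm (x : V) u, x.2.2]
    simp [← c.symm (x : V) (x : V), mul_comm]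
  have hsgn : ∀ a b : K4, K4.conj b = b →
      (if a * K4.conj a + b = 0 then (1 : ℤ) else -1) =
        (if a = 0 then 1 else -1) * (if b = 0 then 1 else -1) := by
    intro a b hb
    have hd : ∀ a b : K4, K4.conj b = b →
        ((a * K4.conj a + b = 0) ↔ ((a = 0) ↔ (b = 0))) := by decide
    by_cases ha : a = 0 <;> by_cases hb0 : b = 0 <;> simp [hd a b hb, ha, hb0]
  calc signSum h X = ∑ p : K4 × X', (if h ((e p : X) : V) (e p : X) = 0 then (1 : ℤ) else -1) :=
        (Fintype.sum_bijective e he _ _ fun _ => rfl).symm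
    _ = ∑ p : K4 × X', (if p.1 = 0 then (1 : ℤ) else -1) * (if h (p.2 : V) p.2 = 0 then 1 else -1) :=
        Finset.sum_congr rfl fun p _ => by
          rw [← hsgn p.1 _ (c.symm _ _).symm, ← hval p.1 p.2]
    _ = (∑ a : K4, if a = 0 then (1 : ℤ) else -1) * signSum h X' := by
        rw [Fintype.sum_prod_type, signSum, Finset.sum_mul]
        simp only [Finset.mul_sum]
    _ = (-2) ^ (k + 1) := by
        rw [hsum, show (∑ a : K4, if a = 0 then (1 : ℤ) else -1) = -2 by decide, pow_succ']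

/-- Elements of order seven fix no isotropic vector but zero. -/
theorem Cover.fixed_eq_zero (c : Cover L f h) {g : L} (hg : orderOf g = 7) {v : V}
    (hv : (g : V ≃ₗ[K4] V) v = v) (hiso : h v v = 0) : v = 0 := by
  by_contra hv0
  set T : V ≃ₗ[K4] V := (g : V ≃ₗ[K4] V) with hT
  have h2 : ∀ v : V, v + v = 0 := fun v => by
    have := add_smul (1 : K4) 1 v
    rw [K4.add_self, zero_smul, one_smul] at this
    exact this.symm
  have hsub : ∀ a b : V, a - b = a + b := fun a b => by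
    rw [sub_eq_iff_eq_add, add_assoc, h2, add_zero]
  have hpow : ∀ (m : ℕ) x, ((g ^ m : L) : V ≃ₗ[K4] V) x = (⇑T)^[m] x := by
    intro m
    induction m with
    | zero => intro x; rfl
    | succ m ih => intro x; rw [Function.iterate_succ_apply, ← ih, pow_succ]; rfl
  have h7 : ∀ x, (⇑T)^[7] x = x := fun x => by
    rw [← hpow, ← hg, pow_orderOf_eq_one]; rfl
  let D : V →ₗ[K4] V := T.toLinearMap + LinearMap.id
  let W : Submodule K4 V := LinearMap.range D
  have hTW : ∀ x ∈ W, T x ∈ W := by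
    rintro _ ⟨y, rfl⟩
    exact ⟨T y, (map_add T (T y) y).symm⟩
  -- no fixed vectors in `W`
  have hfix : ∀ x ∈ W, T x = x → x = 0 := by
    rintro _ ⟨y, rfl⟩ hy
    have hstep : ∀ m : ℕ, (⇑T)^[m] y = y + m • D y := by
      intro m
      induction m with
      | zero => simp
      | succ m ih =>
        rw [Function.iterate_succ_apply', ih, map_add, map_nsmul, hy, succ_nsmul, ← add_assoc,
          add_right_comm y, add_right_cancel_iff]
        show T y = y + (T y + y)
        rw [add_comm (T y), ← add_assoc, h2, zero_add]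
    have h := hstep 7
    rw [h7] at h
    have h' : 7 • D y = 0 := left_eq_add.1 h
    rwa [show (7 : ℕ) = 2 * 3 + 1 from rfl, add_nsmul, mul_comm 2 3, mul_nsmul, two_nsmul, h2,
      one_nsmul, zero_add] at h'
  let D' : W →ₗ[K4] W := D.restrict fun x hx => W.add_mem (hTW x hx) hx
  have hD'inj : Function.Injective D' := by
    rw [injective_iff_map_eq_zero]
    intro x hx
    have : T (x : V) + (x : V) = 0 := congrArg Subtype.val hx
    apply Subtype.ext
    exact hfix x x.2 (by rw [← sub_eq_zero, hsub]; exact this)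
  have hD'surj : Function.Surjective D' := Finite.injective_iff_surjective.1 hD'inj
  have horth : ∀ w, T w = w → ∀ y, h w (D y) = 0 := by
    intro w hw y
    have hp : h (T w) (T y) = h w y := c.pres g w y
    rw [hw] at hp
    show h w (T y + y) = 0
    rw [c.symm (T y + y) w, c.add_left, map_add, ← c.symm, ← c.symm, hp, K4.add_self]
  have hdecomp : ∀ x : V, ∃ w x', T w = w ∧ x' ∈ W ∧ x = w + x' := by
    intro x
    obtain ⟨x', hx'⟩ := hD'surj ⟨D x, x, rfl⟩
    have hx'' : T (x' : V) + x' = T x + x := congrArg Subtype.val hx'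
    refine ⟨x + x', x', ?_, x'.2, by rw [add_assoc, h2, add_zero]⟩
    rw [← sub_eq_zero, hsub, map_add]
    calc T x + T (x' : V) + (x + x') = (T x + x) + (T (x' : V) + x') := by abel
      _ = 0 := by rw [hx'', h2]
  have hnd : ∀ x ∈ W, (∀ y ∈ W, h x y = 0) → x = 0 := by
    intro x hx hxo
    refine c.nondeg x fun y => ?_
    obtain ⟨w, y', hw, hy', rfl⟩ := hdecomp y
    obtain ⟨x₀, rfl⟩ := hx
    rw [c.symm (w + y') (D x₀), c.add_left, horth w hw, zero_add, ← c.symm y' (D x₀), hxo _ hy']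
  obtain ⟨k, hk, hsum⟩ := c.signSum_nondeg _ W rfl hnd
  -- orbits on `W`
  haveI : Fact (Nat.Prime 7) := ⟨by norm_num⟩
  letI := Fintype.ofFinite W
  let F : W → W := fun x => ⟨T x, hTW x x.2⟩
  have hF7 : ∀ x, F^[7] x = x := fun x => Subtype.ext (by
    have : ∀ m, ((F^[m] x : W) : V) = (⇑T)^[m] x := by
      intro m
      induction m with
      | zero => rfl
      | succ m ih => rw [Function.iterate_succ_apply', Function.iterate_succ_apply', ← ih]
    rw [this, h7])
  let Fe : Function.End W := F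
  have hFpow : Fe ^ 7 ^ 1 = 1 := by
    rw [pow_one]; exact (endPow Fe 7).trans (funext hF7)
  have hsupp : ∀ x : W, F x = x ↔ x = 0 := fun x =>
    ⟨fun e => Subtype.ext (hfix x x.2 (congrArg Subtype.val e)), fun e => by
      subst e; exact Subtype.ext (map_zero T)⟩
  have hcard := Equiv.Perm.card_fixedPoints_modEq (p := 7) (n := 1) hFpow
  rw [show Fintype.card (Function.fixedPoints Fe) = 1 by
    rw [Fintype.card_eq_one_iff]
    exact ⟨⟨0, (hsupp 0).2 rfl⟩, fun y => Subtype.ext ((hsupp _).1 y.2)⟩,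
    ← Nat.card_eq_fintype_card, hk] at hcard
  have hk6 : k < 6 := by
    have hle : Nat.card W ≤ Nat.card V := Nat.card_le_card_of_injective _ Subtype.val_injective
    rw [hk, c.card] at hle
    refine lt_of_le_of_ne ((Nat.pow_le_pow_iff_right (by norm_num)).1 hle) fun h6 => hv0 ?_
    have htop : W = ⊤ := by
      apply SetLike.coe_injective
      apply Set.eq_of_subset_of_ncard_le (Set.subset_univ _) _ (Set.toFinite _)
      rw [Set.ncard_univ, ← Nat.card_coe_set_eq]
      show _ ≤ Nat.card W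
      rw [hk, h6, c.card]
    exact hfix v (htop ▸ Submodule.mem_top) hv
  have hk0 : k ≠ 0 := by
    intro h0
    rw [h0, pow_zero] at hk
    have hg1 : g = 1 := by
      apply Subtype.ext
      apply LinearEquiv.ext
      intro x
      have : Subsingleton W := (Nat.card_eq_one_iff_unique.1 hk).1
      have := congrArg Subtype.val (Subsingleton.elim (⟨D x, x, rfl⟩ : W) 0)
      show T x = x
      rw [← sub_eq_zero, hsub]; exact this
    rw [hg1, orderOf_one] at hg
    norm_num at hg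
  have hk3 : k = 3 := by
    interval_cases k <;> simp [Nat.ModEq] at hcard hk0 ⊢
  subst hk3
  -- the sign sum is constant on orbits
  have hsum7 : (signSum h W : ZMod 7) = 1 := by
    let p : W → Prop := fun x => h (x : V) x = 0
    have hper : ∀ x : W, p x → p (F x) := fun x hx => by
      show h (T (x : V)) (T (x : V)) = 0
      rw [show h (T (x : V)) (T (x : V)) = h (x : V) x from c.pres g _ _]
      exact hx
    let Fp : Function.End {x // p x} := fun x => ⟨F x.1, hper x.1 x.2⟩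
    have hFp : Fp ^ 7 ^ 1 = 1 := by
      rw [pow_one]
      refine (endPow Fp 7).trans (funext fun x => ?_)
      have : ∀ m, ((Fp^[m] x : {x // p x}) : W) = F^[m] x.1 := by
        intro m
        induction m with
        | zero => rfl
        | succ m ih => rw [Function.iterate_succ_apply', Function.iterate_succ_apply', ← ih]
      exact Subtype.ext ((this 7).trans (hF7 x.1))
    have hcard' := Equiv.Perm.card_fixedPoints_modEq (p := 7) (n := 1) hFp
    rw [show Fintype.card (Function.fixedPoints Fp) = 1 by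
      rw [Fintype.card_eq_one_iff]
      refine ⟨⟨⟨0, c.zero_left _⟩, Subtype.ext ((hsupp 0).2 rfl)⟩, fun y => Subtype.ext (Subtype.ext ?_)⟩
      exact (hsupp _).1 (congrArg Subtype.val y.2)] at hcard'
    rw [← ZMod.natCast_eq_natCast_iff, Nat.cast_one, Fintype.card_subtype] at hcard'
    have hS : signSum h W = 2 * ((Finset.univ.filter p).card : ℤ) - (Fintype.card W : ℤ) := by
      rw [signSum]
      rw [show (∑ x : W, if h (x : V) x = 0 then (1 : ℤ) else -1) =
          ∑ x : W, (2 * (if p x then (1 : ℤ) else 0) - 1) from Finset.sum_congr rfl fun x _ => by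
        by_cases hx : p x <;> simp [hx, p] at * <;> simp [hx]]
      rw [Finset.sum_sub_distrib, ← Finset.mul_sum, Finset.sum_boole, Finset.sum_const, nsmul_one,
        Finset.card_univ]
    rw [hS, ← Nat.card_eq_fintype_card, hk]
    push_cast
    rw [hcard']
    exact seven_a
  rw [hsum] at hsum7
  exact seven_b hsum7

end Sums

/-! ### Orbits -/

/-- The orbit of a vector. -/
def orb (L : Subgroup (V ≃ₗ[K4] V)) (v : V) : Set V := {w | ∃ g ∈ L, g v = w}

theorem orb_refl (v : V) : v ∈ orb L v := ⟨1, L.one_mem, rfl⟩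

theorem orb_eq_of_mem {v w : V} (hw : w ∈ orb L v) : orb L w = orb L v := by
  obtain ⟨g, hg, rfl⟩ := hw
  ext x
  constructor
  · rintro ⟨k, hk, rfl⟩; exact ⟨k * g, L.mul_mem hk hg, rfl⟩
  · rintro ⟨k, hk, rfl⟩
    refine ⟨k * g⁻¹, L.mul_mem hk (L.inv_mem hg), ?_⟩
    show k (g.symm (g v)) = k v
    rw [LinearEquiv.symm_apply_apply]

/-- A subgroup isomorphic to a simple group of order 360 fixes the vector. -/
def HasSimpleStab (L : Subgroup (V ≃ₗ[K4] V)) (v : V) : Prop :=
  ∃ S : Subgroup L, Nat.card S = 360 ∧ IsSimpleGroup S ∧ Nonempty (S ≃* alternatingGroup (Fin 6)) ∧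
    ∀ g ∈ S, (g : V ≃ₗ[K4] V) v = v

theorem exists_perm_of_card_eq {s t : Finset (Fin 6)} (h : s.card = t.card) :
    ∃ σ ∈ alternatingGroup (Fin 6), ∀ i, σ i ∈ t ↔ i ∈ s := by
  obtain ⟨e⟩ : Nonempty ({x // x ∈ s} ≃ {x // x ∈ t}) := ⟨Finset.equivOfCardEq h⟩
  set σ := e.extendSubtype with hσ
  have hmem : ∀ i, σ i ∈ t ↔ i ∈ s := fun i => by
    refine ⟨fun hi => ?_, fun hi => e.extendSubtype_mem i hi⟩
    by_contra hc
    exact e.extendSubtype_not_mem i hc hi
  obtain ⟨a, b, hab, hs⟩ : ∃ a b : Fin 6, a ≠ b ∧ (a ∈ s ↔ b ∈ s) := by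
    by_cases h01 : ((0 : Fin 6) ∈ s ↔ (1 : Fin 6) ∈ s)
    · exact ⟨0, 1, by decide, h01⟩
    · by_cases h02 : ((0 : Fin 6) ∈ s ↔ (2 : Fin 6) ∈ s)
      · exact ⟨0, 2, by decide, h02⟩
      · exact ⟨1, 2, by decide, by tauto⟩
  rcases Int.units_eq_one_or (Equiv.Perm.sign σ) with hsg | hsg
  · exact ⟨σ, Equiv.Perm.mem_alternatingGroup.2 hsg, hmem⟩
  · refine ⟨σ * Equiv.swap a b, Equiv.Perm.mem_alternatingGroup.2 ?_, fun i => ?_⟩
    · rw [map_mul, hsg, Equiv.Perm.sign_swap hab, Int.units_mul_self]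
    · rw [Equiv.Perm.mul_apply, hmem]
      by_cases hia : i = a
      · subst hia; rw [Equiv.swap_apply_left]; exact hs.symm
      by_cases hib : i = b
      · subst hib; rw [Equiv.swap_apply_right]; exact hs
      rw [Equiv.swap_apply_of_ne_of_ne hia hib]

/-- Vectors of the same weight and, if full, the same product are related by monomial maps. -/
theorem HasMonomial.related {ψ : V ≃ₗ[K4] (Fin 6 → K4)} (hm : HasMonomial L ψ) {v w : V}
    (h : wt (ψ v) = wt (ψ w)) (hp : wt (ψ v) = 6 → pr (ψ v) = pr (ψ w)) : w ∈ orb L v := by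
  set x : W6 := ψ v
  set y : W6 := ψ w
  obtain ⟨σ, hσ, hmem⟩ := exists_perm_of_card_eq (s := Finset.univ.filter fun i => y i ≠ 0)
    (t := Finset.univ.filter fun i => x i ≠ 0) (by rw [← wt_eq_card, ← wt_eq_card, h])
  simp only [Finset.mem_filter, Finset.mem_univ, true_and] at hmem
  obtain ⟨cf, hcf1, hcf⟩ : ∃ cf : Fin 6 → K4, ∏ i, cf i = 1 ∧ ∀ i, y i = cf i * x (σ i) := by
    let c0 : Fin 6 → K4 := fun i => if y i = 0 then 1 else y i * (x (σ i))⁻¹
    have hc0 : ∀ i, y i = c0 i * x (σ i) := fun i => by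
      by_cases hy : y i = 0
      · have : x (σ i) = 0 := by
          by_contra hx; exact (hmem i).1 hx hy
        simp [c0, hy, this]
      · simp only [c0, if_neg hy]
        rw [mul_assoc, inv_mul_cancel₀ ((hmem i).2 hy), mul_one]
    have hc0ne : ∏ i, c0 i ≠ 0 := Finset.prod_ne_zero_iff.2 fun i _ => by
      by_cases hy : y i = 0
      · simp [c0, hy]
      · simp only [c0, if_neg hy]
        exact mul_ne_zero hy (inv_ne_zero ((hmem i).2 hy))
    by_cases hfull : ∃ j, y j = 0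
    · obtain ⟨j, hj⟩ := hfull
      refine ⟨Function.update c0 j (∏ i, c0 i)⁻¹, ?_, fun i => ?_⟩
      · rw [Finset.prod_update_of_mem (Finset.mem_univ j)]
        have : ∏ i ∈ Finset.univ \ {j}, c0 i = ∏ i, c0 i := by
          apply Finset.prod_subset (Finset.subset_univ _)
          intro i _ hi
          have hij : i = j := by simpa using hi
          subst hij
          simp [c0, hj]
        rw [this, inv_mul_cancel₀ hc0ne]
      · by_cases hij : i = j
        · subst hij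
          have hz := hc0 i
          simp only [c0, if_pos hj, one_mul] at hz
          rw [Function.update_self, ← hz, hj, mul_zero]
        · rw [Function.update_of_ne hij]; exact hc0 i
    · push Not at hfull
      refine ⟨c0, ?_, hc0⟩
      have h6 : wt (ψ v) = 6 := by
        rw [h, wt_eq_card, Finset.filter_true_of_mem fun i _ => hfull i]; rfl
      have hp' := hp h6
      rw [pr_eq_prod, pr_eq_prod] at hp'
      have : ∏ i, y i = (∏ i, c0 i) * ∏ i, x i := by
        rw [← Equiv.prod_comp σ x, ← Finset.prod_mul_distrib]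
        exact Finset.prod_congr rfl fun i _ => hc0 i
      have hxne : ∏ i, x i ≠ 0 := by
        rw [hp']; exact Finset.prod_ne_zero_iff.2 fun i _ => hfull i
      exact ((mul_eq_right₀ hxne).1 (this.symm.trans hp'.symm))
  obtain ⟨g, hg, hgv⟩ := hm σ hσ cf hcf1
  exact ⟨g, hg, ψ.injective (funext fun i => (hgv v i).trans (hcf i).symm)⟩

theorem HasMonomial.simpleStab {ψ : V ≃ₗ[K4] (Fin 6 → K4)} (hm : HasMonomial L ψ) {v : V}
    (hv : ∀ i, ψ v i ≠ 0) : HasSimpleStab L v := by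
  haveI : Finite (V ≃ₗ[K4] V) := finite_equiv
  have hex : ∀ σ : alternatingGroup (Fin 6), ∃ g : L, ∀ w i,
      ψ ((g : V ≃ₗ[K4] V) w) i =
        ψ v i * (ψ v ((σ⁻¹ : Equiv.Perm (Fin 6)) i))⁻¹ * ψ w ((σ⁻¹ : Equiv.Perm (Fin 6)) i) := by
    intro σ
    obtain ⟨g, hg, hgv⟩ := hm _ (inv_mem σ.2)
      (fun i => ψ v i * (ψ v ((σ⁻¹ : Equiv.Perm (Fin 6)) i))⁻¹) (by
      rw [Finset.prod_mul_distrib, Finset.prod_inv_distrib, Equiv.prod_comp,
        mul_inv_cancel₀ (Finset.prod_ne_zero_iff.2 fun i _ => hv i)])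
    exact ⟨⟨g, hg⟩, hgv⟩
  choose g hg using hex
  let φ : alternatingGroup (Fin 6) →* L := MonoidHom.mk' g fun σ τ => by
    apply Subtype.ext
    apply LinearEquiv.ext
    intro w
    apply ψ.injective
    funext i
    rw [hg]
    show _ = ψ ((g σ : V ≃ₗ[K4] V) ((g τ : V ≃ₗ[K4] V) w)) i
    rw [hg σ, hg τ, Subgroup.coe_mul, mul_inv_rev, Equiv.Perm.mul_apply]
    have h0 := hv ((σ⁻¹ : Equiv.Perm (Fin 6)) i)
    field_simp
  have hinj : Function.Injective φ := by
    intro σ τ hst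
    have key : ∀ i, (σ⁻¹ : Equiv.Perm (Fin 6)) i = (τ⁻¹ : Equiv.Perm (Fin 6)) i := by
      intro i
      by_contra hne
      set j := (σ⁻¹ : Equiv.Perm (Fin 6)) i
      let w := ψ.symm (Pi.single j 1)
      have e1 : ψ ((g σ : V ≃ₗ[K4] V) w) i = ψ ((g τ : V ≃ₗ[K4] V) w) i := by
        rw [show g σ = g τ from hst]
      rw [hg, hg] at e1
      simp only [w, LinearEquiv.apply_symm_apply, Pi.single_eq_of_ne (Ne.symm hne), mul_zero] at e1
      rw [show (σ⁻¹ : Equiv.Perm (Fin 6)) i = j from rfl, Pi.single_eq_same, mul_one] at e1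
      exact mul_ne_zero (hv i) (inv_ne_zero (hv _)) e1
    exact inv_injective (Subtype.ext (Equiv.ext key))
  refine ⟨φ.range, ?_, ?_, ⟨(MonoidHom.ofInjective hinj).symm⟩, ?_⟩
  · rw [← Nat.card_congr (MonoidHom.ofInjective hinj).toEquiv, nat_card_alternatingGroup, Nat.card_fin]
    rfl
  · haveI := alternatingGroup.isSimpleGroup (α := Fin 6) (by simp)
    haveI : Nontrivial φ.range := (MonoidHom.ofInjective hinj).toEquiv.symm.nontrivial
    exact IsSimpleGroup.isSimpleGroup_of_surjective (MonoidHom.ofInjective hinj).toMonoidHom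
      (MonoidHom.ofInjective hinj).surjective
  · rintro _ ⟨σ, rfl⟩
    apply ψ.injective
    funext i
    show ψ ((g σ : V ≃ₗ[K4] V) v) i = _
    rw [hg, mul_assoc, inv_mul_cancel₀ (hv _), mul_one]

theorem natCard_orb_dvd (v : V) : (orb L v).ncard ∣ Nat.card L := by
  have he : MulAction.orbit L v = orb L v := by
    ext w
    constructor
    · rintro ⟨g, rfl⟩; exact ⟨g, g.2, rfl⟩
    · rintro ⟨g, hg, rfl⟩; exact ⟨⟨g, hg⟩, rfl⟩
  haveI : Finite (V ≃ₗ[K4] V) := finite_equiv
  rw [← Nat.card_coe_set_eq, ← he, Nat.card_congr (MulAction.orbitEquivQuotientStabilizer L v)]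
  exact Subgroup.index_dvd_card _

theorem seven_dvd_orb (c : Cover L f h) {g : L} (hg : orderOf g = 7) {v : V} (hv : v ≠ 0)
    (hiso : h v v = 0) : 7 ∣ (orb L v).ncard := by
  haveI : Fact (Nat.Prime 7) := ⟨by norm_num⟩
  letI := Fintype.ofFinite (orb L v)
  let Fo : Function.End (orb L v) := fun x => ⟨(g : V ≃ₗ[K4] V) x.1, by
    obtain ⟨k, hk, e⟩ := x.2
    exact ⟨g * k, L.mul_mem g.2 hk, by show (g : V ≃ₗ[K4] V) (k v) = _; rw [e]⟩⟩
  have hFo : Fo ^ 7 ^ 1 = 1 := by
    rw [pow_one]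
    refine (endPow Fo 7).trans (funext fun x => Subtype.ext ?_)
    have : ∀ m, ((Fo^[m] x : orb L v) : V) = ((g ^ m : L) : V ≃ₗ[K4] V) x := by
      intro m
      induction m with
      | zero => rfl
      | succ m ih => rw [Function.iterate_succ_apply', pow_succ']; exact congrArg _ ih
    rw [this, ← hg, pow_orderOf_eq_one]
    rfl
  have hm := Equiv.Perm.card_fixedPoints_modEq (p := 7) (n := 1) hFo
  rw [show Fintype.card (Function.fixedPoints Fo) = 0 by
    rw [Fintype.card_eq_zero_iff]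
    refine ⟨fun y => ?_⟩
    obtain ⟨k, hk, e⟩ := y.1.2
    have hy0 := c.fixed_eq_zero hg (congrArg Subtype.val y.2)
      (by rw [← e]; exact (c.pres ⟨k, hk⟩ v v).trans hiso)
    rw [← e, LinearEquiv.map_eq_zero_iff] at hy0
    exact hv hy0, ← Nat.card_eq_fintype_card, Nat.card_coe_set_eq] at hm
  exact (Nat.modEq_zero_iff_dvd).1 hm

theorem iso_classes (x : W6) (hx : x ≠ 0) (h : (wt x : K4) = 0) : wt x = 2 ∨ wt x = 4 ∨ wt x = 6 := by
  have h1 : wt x ≤ 6 := by
    rw [wt_eq_card]; exact (Finset.card_le_univ _).trans (by simp)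
  have h0 : wt x ≠ 0 := fun e => hx (funext fun i => by
    rw [wt_eq_card, Finset.card_eq_zero, Finset.filter_eq_empty_iff] at e
    exact not_not.1 (e (Finset.mem_univ i)))
  generalize wt x = n at *
  interval_cases n <;> first
    | exact Or.inl rfl
    | exact Or.inr (Or.inl rfl)
    | exact Or.inr (Or.inr rfl)
    | exact absurd rfl h0
    | exact absurd h (by decide)

/-- The two orbits in a given frame. -/
theorem Cover.exists_orbits_frame (c : Cover L f h) {ψ : V ≃ₗ[K4] (Fin 6 → K4)} (hψ : Ortho h ψ)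
    (hm : HasMonomial L ψ) (hL : Nat.card L = 9797760) :
    ∃ a b : V, a ≠ 0 ∧ h a a = 0 ∧ (orb L a).ncard = 378 ∧ HasSimpleStab L a ∧
      b ≠ 0 ∧ h b b = 0 ∧ (orb L b).ncard = 1701 ∧ HasSimpleStab L b ∧
      (∀ v, v ≠ 0 → h v v = 0 → v ∈ orb L a ∨ v ∈ orb L b) ∧
      (∀ i, ψ b i ≠ 0) ∧ ∀ v, wt (ψ v) = 2 → v ∈ orb L a := by
  haveI : Finite (V ≃ₗ[K4] V) := finite_equiv
  haveI : Fact (Nat.Prime 7) := ⟨by norm_num⟩
  obtain ⟨g, hg⟩ := exists_prime_orderOf_dvd_card' (G := L) 7 (by rw [hL]; norm_num)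
  have hh : ∀ v, h v v = (wt (ψ v) : K4) := fun v => (hψ.form v v).trans (herm_self _)
  let C2 : Set V := {v | wt (ψ v) = 2}
  let C4 : Set V := {v | wt (ψ v) = 4}
  let C6 : K4 → Set V := fun d => {v | wt (ψ v) = 6 ∧ pr (ψ v) = d}
  have hn : ∀ q : W6 → Prop, {v : V | q (ψ v)}.ncard = Nat.card {x : W6 // q x} := fun q => by
    rw [← Nat.card_coe_set_eq]
    exact Nat.card_congr (ψ.toEquiv.subtypeEquiv fun v => Iff.rfl)
  have n2 : C2.ncard = 135 := (hn fun x => wt x = 2).trans count_two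
  have n4 : C4.ncard = 1215 := (hn fun x => wt x = 4).trans count_four
  have n6 : ∀ d, d ≠ 0 → (C6 d).ncard = 243 := fun d hd =>
    (hn fun x => wt x = 6 ∧ pr x = d).trans (count_six hd)
  have hclass : ∀ v, v ≠ 0 → h v v = 0 →
      v ∈ C2 ∨ v ∈ C4 ∨ v ∈ C6 1 ∨ v ∈ C6 .om ∨ v ∈ C6 .om2 := by
    intro v hv0 hv
    rw [hh] at hv
    rcases iso_classes (ψ v) (fun e => hv0 (ψ.map_eq_zero_iff.1 e)) hv with e | e | e
    · exact Or.inl e
    · exact Or.inr (Or.inl e)
    · have hne : pr (ψ v) ≠ 0 := by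
        rw [pr_eq_prod]
        refine Finset.prod_ne_zero_iff.2 fun i _ hi => ?_
        rw [wt_eq_card] at e
        have := (Finset.eq_univ_of_card _ (e.trans (Fintype.card_fin 6).symm)) ▸ Finset.mem_univ i
        exact (Finset.mem_filter.1 this).2 hi
      rcases K4.cases4 (pr (ψ v)) with e' | e' | e' | e'
      · exact absurd e' hne
      · exact Or.inr (Or.inr (Or.inl ⟨e, e'⟩))
      · exact Or.inr (Or.inr (Or.inr (Or.inl ⟨e, e'⟩)))
      · exact Or.inr (Or.inr (Or.inr (Or.inr ⟨e, e'⟩)))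
  -- an orbit contains or misses each class
  have hall : ∀ (q : W6 → Prop), (∀ x y, q x → q y → wt x = wt y ∧ (wt x = 6 → pr x = pr y)) →
      ∀ v, ({w | q (ψ w)} ∩ orb L v).ncard = if ∃ w, q (ψ w) ∧ w ∈ orb L v then {w | q (ψ w)}.ncard else 0 := by
    intro q hq v
    by_cases hex : ∃ w, q (ψ w) ∧ w ∈ orb L v
    · rw [if_pos hex]
      obtain ⟨w, hw, hwo⟩ := hex
      congr 1
      refine Set.inter_eq_left.2 fun x hx => ?_
      rw [← orb_eq_of_mem hwo]
      exact hm.related (hq _ _ hw hx).1 (hq _ _ hw hx).2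
    · rw [if_neg hex, Set.ncard_eq_zero]
      exact Set.eq_empty_of_forall_notMem fun x hx => hex ⟨x, hx.1, hx.2⟩
  let bit : Set V → V → Prop := fun C v => ∃ w, w ∈ C ∧ w ∈ orb L v
  have hcount : ∀ v, v ≠ 0 → h v v = 0 → (orb L v).ncard =
      (if bit C2 v then 135 else 0) + (if bit C4 v then 1215 else 0) + (if bit (C6 1) v then 243 else 0) +
        (if bit (C6 .om) v then 243 else 0) + (if bit (C6 .om2) v then 243 else 0) := by
    intro v hv0 hv
    have hsub : orb L v = C2 ∩ orb L v ∪ C4 ∩ orb L v ∪ C6 1 ∩ orb L v ∪ C6 .om ∩ orb L v ∪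
        C6 .om2 ∩ orb L v := by
      ext x
      constructor
      · intro hx
        obtain ⟨k, hk, rfl⟩ := hx
        have hx0 : k v ≠ 0 := fun e => hv0 ((LinearEquiv.map_eq_zero_iff _).1 e)
        have hxi : h (k v) (k v) = 0 := (c.pres ⟨k, hk⟩ v v).trans hv
        have hxo : k v ∈ orb L v := ⟨k, hk, rfl⟩
        rcases hclass _ hx0 hxi with e | e | e | e | e
        · exact Or.inl (Or.inl (Or.inl (Or.inl ⟨e, hxo⟩)))
        · exact Or.inl (Or.inl (Or.inl (Or.inr ⟨e, hxo⟩)))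
        · exact Or.inl (Or.inl (Or.inr ⟨e, hxo⟩))
        · exact Or.inl (Or.inr ⟨e, hxo⟩)
        · exact Or.inr ⟨e, hxo⟩
      · rintro ((((hx | hx) | hx) | hx) | hx) <;> exact hx.2
    have d1 : ∀ (A B : Set V), (∀ x, x ∈ A → x ∈ B → False) → Disjoint A B := fun A B hAB =>
      Set.disjoint_left.2 hAB
    conv_lhs => rw [hsub]
    rw [Set.ncard_union_eq, Set.ncard_union_eq, Set.ncard_union_eq, Set.ncard_union_eq]
    · rw [hall (fun x => wt x = 2) (fun x y hx hy => ⟨hx.trans hy.symm, fun e => absurd (hx.symm.trans e) (by norm_num)⟩),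
        hall (fun x => wt x = 4) (fun x y hx hy => ⟨hx.trans hy.symm, fun e => absurd (hx.symm.trans e) (by norm_num)⟩),
        hall (fun x => wt x = 6 ∧ pr x = 1) (fun x y hx hy => ⟨hx.1.trans hy.1.symm, fun _ => hx.2.trans hy.2.symm⟩),
        hall (fun x => wt x = 6 ∧ pr x = .om) (fun x y hx hy => ⟨hx.1.trans hy.1.symm, fun _ => hx.2.trans hy.2.symm⟩),
        hall (fun x => wt x = 6 ∧ pr x = .om2) (fun x y hx hy => ⟨hx.1.trans hy.1.symm, fun _ => hx.2.trans hy.2.symm⟩),
        show {w : V | wt (ψ w) = 2}.ncard = 135 from n2, show {w : V | wt (ψ w) = 4}.ncard = 1215 from n4,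
        show {w : V | wt (ψ w) = 6 ∧ pr (ψ w) = 1}.ncard = 243 from n6 1 one_ne_zero,
        show {w : V | wt (ψ w) = 6 ∧ pr (ψ w) = K4.om}.ncard = 243 from n6 _ (by decide),
        show {w : V | wt (ψ w) = 6 ∧ pr (ψ w) = K4.om2}.ncard = 243 from n6 _ (by decide)]
      rfl
    all_goals refine d1 _ _ fun x => ?_
    all_goals simp only [C2, C4, C6, Set.mem_union, Set.mem_inter_iff, Set.mem_ofPred_eq]
    all_goals intro hA hB
    all_goals rcases hB with ⟨hB, -⟩
    all_goals first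
      | (rcases hA with ((((⟨hA, -⟩ | ⟨hA, -⟩) | ⟨hA, -⟩) | ⟨hA, -⟩))) <;> omega
      | (rcases hA with (((⟨hA, -⟩ | ⟨hA, -⟩) | ⟨⟨hA, hA'⟩, -⟩) | ⟨⟨hA, hA'⟩, -⟩) <;> first
          | omega | (rw [hA'] at hB; exact absurd hB.2 (by decide)))
      | (rcases hA with ((⟨hA, -⟩ | ⟨hA, -⟩) | ⟨⟨hA, hA'⟩, -⟩) <;> first
          | omega | (rw [hA'] at hB; exact absurd hB.2 (by decide)))
      | (rcases hA with (⟨hA, -⟩ | ⟨hA, -⟩) <;> omega)
      | omega
  -- the arithmetic
  have harith : ∀ v, v ≠ 0 → h v v = 0 →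
      ((orb L v).ncard = 378 ∧ bit C2 v ∧ ¬ bit C4 v ∧
        (bit (C6 1) v ∨ bit (C6 .om) v ∨ bit (C6 .om2) v)) ∨
      ((orb L v).ncard = 1701 ∧ bit C4 v ∧ ¬ bit C2 v ∧
        (bit (C6 1) v ∨ bit (C6 .om) v ∨ bit (C6 .om2) v)) := by
    intro v hv0 hv
    have h1 := hcount v hv0 hv
    have h7 := seven_dvd_orb c hg hv0 hv
    have hd := natCard_orb_dvd (L := L) v
    have hpos : (orb L v).ncard ≠ 0 := (Set.ncard_pos (Set.toFinite _)).2 ⟨v, orb_refl v⟩ |>.ne'
    rw [h1] at h7 hd hpos ⊢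
    rw [hL] at hd
    by_cases b2 : bit C2 v <;> by_cases b4 : bit C4 v <;> by_cases p1 : bit (C6 1) v <;>
      by_cases p2 : bit (C6 .om) v <;> by_cases p3 : bit (C6 .om2) v <;>
      simp [b2, b4, p1, p2, p3] at h7 hd hpos ⊢ <;> omega
  obtain ⟨v2, hv2'⟩ : ∃ v, wt (ψ v) = 2 := by
    obtain ⟨v, hv⟩ := Set.nonempty_of_ncard_ne_zero (s := C2) (by rw [n2]; norm_num)
    exact ⟨v, hv⟩
  obtain ⟨v4, hv4⟩ : ∃ v, wt (ψ v) = 4 := by
    obtain ⟨v, hv⟩ := Set.nonempty_of_ncard_ne_zero (s := C4) (by rw [n4]; norm_num)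
    exact ⟨v, hv⟩
  have hwt : ∀ v n, wt (ψ v) = n → n ≠ 0 → Even n → v ≠ 0 ∧ h v v = 0 := by
    intro v n hvn hn0 hne
    refine ⟨fun e => hn0 ?_, ?_⟩
    · rw [← hvn, e, map_zero]; decide
    · rw [hh, hvn]
      obtain ⟨k, rfl⟩ := hne
      rw [Nat.cast_add, K4.add_self]
  obtain ⟨h20, h2i⟩ := hwt v2 2 hv2' (by norm_num) ⟨1, rfl⟩
  obtain ⟨h40, h4i⟩ := hwt v4 4 hv4 (by norm_num) ⟨2, rfl⟩
  have hbit2 : ∀ v, bit C2 v → v2 ∈ orb L v := by
    rintro v ⟨w, hw, hwo⟩
    rw [← orb_eq_of_mem hwo]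
    exact hm.related (hw.trans hv2'.symm) fun e => absurd (hw.symm.trans e) (by norm_num)
  have hbit4 : ∀ v, bit C4 v → v4 ∈ orb L v := by
    rintro v ⟨w, hw, hwo⟩
    rw [← orb_eq_of_mem hwo]
    exact hm.related (hw.trans hv4.symm) fun e => absurd (hw.symm.trans e) (by norm_num)
  have hpick : ∀ v, (bit (C6 1) v ∨ bit (C6 .om) v ∨ bit (C6 .om2) v) →
      ∃ w, w ∈ orb L v ∧ ∀ i, ψ w i ≠ 0 := by
    intro v hb
    have hf : ∀ d w, w ∈ C6 d → ∀ i, ψ w i ≠ 0 := fun d w hw i hi => by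
      have e := hw.1
      rw [wt_eq_card] at e
      have := (Finset.eq_univ_of_card _ (e.trans (Fintype.card_fin 6).symm)) ▸ Finset.mem_univ i
      exact (Finset.mem_filter.1 this).2 hi
    rcases hb with ⟨w, hw, hwo⟩ | ⟨w, hw, hwo⟩ | ⟨w, hw, hwo⟩ <;> exact ⟨w, hwo, hf _ w hw⟩
  rcases harith v2 h20 h2i with ⟨ca, -, hn24, h6a⟩ | ⟨-, -, hno, -⟩
  swap
  · exact absurd ⟨v2, hv2', orb_refl v2⟩ hno
  rcases harith v4 h40 h4i with ⟨-, -, hno, -⟩ | ⟨cb, -, -, h6b⟩
  · exact absurd ⟨v4, hv4, orb_refl v4⟩ hno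
  obtain ⟨a, hao, haf⟩ := hpick v2 h6a
  obtain ⟨b, hbo, hbf⟩ := hpick v4 h6b
  have hiso : ∀ {v w : V}, w ∈ orb L v → v ≠ 0 → h v v = 0 → w ≠ 0 ∧ h w w = 0 := by
    rintro v _ ⟨k, hk, rfl⟩ hv0 hv
    exact ⟨fun e => hv0 ((LinearEquiv.map_eq_zero_iff _).1 e), (c.pres ⟨k, hk⟩ v v).trans hv⟩
  obtain ⟨ha0, hai⟩ := hiso hao h20 h2i
  obtain ⟨hb0, hbi⟩ := hiso hbo h40 h4i
  refine ⟨a, b, ha0, hai, by rw [orb_eq_of_mem hao, ca], hm.simpleStab haf, hb0, hbi,
    by rw [orb_eq_of_mem hbo, cb], hm.simpleStab hbf, fun v hv0 hv => ?_, hbf, fun v hv2 => by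
      rw [orb_eq_of_mem hao]
      exact hm.related (hv2'.trans hv2.symm) (fun e => absurd (hv2'.symm.trans e) (by norm_num))⟩
  rcases harith v hv0 hv with ⟨-, h2, -, -⟩ | ⟨-, h4, -, -⟩
  · left
    rw [orb_eq_of_mem hao, orb_eq_of_mem (hbit2 v h2)]
    exact orb_refl v
  · right
    rw [orb_eq_of_mem hbo, orb_eq_of_mem (hbit4 v h4)]
    exact orb_refl v

/-- The two orbits. -/
theorem Cover.exists_orbits {E S : Subgroup P} (hP : Para E S) (c : Cover L f h)
    (hL : Nat.card L = 9797760) :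
    ∃ a b : V, a ≠ 0 ∧ h a a = 0 ∧ (orb L a).ncard = 378 ∧ HasSimpleStab L a ∧
      b ≠ 0 ∧ h b b = 0 ∧ (orb L b).ncard = 1701 ∧ HasSimpleStab L b ∧
      ∀ v, v ≠ 0 → h v v = 0 → v ∈ orb L a ∨ v ∈ orb L b := by
  obtain ⟨ψ, hψ, hm⟩ := c.exists_monomial hP
  obtain ⟨a, b, h1, h2, h3, h4, h5, h6, h7, h8, h9, -, -⟩ := c.exists_orbits_frame hψ hm hL
  exact ⟨a, b, h1, h2, h3, h4, h5, h6, h7, h8, h9⟩

end CfsgLib.FischerLarge
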