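import Cfsg.Agent.Lib.FischerLarge.Conjugates
import Cfsg.Agent.Lib.FischerLarge.MonomialSylow

/-!
FischerLarge: elements outside `M` act semilinearly on `Q/Z(Q)`.
-/

set_option autoImplicit false
set_option linter.style.haveILetI false
set_option linter.unusedSectionVars false

namespace CfsgLib.FischerLarge

open scoped Classical
open Cfsg

universe u

variable {G : Type u} [Group G] [Finite G] {z : G} {P : Type} [Group P] [Finite P] {E S : Subgroup P}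
variable {Q M : Subgroup (Cz z)} [hQn : Q.Normal] {V : Type u} [AddCommGroup V] [Module K4 V] [Finite V]
variable {L : Subgroup (V ≃ₗ[K4] V)} {f : L →* P} {h : V → V → K4} {π : Cz z → V}

/-- A linear map induced by an element of the centraliser. -/
def Real (Q : Subgroup (Cz z)) (π : Cz z → V) (g : V ≃ₗ[K4] V) : Prop :=
  ∃ c : Cz z, ∀ a ∈ Q, π (c * a * c⁻¹) = g (π a)

theorem Real.mul {g g' : V ≃ₗ[K4] V} (hg : Real Q π g) (hg' : Real Q π g') : Real Q π (g * g') := by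
  obtain ⟨c, hc⟩ := hg
  obtain ⟨c', hc'⟩ := hg'
  refine ⟨c * c', fun a ha => ?_⟩
  show π _ = g (g' (π a))
  rw [← hc' a ha, ← hc _ (hQn.conj_mem a ha c')]
  congr 1; group

theorem Real.inv {g : V ≃ₗ[K4] V} (hg : Real Q π g) : Real Q π g⁻¹ := by
  obtain ⟨c, hc⟩ := hg
  refine ⟨c⁻¹, fun a ha => ?_⟩
  have e := hc _ (hQn.conj_mem a ha c⁻¹)
  rw [show c * (c⁻¹ * a * c⁻¹⁻¹) * c⁻¹ = a by group] at e
  show π _ = g.symm (π a)
  rw [e, LinearEquiv.symm_apply_apply]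

theorem Real.pow {g : V ≃ₗ[K4] V} (hg : Real Q π g) : ∀ n : ℕ, Real Q π (g ^ n)
  | 0 => ⟨1, fun a _ => by rw [one_mul, inv_one, mul_one, pow_zero]; rfl⟩
  | n + 1 => by rw [pow_succ]; exact (Real.pow hg n).mul hg

/-- `S₆` has no non-trivial normal subgroup of commuting involutions. -/
theorem eq_bot_of_normal_elementary (K : Subgroup (Equiv.Perm (Fin 6))) [K.Normal]
    (hsq : ∀ k ∈ K, k * k = 1) : K = ⊥ := by
  haveI := alternatingGroup.isSimpleGroup (α := Fin 6) (by simp)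
  have hA : K.subgroupOf (alternatingGroup (Fin 6)) = ⊥ := by
    refine (Subgroup.Normal.eq_bot_or_eq_top inferInstance).resolve_right fun htop => ?_
    haveI : Fact (Nat.Prime 5) := ⟨by norm_num⟩
    obtain ⟨y, hy⟩ := exists_prime_orderOf_dvd_card' (G := alternatingGroup (Fin 6)) 5
      (by rw [nat_card_alternatingGroup, Nat.card_fin]; norm_num [Nat.factorial])
    have hyK : y ∈ K.subgroupOf (alternatingGroup (Fin 6)) := htop ▸ Subgroup.mem_top y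
    have h2 : y ^ 2 = 1 := Subtype.ext (by rw [pow_two]; exact hsq _ (Subgroup.mem_subgroupOf.1 hyK))
    have := orderOf_dvd_of_pow_eq_one h2
    rw [hy] at this
    norm_num at this
  rw [eq_bot_iff]
  intro k hk
  have hc : k ∈ Subgroup.center (Equiv.Perm (Fin 6)) := by
    rw [Subgroup.mem_center_iff]
    intro τ
    have hK : τ * k * τ⁻¹ * k⁻¹ ∈ K := mul_mem (Subgroup.Normal.conj_mem inferInstance k hk τ) (inv_mem hk)
    have hev : τ * k * τ⁻¹ * k⁻¹ ∈ alternatingGroup (Fin 6) := by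
      rw [Equiv.Perm.mem_alternatingGroup]
      simp only [map_mul, map_inv]
      rw [mul_comm (Equiv.Perm.sign τ), mul_inv_cancel_right, mul_inv_cancel]
    have : (⟨_, hev⟩ : alternatingGroup (Fin 6)) ∈ K.subgroupOf (alternatingGroup (Fin 6)) := hK
    rw [hA, Subgroup.mem_bot] at this
    exact mul_inv_eq_iff_eq_mul.1 (mul_inv_eq_one.1 (congrArg Subtype.val this))
  rw [Subgroup.mem_bot]
  refine Equiv.ext fun i => ?_
  show k i = i
  by_contra hne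
  obtain ⟨j, hji, hjk⟩ : ∃ j : Fin 6, j ≠ i ∧ j ≠ k i := by
    have : ∀ a b : Fin 6, ∃ j, j ≠ a ∧ j ≠ b := by decide
    exact this _ _
  have e := Equiv.ext_iff.1 (Subgroup.mem_center_iff.1 hc (Equiv.swap (k i) j)) i
  rw [Equiv.Perm.mul_apply, Equiv.Perm.mul_apply, Equiv.swap_apply_left] at e
  rw [Equiv.swap_apply_of_ne_of_ne (fun h => hne h.symm) hji.symm] at e
  exact hjk e

variable (F : Frame Q M L f h π)
include F

theorem Frame.real_of_mem {g : V ≃ₗ[K4] V} (hg : g ∈ L) : Real Q π g := by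
  obtain ⟨m, -, hm⟩ := F.ofL g hg
  exact ⟨m, hm⟩

theorem Frame.mk_eq {c c' : Cz z} (hcc : ∀ a ∈ Q, π (c * a * c⁻¹) = π (c' * a * c'⁻¹)) :
    QuotientGroup.mk' Q c = QuotientGroup.mk' Q c' := by
  refine (QuotientGroup.eq).2 (F.faithful _ fun a ha => ?_)
  have := hcc _ (hQn.conj_mem a ha c⁻¹)
  rw [show c * (c⁻¹ * a * c⁻¹⁻¹) * c⁻¹ = a by group] at this
  obtain ⟨e, he, -⟩ := F.semi c'
  obtain ⟨e', he', -⟩ := F.semi (c'⁻¹)
  have hb := hQn.conj_mem a ha c⁻¹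
  have h2 : π (c⁻¹ * a * c⁻¹⁻¹) = π (c'⁻¹ * a * c'⁻¹⁻¹) := by
    rw [he' a ha, this, ← he' _ (hQn.conj_mem _ hb c')]
    congr 1; group
  have h3 := hcc _ (hQn.conj_mem a ha c'⁻¹)
  rw [show c' * (c'⁻¹ * a * c'⁻¹⁻¹) * c'⁻¹ = a by group] at h3
  obtain ⟨e'', he'', -⟩ := F.semi c⁻¹
  rw [show c⁻¹ * c' * a * (c⁻¹ * c')⁻¹ = c⁻¹ * (c' * a * c'⁻¹) * c⁻¹⁻¹ by group,
    he'' _ (hQn.conj_mem a ha c'), ← hcc a ha, ← he'' _ (hQn.conj_mem a ha c)]
  congr 1; group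

/-- The action of an element outside `M` is semilinear. -/
theorem Frame.not_real_of_not_mem [hMn : M.Normal] (hP : Para E S) (hQM : Q ≤ M) (hidx : M.index = 2)
    (hF : IsOfLargeFischerTypeAt z Q) {c : Cz z} (hc : c ∉ M) (T : V ≃ₗ[K4] V)
    (hT : ∀ a ∈ Q, π (c * a * c⁻¹) = T (π a)) : False := by
  haveI : Finite (V ≃ₗ[K4] V) := finite_equiv
  obtain ⟨ψ, hψ, hm⟩ := F.cover.exists_monomial hP
  have hext : ∀ g₁ g₂ : V ≃ₗ[K4] V, (∀ a ∈ Q, g₁ (π a) = g₂ (π a)) → g₁ = g₂ := fun g₁ g₂ e =>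
    LinearEquiv.ext fun v => by
      obtain ⟨a, ha, rfl⟩ := F.surj v
      exact e a ha
  have hTinv : ∀ a ∈ Q, π (c⁻¹ * a * c) = T.symm (π a) := fun a ha => by
    have e := hT _ (hQn.conj_mem a ha c⁻¹)
    rw [show c * (c⁻¹ * a * c⁻¹⁻¹) * c⁻¹ = a by group, show c⁻¹ * a * c⁻¹⁻¹ = c⁻¹ * a * c by group] at e
    rw [e, LinearEquiv.symm_apply_apply]
  have hnorm : ∀ g ∈ L, T * g * T⁻¹ ∈ L ∧ T⁻¹ * g * T ∈ L := by
    intro g hg
    obtain ⟨m, hm', hmg⟩ := F.ofL g hg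
    obtain ⟨g₁, hg₁, hg₁'⟩ := F.lift _ (hMn.conj_mem m hm' c)
    obtain ⟨g₂, hg₂, hg₂'⟩ := F.lift _ (hMn.conj_mem m hm' c⁻¹)
    constructor
    · convert hg₁ using 1
      refine hext _ _ fun a ha => ?_
      rw [← hg₁' a ha]
      show T (g (T.symm (π a))) = _
      rw [← hTinv a ha, ← hmg _ (by simpa using hQn.conj_mem a ha c⁻¹),
        ← hT _ (hQn.conj_mem _ (by simpa using hQn.conj_mem a ha c⁻¹) m)]
      congr 1; group
    · convert hg₂ using 1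
      refine hext _ _ fun a ha => ?_
      rw [← hg₂' a ha]
      show T.symm (g (T (π a))) = _
      rw [← hT a ha, ← hmg _ (hQn.conj_mem a ha c),
        ← hTinv _ (hQn.conj_mem _ (hQn.conj_mem a ha c) m)]
      congr 1; group
  have hsq : T * T ∈ L := by
    have hcc : c * c ∈ M := (Subgroup.mul_mem_iff_of_index_two hidx).2 Iff.rfl
    obtain ⟨g, hg, hg'⟩ := F.lift _ hcc
    convert hg using 1
    refine hext _ _ fun a ha => ?_
    rw [← hg' a ha]
    show T (T (π a)) = _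
    rw [← hT a ha, ← hT _ (hQn.conj_mem a ha c)]
    congr 1; group
  have hTn : T ∉ L := fun hTL => by
    obtain ⟨m, hm', hmg⟩ := F.ofL T hTL
    have h1 : QuotientGroup.mk' Q c = QuotientGroup.mk' Q m :=
      F.mk_eq fun a ha => (hT a ha).trans (hmg a ha).symm
    have h2 : c⁻¹ * m ∈ M := hQM ((QuotientGroup.eq).1 h1)
    exact hc (by have := mul_mem hm' (inv_mem h2); simpa using this)
  obtain ⟨l, σ₀, d₀, hl, hσ₀, hd₀, hmono⟩ :=
    hm.exists_odd F.cardL (fun g hg => (hnorm g hg).1) (fun g hg => (hnorm g hg).2) hsq hTn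
  have hreal0 : Real Q π ((l * T) ^ 3) := ((F.real_of_mem hl).mul ⟨c, hT⟩).pow 3
  have hsig0 : Equiv.Perm.sign σ₀ = -1 :=
    (Int.units_eq_one_or _).resolve_left fun e => hσ₀ (Equiv.Perm.mem_alternatingGroup.2 e)
  -- every monomial map with product one is induced by the centraliser
  have hall : ∀ (σ : Equiv.Perm (Fin 6)) (d : Fin 6 → K4), ∏ i, d i = 1 →
      ∃ g : V ≃ₗ[K4] V, Real Q π g ∧ IsMono ψ g σ d := by
    intro σ d hd
    rcases Int.units_eq_one_or (Equiv.Perm.sign σ) with hsg | hsg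
    · obtain ⟨g, hg, hgv⟩ := hm σ (Equiv.Perm.mem_alternatingGroup.2 hsg) d hd
      exact ⟨g, F.real_of_mem hg, hgv⟩
    · obtain ⟨g, hg, hgv⟩ := hm (σ * σ₀⁻¹) (Equiv.Perm.mem_alternatingGroup.2 (by
        rw [_root_.map_mul, _root_.map_inv, hsg, hsig0, mul_inv_cancel]))
        (fun i => (d₀ (σ₀⁻¹ i))⁻¹ * d (σ₀⁻¹ i)) (by
          rw [Finset.prod_mul_distrib, prod_comp_inv hd₀, Equiv.prod_comp σ₀⁻¹ d, hd, one_mul])
      refine ⟨(l * T) ^ 3 * g, hreal0.mul (F.real_of_mem hg), ?_⟩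
      have hmul := hmono.mul (T' := g) hgv
      intro v i
      rw [hmul v i]
      simp only [inv_mul_cancel_right, Equiv.Perm.inv_def, Equiv.symm_apply_apply]
      rw [← mul_assoc, mul_inv_cancel₀ (hmono.ne_zero i), one_mul]
      simp
  -- a conjugate of the central involution over a vector of full weight
  obtain ⟨g0, ⟨hq0, hgQ⟩, hgne⟩ := hF.1.2.2.2.2
  have hc0 := F.conjFacts hP hQM hidx hF hgQ (g := g0) rfl hgne
  obtain ⟨a, b, -, -, hca, -, hb0, hbi, -, -, hcov, hbfull, -⟩ := F.cover.exists_orbits_frame hψ hm F.cardL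
  set s0 : Cz z := ⟨g0 * z * g0⁻¹, hq0⟩
  have hz1 : z ≠ 1 := fun e => by
    have := hF.1.1
    rw [e, orderOf_one] at this
    norm_num at this
  have hs00 : π s0 ≠ 0 := F.ne_zero_of hgQ (fun e => hz1 (conj_eq_one_iff.1 e)) hgne
  have hs0i : h (π s0) (π s0) = 0 := (F.sq s0 hgQ).2 (Subtype.ext (by
    show g0 * z * g0⁻¹ * (g0 * z * g0⁻¹) = 1
    have hzz : z * z = 1 := by rw [← pow_two, ← hF.1.1, pow_orderOf_eq_one]
    rw [show g0 * z * g0⁻¹ * (g0 * z * g0⁻¹) = g0 * (z * z) * g0⁻¹ by group, hzz]; group))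
  have hs0b : b ∈ orb L (π s0) := by
    rcases hcov _ hs00 hs0i with hm' | hm'
    · have := hc0.orbit
      rw [orb_eq_of_mem hm', hca] at this
      norm_num at this
    · rw [orb_eq_of_mem hm']; exact orb_refl b
  obtain ⟨s, hs, rfl⟩ := F.surj b
  obtain ⟨c', hc'⟩ := F.exists_conj hgQ hs hb0 hs0b
  have hsG : ((c' : G) * g0) * z * ((c' : G) * g0)⁻¹ = (s : G) := by
    rw [← hc']; show _ = (c' : G) * (g0 * z * g0⁻¹) * (c' : G)⁻¹; group
  have hsne : (s : G) ≠ z := fun e => hb0 ((F.ker s hs).2 (Or.inr e))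
  obtain ⟨hn, ⟨eq⟩⟩ := (F.conjFacts hP hQM hidx hF hs hsG hsne).quot
  have hfacts := F.conjFacts hP hQM hidx hF hs hsG hsne
  -- the symmetric group fixing the vector
  have hκ : ∀ σ : Equiv.Perm (Fin 6), ∃ x : xIm Q (s : G), ∃ c : Cz z, QuotientGroup.mk' Q c = (x : Cz z ⧸ Q) ∧
      ∀ a ∈ Q, ∀ i, ψ (π (c * a * c⁻¹)) i =
        ψ (π s) i * (ψ (π s) (σ⁻¹ i))⁻¹ * ψ (π a) (σ⁻¹ i) := by
    intro σ
    obtain ⟨g, ⟨c, hc⟩, hg⟩ := hall σ⁻¹ (fun i => ψ (π s) i * (ψ (π s) (σ⁻¹ i))⁻¹) (by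
      rw [Finset.prod_mul_distrib, Finset.prod_inv_distrib, Equiv.prod_comp,
        mul_inv_cancel₀ (Finset.prod_ne_zero_iff.2 fun i _ => hbfull i)])
    have hact : ∀ a ∈ Q, ∀ i, ψ (π (c * a * c⁻¹)) i =
        ψ (π s) i * (ψ (π s) (σ⁻¹ i))⁻¹ * ψ (π a) (σ⁻¹ i) := fun a ha i => by rw [hc a ha]; exact hg _ i
    have hfix : π (c * s * c⁻¹) = π s := ψ.injective (funext fun i => by
      rw [hact s hs, mul_assoc, inv_mul_cancel₀ (hbfull _), mul_one])
    rcases F.fiber hs (hQn.conj_mem s hs c) hfix.symm with e | e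
    · exact ⟨⟨_, c, Subgroup.mem_subgroupOf.2 ⟨c.2, Subgroup.mem_centralizer_singleton_iff.2
        (congrArg Subtype.val (mul_inv_eq_iff_eq_mul.1 e))⟩, rfl⟩, c, rfl, hact⟩
    · obtain ⟨q, hq, hqe⟩ := F.exists_swap hs hb0
      have e2 : c * s * c⁻¹ = q * s * q⁻¹ := Subtype.ext (e.trans hqe.symm)
      have e3 : (q⁻¹ * c) * s = s * (q⁻¹ * c) := by
        calc q⁻¹ * c * s = q⁻¹ * (c * s * c⁻¹) * c := by group
          _ = s * (q⁻¹ * c) := by rw [e2]; group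
      refine ⟨⟨_, q⁻¹ * c, Subgroup.mem_subgroupOf.2 ⟨(q⁻¹ * c).2, Subgroup.mem_centralizer_singleton_iff.2
        (congrArg Subtype.val e3)⟩, rfl⟩, q⁻¹ * c, rfl, fun a ha i => ?_⟩
      rw [show q⁻¹ * c * a * (q⁻¹ * c)⁻¹ = q⁻¹ * (c * a * c⁻¹) * q⁻¹⁻¹ by group,
        F.map_conj_eq (inv_mem hq) (hQn.conj_mem a ha c)]
      exact hact a ha i
  choose x cc hxc hcc using hκ
  let κ : Equiv.Perm (Fin 6) →* xIm Q (s : G) := MonoidHom.mk' x fun σ τ => Subtype.ext (by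
    show ((x (σ * τ) : _) : Cz z ⧸ Q) = (x σ : Cz z ⧸ Q) * x τ
    rw [← hxc, ← hxc, ← hxc, ← _root_.map_mul]
    refine F.mk_eq fun a ha => ψ.injective (funext fun i => ?_)
    rw [hcc _ a ha, show cc σ * cc τ * a * (cc σ * cc τ)⁻¹ = cc σ * (cc τ * a * (cc τ)⁻¹) * (cc σ)⁻¹ by group,
      hcc _ _ (hQn.conj_mem a ha _), hcc _ a ha, mul_inv_rev, Equiv.Perm.mul_apply]
    have h0 := hbfull ((σ⁻¹ : Equiv.Perm (Fin 6)) i)
    field_simp)
  have hκinj : Function.Injective κ := fun σ τ e => by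
    by_contra hne
    obtain ⟨i, hi⟩ : ∃ i, (σ⁻¹ : Equiv.Perm (Fin 6)) i ≠ (τ⁻¹ : Equiv.Perm (Fin 6)) i := by
      by_contra hno
      push Not at hno
      exact hne (inv_injective (Equiv.ext hno))
    obtain ⟨a, ha, hav⟩ := F.surj (ψ.symm (Pi.single ((σ⁻¹ : Equiv.Perm (Fin 6)) i) 1))
    have e1 : QuotientGroup.mk' Q (cc σ) = QuotientGroup.mk' Q (cc τ) := by
      rw [hxc, hxc]; exact congrArg Subtype.val e
    have hd : (cc σ)⁻¹ * cc τ ∈ Q := (QuotientGroup.eq).1 e1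
    have h1 : π (cc τ * a * (cc τ)⁻¹) = π (cc σ * a * (cc σ)⁻¹) := by
      obtain ⟨e', he', -⟩ := F.semi (cc σ)
      rw [show cc τ * a * (cc τ)⁻¹ = cc σ * (((cc σ)⁻¹ * cc τ) * a * ((cc σ)⁻¹ * cc τ)⁻¹) * (cc σ)⁻¹ by group,
        he' _ (hQn.conj_mem a ha _), F.map_conj_eq hd ha, ← he' a ha]
    have h2 := congrFun (congrArg ψ h1) i
    rw [hcc _ a ha, hcc _ a ha, hav, LinearEquiv.apply_symm_apply, Pi.single_eq_same, mul_one,
      Pi.single_eq_of_ne (Ne.symm hi), mul_zero] at h2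
    exact mul_ne_zero (hbfull i) (inv_ne_zero (hbfull _)) h2.symm
  let q : Equiv.Perm (Fin 6) →* _ := (QuotientGroup.mk' ((eIm Q ((c' : G) * g0)).subgroupOf (xIm Q (s : G)))).comp κ
  have hker : q.ker = ⊥ := eq_bot_of_normal_elementary _ fun k hk => hκinj (by
    have hkE : κ k ∈ (eIm Q ((c' : G) * g0)).subgroupOf (xIm Q (s : G)) :=
      (QuotientGroup.eq_one_iff _).1 (MonoidHom.mem_ker.1 hk)
    rw [_root_.map_mul, _root_.map_one]
    exact Subtype.ext (hfacts.sq _ (Subgroup.mem_subgroupOf.1 hkE)))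
  have := Nat.card_le_card_of_injective _ ((MonoidHom.ker_eq_bot_iff q).1 hker)
  rw [Nat.card_congr eq.toEquiv, nat_card_alternatingGroup, Nat.card_perm, Nat.card_fin] at this
  norm_num [Nat.factorial] at this

/-- Elements outside `M` act semilinearly. -/
theorem Frame.semilinear [hMn : M.Normal] (hP : Para E S) (hQM : Q ≤ M) (hidx : M.index = 2)
    (hF : IsOfLargeFischerTypeAt z Q) {c : Cz z} (hc : c ∉ M) :
    ∃ e : V ≃+ V, (∀ a ∈ Q, π (c * a * c⁻¹) = e (π a)) ∧ ∀ (k : K4) v, e (k • v) = K4.conj k • e v := by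
  obtain ⟨e, he, hlin | hsemi⟩ := F.semi c
  · exact (F.not_real_of_not_mem hP hQM hidx hF hc
      { e with map_smul' := hlin } he).elim
  · exact ⟨e, he, hsemi⟩

end CfsgLib.FischerLarge
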