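import Cfsg.Prelude.Def_Classical
import Cfsg.Agent.Lib.ClassicalForms.Unitary.Center
import Cfsg.Agent.Lib.PSLKleinAut.Basic
import Cfsg.Agent.Lib.ClassicalLinear.Card

/-!
FischerLarge: the parabolic subgroup `3^4 : A_6` of `PSU_4(3)`.
-/

set_option autoImplicit false
set_option linter.style.haveILetI false
set_option linter.unusedSectionVars false

namespace CfsgLib.FischerLarge.Parabolic

open scoped Matrix
open CfsgLib.ClassicalForms

variable {K : Type} [Field K]

/-- Matrices in two halves. -/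
abbrev M4 (K : Type) := Matrix (Fin 2 ⊕ Fin 2) (Fin 2 ⊕ Fin 2) K

/-- The halves. -/
abbrev half : Fin 2 ⊕ Fin 2 ≃ Fin 4 := finSumFinEquiv

/-- A hyperbolic basis. -/
def hypT (a : K) : M4 K := Matrix.fromBlocks 1 1 (a • 1) ((-a) • 1)

/-- Its inverse. -/
def hypTinv (a : K) : M4 K := Matrix.fromBlocks (-1) ((-a⁻¹) • 1) (-1) (a⁻¹ • 1)

/-- The exchange of the halves. -/
def swapJ : M4 K := Matrix.fromBlocks 0 1 1 0

variable (c : Conj K 3) {a : K} (ha : a ^ 4 = -1) (h3 : (3 : K) = 0)

include ha in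
theorem a_ne : a ≠ 0 := fun h => by rw [h] at ha; norm_num at ha

include ha h3 in
theorem hypT_mul : hypT a * hypTinv a = 1 := by
  have h0 := a_ne ha
  rw [hypT, hypTinv, Matrix.fromBlocks_multiply, ← Matrix.fromBlocks_one]
  congr 1 <;> ext i j <;> by_cases h : i = j <;>
    simp [Matrix.smul_apply, Matrix.one_apply, h, h0] <;>
    first
    | linear_combination h3
    | linear_combination -h3

include ha h3 in
theorem hypTinv_mul : hypTinv a * hypT a = 1 := mul_eq_one_comm.1 (hypT_mul ha h3)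

include ha h3 in
theorem hypT_gram : (hypT a)ᵀ * (hypT a).map c.σ = -swapJ := by
  have hn : a * c.σ a = -1 := by rw [c.mul_conj]; exact ha
  rw [hypT, swapJ, Matrix.fromBlocks_map, Matrix.fromBlocks_transpose, Matrix.fromBlocks_multiply,
    Matrix.fromBlocks_neg]
  congr 1 <;> ext i j <;> by_cases h : i = j <;>
    simp [Matrix.smul_apply, Matrix.one_apply, h, Ne.symm, map_neg] <;>
    first
    | linear_combination hn
    | linear_combination -hn
    | linear_combination h3 - hn
    | linear_combination h3 + hn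

/-- Block matrices that preserve the exchange form. -/
def IsBlockIso (X : M4 K) : Prop := Xᵀ * swapJ * X.map c.σ = swapJ ∧ X.det = 1

include ha h3 in
theorem iso_conj {X : M4 K} (hX : IsBlockIso c X) :
    (hypT a * X * hypTinv a)ᵀ * (hypT a * X * hypTinv a).map c.σ = 1 ∧
      (hypT a * X * hypTinv a).det = 1 := by
  refine ⟨?_, ?_⟩
  · have hTi : (hypTinv a)ᵀ * (-swapJ) * (hypTinv a).map c.σ = 1 := by
      rw [← hypT_gram c ha h3, ← mul_assoc, ← Matrix.transpose_mul, mul_assoc, ← Matrix.map_mul,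
        hypT_mul ha h3, Matrix.transpose_one, one_mul, Matrix.map_one _ (map_zero c.σ) (map_one c.σ)]
    rw [Matrix.map_mul, Matrix.map_mul, Matrix.transpose_mul, Matrix.transpose_mul]
    calc (hypTinv a)ᵀ * (Xᵀ * (hypT a)ᵀ) * ((hypT a).map c.σ * X.map c.σ * (hypTinv a).map c.σ)
        = (hypTinv a)ᵀ * (Xᵀ * ((hypT a)ᵀ * (hypT a).map c.σ) * X.map c.σ) *
            (hypTinv a).map c.σ := by simp only [mul_assoc]
      _ = 1 := by
        rw [hypT_gram c ha h3, Matrix.mul_neg, Matrix.neg_mul, hX.1, hTi]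
  · rw [Matrix.det_mul, Matrix.det_mul, hX.2, mul_one, ← Matrix.det_mul, hypT_mul ha h3,
      Matrix.det_one]

/-- An isometric matrix as an element of the special unitary group. -/
noncomputable def toSU (M : M4 K) (hiso : Mᵀ * M.map c.σ = 1) (hdet : M.det = 1) :
    Cfsg.SU 4 K 3 :=
  ⟨⟨Matrix.reindex half half M, by rw [Matrix.det_reindex_self, hdet]⟩, fun u v => by
    show Cfsg.hermForm 4 K 3 (Matrix.reindex half half M *ᵥ u) (Matrix.reindex half half M *ᵥ v) = _
    set R := Matrix.reindex half half M with hR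
    have hR' : Rᵀ * R.map c.σ = 1 := by
      rw [hR, Matrix.reindex_apply, Matrix.transpose_submatrix, ← Matrix.submatrix_map,
        Matrix.submatrix_mul_equiv, hiso, Matrix.submatrix_one_equiv]
    have hmap : c.σ ∘ (R *ᵥ v) = R.map c.σ *ᵥ (c.σ ∘ v) := by
      funext i; exact RingHom.map_mulVec c.σ R v i
    rw [c.herm_apply, c.herm_apply]
    show (R *ᵥ u) ⬝ᵥ (c.σ ∘ (R *ᵥ v)) = u ⬝ᵥ (c.σ ∘ v)
    rw [hmap, Matrix.dotProduct_mulVec, ← Matrix.mulVec_transpose, Matrix.mulVec_mulVec]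
    have : (R.map c.σ)ᵀ * R = 1 := by
      have := congrArg Matrix.transpose hR'
      rwa [Matrix.transpose_mul, Matrix.transpose_transpose, Matrix.transpose_one] at this
    rw [this, Matrix.one_mulVec]⟩

/-- The element attached to a block matrix. -/
noncomputable def blockElt (X : M4 K) (hX : IsBlockIso c X) : Cfsg.SU 4 K 3 :=
  toSU c (hypT a * X * hypTinv a) (iso_conj c ha h3 hX).1 (iso_conj c ha h3 hX).2

theorem blockElt_val (X : M4 K) (hX : IsBlockIso c X) :
    ((blockElt c ha h3 X hX).1 : Matrix (Fin 4) (Fin 4) K) =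
      Matrix.reindex half half (hypT a * X * hypTinv a) := rfl

include ha h3 in
theorem blockElt_mul {X Y Z : M4 K} (hX : IsBlockIso c X) (hY : IsBlockIso c Y)
    (hZ : IsBlockIso c Z) (h : X * Y = Z) :
    blockElt c ha h3 X hX * blockElt c ha h3 Y hY = blockElt c ha h3 Z hZ := by
  apply Subtype.ext
  apply Subtype.ext
  show ((blockElt c ha h3 X hX).1 : Matrix (Fin 4) (Fin 4) K) *
    ((blockElt c ha h3 Y hY).1 : Matrix (Fin 4) (Fin 4) K) = _
  rw [blockElt_val, blockElt_val, blockElt_val, Matrix.reindex_apply, Matrix.reindex_apply,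
    Matrix.reindex_apply, Matrix.submatrix_mul_equiv]
  congr 1
  calc hypT a * X * hypTinv a * (hypT a * Y * hypTinv a)
      = hypT a * X * (hypTinv a * hypT a) * Y * hypTinv a := by simp only [mul_assoc]
    _ = hypT a * Z * hypTinv a := by rw [hypTinv_mul ha h3, mul_one, ← h]; simp only [mul_assoc]

/-- Skew-hermitian two by two matrices. -/
def skew : AddSubgroup (Matrix (Fin 2) (Fin 2) K) where
  carrier := {B | B.map c.σ = -Bᵀ}
  zero_mem' := by
    show (0 : Matrix (Fin 2) (Fin 2) K).map c.σ = _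
    simp
  add_mem' {A B} hA hB := by
    show (A + B).map c.σ = _
    rw [Matrix.map_add _ (map_add c.σ), hA, hB, Matrix.transpose_add, neg_add]
  neg_mem' {A} hA := by
    show (-A).map c.σ = _
    rw [show (-A).map c.σ = -(A.map c.σ) by ext i j; simp, hA, Matrix.transpose_neg]

theorem uBlock_iso {B : Matrix (Fin 2) (Fin 2) K} (hB : B ∈ skew c) :
    IsBlockIso c (Matrix.fromBlocks 1 B 0 1) := by
  refine ⟨?_, by rw [Matrix.det_fromBlocks_zero₂₁, Matrix.det_one, one_mul]⟩
  have hB' : B.map c.σ = -Bᵀ := hB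
  rw [swapJ, Matrix.fromBlocks_transpose, Matrix.fromBlocks_map, Matrix.fromBlocks_multiply,
    Matrix.fromBlocks_multiply]
  simp [hB']

/-- The dual of an element of the special linear group. -/
noncomputable def dualBlock (g : Matrix.SpecialLinearGroup (Fin 2) K) : Matrix (Fin 2) (Fin 2) K :=
  (((g : Matrix (Fin 2) (Fin 2) K).map c.σ)ᵀ)⁻¹

theorem det_map_transpose (g : Matrix.SpecialLinearGroup (Fin 2) K) :
    (((g : Matrix (Fin 2) (Fin 2) K).map c.σ)ᵀ).det = 1 := by
  rw [Matrix.det_transpose, ← RingHom.mapMatrix_apply, ← RingHom.map_det, g.2, map_one]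

theorem map_transpose_mul_dual (g : Matrix.SpecialLinearGroup (Fin 2) K) :
    ((g : Matrix (Fin 2) (Fin 2) K).map c.σ)ᵀ * dualBlock c g = 1 :=
  Matrix.mul_nonsing_inv _ (by rw [det_map_transpose c g]; exact isUnit_one)

theorem dual_mul_map_transpose (g : Matrix.SpecialLinearGroup (Fin 2) K) :
    dualBlock c g * ((g : Matrix (Fin 2) (Fin 2) K).map c.σ)ᵀ = 1 :=
  mul_eq_one_comm.1 (map_transpose_mul_dual c g)

theorem lBlock_iso (g : Matrix.SpecialLinearGroup (Fin 2) K) :
    IsBlockIso c (Matrix.fromBlocks (g : Matrix (Fin 2) (Fin 2) K) 0 0 (dualBlock c g)) := by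
  set h := dualBlock c g
  set m : Matrix (Fin 2) (Fin 2) K := (g : Matrix (Fin 2) (Fin 2) K) with hm
  have h1 : (m.map c.σ)ᵀ * h = 1 := map_transpose_mul_dual c g
  have h2 : hᵀ * m.map c.σ = 1 := by
    have := congrArg Matrix.transpose h1
    rwa [Matrix.transpose_mul, Matrix.transpose_transpose, Matrix.transpose_one] at this
  have h3 : mᵀ * h.map c.σ = 1 := by
    have := congrArg (fun X : Matrix (Fin 2) (Fin 2) K => X.map c.σ) h1
    rw [Matrix.map_mul, Matrix.map_one _ (map_zero c.σ) (map_one c.σ), Matrix.transpose_map,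
      Matrix.map_map, show (c.σ : K → K) ∘ c.σ = id from funext c.invol, Matrix.map_id] at this
    exact this
  refine ⟨?_, ?_⟩
  · rw [swapJ, Matrix.fromBlocks_transpose, Matrix.fromBlocks_map, Matrix.fromBlocks_multiply,
      Matrix.fromBlocks_multiply]
    simp [h2, h3]
  · rw [Matrix.det_fromBlocks_zero₂₁, show m.det = 1 from g.2, one_mul]
    show (((m.map c.σ)ᵀ)⁻¹).det = 1
    rw [Matrix.det_nonsing_inv, hm, det_map_transpose c g, Ring.inverse_one]

/-- The unipotent radical. -/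
noncomputable def uHom : Multiplicative (skew c) →* Cfsg.SU 4 K 3 :=
  MonoidHom.mk' (fun B => blockElt c ha h3 _ (uBlock_iso c (Multiplicative.toAdd B).2)) fun A B =>
    (blockElt_mul c ha h3 _ _ _ (by
      rw [Matrix.fromBlocks_multiply]
      simp [add_comm])).symm

/-- The Levi complement. -/
noncomputable def lHom : Matrix.SpecialLinearGroup (Fin 2) K →* Cfsg.SU 4 K 3 :=
  MonoidHom.mk' (fun g => blockElt c ha h3 _ (lBlock_iso c g)) fun g h =>
    (blockElt_mul c ha h3 _ _ _ (by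
      rw [Matrix.fromBlocks_multiply]
      simp only [Matrix.mul_zero, Matrix.zero_mul, add_zero, zero_add,
        Matrix.SpecialLinearGroup.coe_mul]
      congr 1
      simp only [dualBlock, Matrix.SpecialLinearGroup.coe_mul, Matrix.map_mul, Matrix.transpose_mul,
        Matrix.mul_inv_rev])).symm

theorem act_mem (g : Matrix.SpecialLinearGroup (Fin 2) K) {B : Matrix (Fin 2) (Fin 2) K}
    (hB : B ∈ skew c) :
    (g : Matrix (Fin 2) (Fin 2) K) * B * ((g : Matrix (Fin 2) (Fin 2) K).map c.σ)ᵀ ∈ skew c := by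
  have hB' : B.map c.σ = -Bᵀ := hB
  show ((g : Matrix (Fin 2) (Fin 2) K) * B * _).map c.σ = _
  rw [Matrix.map_mul, Matrix.map_mul, hB', Matrix.transpose_map, Matrix.map_map,
    show (c.σ : K → K) ∘ c.σ = id from funext c.invol, Matrix.map_id, Matrix.transpose_mul,
    Matrix.transpose_mul, Matrix.transpose_transpose]
  simp [mul_assoc]

include ha h3 in
theorem lHom_uHom (g : Matrix.SpecialLinearGroup (Fin 2) K) (B : skew c) :
    lHom c ha h3 g * uHom c ha h3 (Multiplicative.ofAdd B) =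
      uHom c ha h3 (Multiplicative.ofAdd ⟨_, act_mem c g B.2⟩) * lHom c ha h3 g := by
  set m : Matrix (Fin 2) (Fin 2) K := (g : Matrix (Fin 2) (Fin 2) K)
  have hb : Matrix.fromBlocks m 0 0 (dualBlock c g) * Matrix.fromBlocks 1 (B : Matrix (Fin 2) (Fin 2) K) 0 1 =
      Matrix.fromBlocks m (m * (B : Matrix (Fin 2) (Fin 2) K)) 0 (dualBlock c g) := by
    rw [Matrix.fromBlocks_multiply]; simp
  have hb2 : Matrix.fromBlocks 1 (m * (B : Matrix (Fin 2) (Fin 2) K) * (m.map c.σ)ᵀ) 0 1 *
      Matrix.fromBlocks m 0 0 (dualBlock c g) =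
      Matrix.fromBlocks m (m * (B : Matrix (Fin 2) (Fin 2) K)) 0 (dualBlock c g) := by
    rw [Matrix.fromBlocks_multiply]
    simp [mul_assoc, map_transpose_mul_dual c g, m]
  have hiso : IsBlockIso c (Matrix.fromBlocks m (m * (B : Matrix (Fin 2) (Fin 2) K)) 0 (dualBlock c g)) := by
    obtain ⟨i1, d1⟩ := lBlock_iso c g
    obtain ⟨i2, d2⟩ := uBlock_iso c B.2
    rw [← hb]
    refine ⟨?_, by rw [Matrix.det_mul, d1, d2, one_mul]⟩
    rw [Matrix.transpose_mul, Matrix.map_mul]
    calc _ = (Matrix.fromBlocks 1 (B : Matrix (Fin 2) (Fin 2) K) 0 1)ᵀ *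
          ((Matrix.fromBlocks m 0 0 (dualBlock c g))ᵀ * swapJ *
            (Matrix.fromBlocks m 0 0 (dualBlock c g)).map c.σ) *
          (Matrix.fromBlocks 1 (B : Matrix (Fin 2) (Fin 2) K) 0 1).map c.σ := by simp only [mul_assoc, m]
      _ = swapJ := by rw [i1, i2]
  exact (blockElt_mul c ha h3 (lBlock_iso c g) (uBlock_iso c B.2) hiso hb).trans
    (blockElt_mul c ha h3 (uBlock_iso c (act_mem c g B.2)) (lBlock_iso c g) hiso hb2).symm

include ha h3 in
theorem uHom_injective : Function.Injective (uHom c ha h3) := by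
  intro A B h
  have h' := congrArg (fun s : Cfsg.SU 4 K 3 => (Matrix.reindex half half).symm
    (s.1 : Matrix (Fin 4) (Fin 4) K)) h
  simp only [uHom, MonoidHom.mk'_apply, blockElt_val, Equiv.symm_apply_apply] at h'
  have h'' := congrArg (fun X => hypTinv a * X * hypT a) h'
  simp only [← mul_assoc, hypTinv_mul ha h3, one_mul] at h''
  simp only [mul_assoc, hypTinv_mul ha h3, mul_one] at h''
  apply Multiplicative.toAdd.injective
  apply Subtype.ext
  ext i j
  exact congrFun (congrFun h'' (Sum.inl i)) (Sum.inr j)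

theorem scalar_central (g : Cfsg.SU 4 K 3) (l : K)
    (hg : (g.1 : Matrix (Fin 4) (Fin 4) K) = l • 1) : g ∈ Subgroup.center (Cfsg.SU 4 K 3) := by
  rw [Subgroup.mem_center_iff]
  intro h
  apply Subtype.ext
  apply Subtype.ext
  show (h.1 : Matrix (Fin 4) (Fin 4) K) * (g.1 : Matrix (Fin 4) (Fin 4) K) =
    (g.1 : Matrix (Fin 4) (Fin 4) K) * (h.1 : Matrix (Fin 4) (Fin 4) K)
  rw [hg]; simp

section Package

variable [Fintype K]

include ha in
theorem sigma_sq_a : c.σ (a ^ 2) = -(a ^ 2) := by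
  rw [c.apply, ← pow_mul, show 2 * 3 = 4 + 2 from rfl, pow_add, ha, neg_one_mul]

include h3 in
theorem two_ne : (2 : K) ≠ 0 := fun h => one_ne_zero (α := K) (by linear_combination h3 - h)

include ha h3 in
theorem fixed_of_anti (x : K) (hx : c.σ x = -x) : x = 0 ∨ x = a ^ 2 ∨ x = -(a ^ 2) := by
  rw [c.apply] at hx
  have h : x * (x - a ^ 2) * (x + a ^ 2) = 0 := by linear_combination hx - x * ha
  rcases mul_eq_zero.1 h with h | h
  · rcases mul_eq_zero.1 h with h | h
    · exact Or.inl h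
    · exact Or.inr (Or.inl (sub_eq_zero.1 h))
  · exact Or.inr (Or.inr (eq_neg_of_add_eq_zero_left h))

include ha h3 in
theorem card_skew (hK : Fintype.card K = 9) : Nat.card (skew c) = 81 := by
  classical
  have h0 := a_ne ha
  have h2 : (2 : K) ≠ 0 := two_ne h3
  let v : Fin 3 → K := ![0, a ^ 2, -(a ^ 2)]
  have hv : ∀ i, c.σ (v i) = -v i := by
    intro i
    fin_cases i <;> simp [v, -map_pow, sigma_sq_a c ha]
  have hvi : Function.Injective v := by
    have e1 : a ^ 2 ≠ -(a ^ 2) := fun e => h2 (mul_right_cancel₀ (pow_ne_zero 2 h0)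
      (show (2 : K) * a ^ 2 = 0 * a ^ 2 by linear_combination e))
    intro i j h
    fin_cases i <;> fin_cases j <;> simp [v, h0, e1, e1.symm, (pow_ne_zero 2 h0).symm] at h ⊢
  let f : Fin 3 × Fin 3 × K → skew c := fun p =>
    ⟨!![v p.1, p.2.2; -c.σ p.2.2, v p.2.1], by
      show (!![v p.1, p.2.2; -c.σ p.2.2, v p.2.1]).map c.σ = _
      ext i j
      fin_cases i <;> fin_cases j <;> simp [hv, c.invol]⟩
  have hf : Function.Bijective f := by
    constructor
    · rintro ⟨i, j, x⟩ ⟨i', j', x'⟩ h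
      have h' := congrArg (fun B : skew c => (B : Matrix (Fin 2) (Fin 2) K)) h
      have e1 := congrFun (congrFun h' 0) 0
      have e2 := congrFun (congrFun h' 1) 1
      have e3 := congrFun (congrFun h' 0) 1
      simp [f] at e1 e2 e3
      rw [hvi e1, hvi e2, e3]
    · rintro ⟨B, hB⟩
      have hB' : B.map c.σ = -Bᵀ := hB
      have g : ∀ i j, c.σ (B i j) = -B j i := fun i j => by
        have := congrFun (congrFun hB' i) j
        simpa using this
      have hpick : ∀ x, c.σ x = -x → ∃ i, v i = x := fun x hx => by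
        rcases fixed_of_anti c ha h3 x hx with e | e | e
        · exact ⟨0, e.symm⟩
        · exact ⟨1, e.symm⟩
        · exact ⟨2, e.symm⟩
      obtain ⟨i, hi⟩ := hpick _ (g 0 0)
      obtain ⟨j, hj⟩ := hpick _ (g 1 1)
      refine ⟨(i, j, B 0 1), Subtype.ext ?_⟩
      ext p q
      fin_cases p <;> fin_cases q <;> simp [f, hi, hj, g]
  rw [← Nat.card_congr (Equiv.ofBijective f hf), Nat.card_prod, Nat.card_prod, Nat.card_fin,
    Nat.card_eq_fintype_card, hK]

open CfsgLib.PSLKleinAut in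
include c ha h3 in
theorem exists_parabolic_aux (hK : Fintype.card K = 9) :
    ∃ E S : Subgroup (Cfsg.PSU 4 K 3), Nat.card E = 81 ∧ (∀ x ∈ E, ∀ y ∈ E, x * y = y * x) ∧
      (∀ x ∈ E, x ^ 3 = 1) ∧ Nat.card S = 360 ∧ IsSimpleGroup S ∧
      (∀ s ∈ S, ∀ e ∈ E, s * e * s⁻¹ ∈ E) ∧ ∃ s ∈ S, ∃ e ∈ E, s * e ≠ e * s := by
  have hcard := card_skew c ha h3 hK
  haveI : Finite (skew c) := inferInstance
  set Z := Subgroup.center (Cfsg.SU 4 K 3)
  set π := QuotientGroup.mk' Z with hπ
  set U := uHom c ha h3 with hU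
  set L := lHom c ha h3 with hL
  have hZ : Nat.card Z = 4 := by
    have hF : Nat.card K = 3 ^ 2 := by rw [Nat.card_eq_fintype_card, hK]; norm_num
    have := CfsgLib.ClassicalForms.card_center_su (n := 4) hF (by norm_num)
    norm_num at this
    exact this
  have hU3 : ∀ B, U B ^ 3 = 1 := fun B => by
    rw [← map_pow]
    convert map_one U
    apply Multiplicative.toAdd.injective
    rw [toAdd_pow, toAdd_one]
    apply Subtype.ext
    ext i j
    simp only [AddSubgroup.coe_nsmul, Matrix.smul_apply, ZeroMemClass.coe_zero, Matrix.zero_apply]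
    rw [nsmul_eq_mul, Nat.cast_ofNat, h3, zero_mul]
  have hUi : Function.Injective (π.comp U) := by
    rw [injective_iff_map_eq_one]
    intro B hB
    have hz : U B ∈ Z := (QuotientGroup.eq_one_iff _).1 hB
    have h4 : U B ^ 4 = 1 := by
      have : (⟨U B, hz⟩ : Z) ^ Nat.card Z = 1 := pow_card_eq_one'
      rw [hZ] at this
      exact congrArg Subtype.val this
    have h1 : U B = 1 := by
      rw [pow_succ, hU3, one_mul] at h4; exact h4
    exact uHom_injective c ha h3 (h1.trans (map_one U).symm)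
  have hLc : ∀ g ∈ Subgroup.center (Matrix.SpecialLinearGroup (Fin 2) K), L g ∈ Z := by
    intro g hg
    obtain ⟨r, hr, hg'⟩ := Matrix.SpecialLinearGroup.mem_center_iff.1 hg
    have hr2 : r * r = 1 := by simpa [pow_two] using hr
    have hσ : c.σ r = r := by
      rw [c.apply, pow_succ, pow_two, hr2, one_mul]
    have hgm : (g : Matrix (Fin 2) (Fin 2) K) = r • 1 := by
      rw [← hg', Matrix.scalar_apply, Matrix.smul_one_eq_diagonal]
    have hd : dualBlock c g = r • 1 := by
      rw [dualBlock, hgm]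
      apply Matrix.inv_eq_right_inv
      rw [show ((r • (1 : Matrix (Fin 2) (Fin 2) K)).map c.σ) = r • 1 by
        ext i j; by_cases h : i = j <;> simp [h, hσ]]
      simp [smul_smul, hr2]
    refine scalar_central (L g) r ?_
    show Matrix.reindex half half (hypT a * Matrix.fromBlocks (g : Matrix (Fin 2) (Fin 2) K) 0 0
      (dualBlock c g) * hypTinv a) = r • 1
    rw [hd, hgm, show Matrix.fromBlocks (r • (1 : Matrix (Fin 2) (Fin 2) K)) 0 0
        (r • (1 : Matrix (Fin 2) (Fin 2) K)) = r • 1 by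
      rw [← Matrix.fromBlocks_one, Matrix.fromBlocks_smul, smul_zero]]
    rw [Matrix.mul_smul, mul_one, Matrix.smul_mul, hypT_mul ha h3]
    ext i j
    simp [Matrix.one_apply]
  let φ : Matrix.ProjectiveSpecialLinearGroup (Fin 2) K →* Cfsg.PSU 4 K 3 :=
    QuotientGroup.lift _ (π.comp L) fun g hg => (QuotientGroup.eq_one_iff _).2 (hLc g hg)
  haveI : IsSimpleGroup (Matrix.ProjectiveSpecialLinearGroup (Fin 2) K) :=
    isSimpleGroup_psl2 (F := K) (by rw [hK]; norm_num)
  let E := (π.comp U).range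
  let S := φ.range
  let g₀ : Matrix.SpecialLinearGroup (Fin 2) K := ⟨!![1, 1; 0, 1], by simp [Matrix.det_fin_two]⟩
  let B₀ : skew c := ⟨!![0, 0; 0, a ^ 2], by
    show (!![0, 0; 0, a ^ 2]).map c.σ = _
    ext i j
    fin_cases i <;> fin_cases j <;> simp [-map_pow, sigma_sq_a c ha]⟩
  have hne : ¬ Commute (π (L g₀)) (π (U (Multiplicative.ofAdd B₀))) := fun h => by
    have e := congrArg π (lHom_uHom c ha h3 g₀ B₀)
    rw [map_mul, map_mul, h.eq] at e
    have e' := hUi (mul_right_cancel e)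
    have e00 := congrArg (fun B : Multiplicative (skew c) =>
      ((Multiplicative.toAdd B : skew c) : Matrix (Fin 2) (Fin 2) K) 0 1) e'
    simp [g₀, B₀, Matrix.mul_apply, Matrix.vecMul, dotProduct, Fin.sum_univ_two, a_ne ha,
      (pow_ne_zero 2 (a_ne ha)).symm] at e00
  have hS : Function.Injective φ := by
    rw [← MonoidHom.ker_eq_bot_iff]
    rcases (MonoidHom.normal_ker φ).eq_bot_or_eq_top with h | h
    · exact h
    · refine absurd ?_ hne
      have : φ (QuotientGroup.mk g₀) = 1 := MonoidHom.mem_ker.1 (h ▸ Subgroup.mem_top _)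
      show Commute (π (L g₀)) _
      rw [show π (L g₀) = 1 from this]
      exact Commute.one_left _
  refine ⟨E, S, ?_, ?_, ?_, ?_, ?_, ?_, π (L g₀), ⟨QuotientGroup.mk g₀, rfl⟩,
    π (U (Multiplicative.ofAdd B₀)), ⟨_, rfl⟩, hne⟩
  · rw [← Nat.card_congr (MonoidHom.ofInjective hUi).toEquiv,
      Nat.card_congr Multiplicative.toAdd, hcard]
  · rintro _ ⟨x, rfl⟩ _ ⟨y, rfl⟩
    rw [← map_mul, mul_comm, map_mul]
  · rintro _ ⟨x, rfl⟩
    rw [MonoidHom.comp_apply, ← map_pow, hU3, map_one]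
  · have h9 := CfsgLib.ClassicalLinear.card_PSL_two_of_odd hK (by decide)
    rw [← Nat.card_congr (MonoidHom.ofInjective hS).toEquiv]
    omega
  · haveI : Nontrivial S := (MonoidHom.ofInjective hS).toEquiv.symm.nontrivial
    exact IsSimpleGroup.isSimpleGroup_of_surjective (MonoidHom.ofInjective hS).toMonoidHom
      (MonoidHom.ofInjective hS).surjective
  · rintro _ ⟨g, rfl⟩ _ ⟨B, rfl⟩
    obtain ⟨g, rfl⟩ := QuotientGroup.mk_surjective g
    refine ⟨Multiplicative.ofAdd ⟨_, act_mem c g (Multiplicative.toAdd B).2⟩, ?_⟩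
    have e := congrArg π (lHom_uHom c ha h3 g (Multiplicative.toAdd B))
    rw [map_mul, map_mul] at e
    show π (U _) = π (L g) * π (U B) * (π (L g))⁻¹
    rw [eq_mul_inv_iff_mul_eq]
    exact e.symm

end Package

/-- `PSU_4(3)` has a subgroup `3^4` normalised by a simple subgroup of order 360. -/
theorem exists_parabolic [Fintype K] (hK : Fintype.card K = 9) :
    ∃ E S : Subgroup (Cfsg.PSU 4 K 3), Nat.card E = 81 ∧ (∀ x ∈ E, ∀ y ∈ E, x * y = y * x) ∧
      (∀ x ∈ E, x ^ 3 = 1) ∧ Nat.card S = 360 ∧ IsSimpleGroup S ∧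
      (∀ s ∈ S, ∀ e ∈ E, s * e * s⁻¹ ∈ E) ∧ ∃ s ∈ S, ∃ e ∈ E, s * e ≠ e * s := by
  classical
  have hF : Nat.card K = 3 ^ 2 := by rw [Nat.card_eq_fintype_card, hK]; norm_num
  obtain ⟨c⟩ := exists_conj hF
  obtain ⟨g, hg⟩ := IsCyclic.exists_ofOrder_eq_natCard (α := Kˣ)
  rw [Nat.card_units, hF] at hg
  norm_num at hg
  have hne : g ^ 4 ≠ 1 := fun h => by
    have := orderOf_dvd_of_pow_eq_one h
    rw [hg] at this; norm_num at this
  have h8 : ((g : K) ^ 4) * (g : K) ^ 4 = 1 := by
    rw [← pow_add, ← Units.val_pow_eq_pow_val, show (4 + 4 : ℕ) = orderOf g by omega, pow_orderOf_eq_one,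
      Units.val_one]
  have ha : (g : K) ^ 4 = -1 := by
    rcases mul_self_eq_one_iff.1 h8 with h | h
    · exact absurd (Units.ext (by rw [Units.val_pow_eq_pow_val, h, Units.val_one])) hne
    · exact h
  have h3 : (3 : K) = 0 := by
    obtain ⟨p, hp⟩ := CharP.exists K
    obtain ⟨n, hpp, hn⟩ := FiniteField.card K p
    rw [hK] at hn
    have hp3 : p = 3 := by
      have : p ∣ 3 ^ 2 := by norm_num; exact hn ▸ dvd_pow_self p n.pos.ne'
      exact (Nat.prime_dvd_prime_iff_eq hpp Nat.prime_three).1 (hpp.dvd_of_dvd_pow this)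
    subst hp3
    exact_mod_cast CharP.cast_eq_zero K 3
  exact exists_parabolic_aux c ha h3 hK

end CfsgLib.FischerLarge.Parabolic
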