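import Cfsg.Prelude.Def_MonsterType
import Cfsg.Agent.Lib.FischerLarge.Orbits
import Cfsg.Agent.Lib.FischerLarge.ModuleBounds
import Cfsg.Agent.Lib.FischerLarge.UnitaryParabolic
import Cfsg.Agent.Lib.Fischer2.FittingSetting
import Cfsg.Agent.Lib.Cores.GenFitting
import Cfsg.Agent.Lib.Leech.UnitaryFour
import Cfsg.Agent.S0283

/-!
FischerLarge: the module `Q/Z(Q)` of a group of large Fischer type as a hermitian space over the
field with four elements.
-/

set_option autoImplicit false
set_option linter.style.haveILetI false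
set_option linter.unusedSectionVars false

namespace CfsgLib.FischerLarge

open scoped Classical
open Cfsg

universe u

variable {G : Type u} [Group G] {z : G}

/-- The centraliser of an element. -/
abbrev Cz (z : G) : Subgroup G := Subgroup.centralizer ({z} : Set G)

/-- The frame on `Q/Z(Q)`. -/
structure Frame {P : Type} [Group P] (Q M : Subgroup (Subgroup.centralizer ({z} : Set G))) {V : Type u}
    [AddCommGroup V] [Module K4 V] (L : Subgroup (V ≃ₗ[K4] V)) (f : L →* P) (h : V → V → K4)
    (π : Subgroup.centralizer ({z} : Set G) → V) : Prop where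
  cover : Cover L f h
  cardL : Nat.card L = 9797760
  map_mul : ∀ a ∈ Q, ∀ b ∈ Q, π (a * b) = π a + π b
  surj : ∀ v, ∃ a ∈ Q, π a = v
  ker : ∀ a ∈ Q, π a = 0 ↔ ((a : G) = 1 ∨ (a : G) = z)
  sq : ∀ a ∈ Q, h (π a) (π a) = 0 ↔ a * a = 1
  comm : ∀ a ∈ Q, ∀ b ∈ Q, a * b = b * a ↔ (h (π a) (π b)).b1 = false
  lift : ∀ m ∈ M, ∃ g ∈ L, ∀ a ∈ Q, π (m * a * m⁻¹) = g (π a)
  ofL : ∀ g ∈ L, ∃ m ∈ M, ∀ a ∈ Q, π (m * a * m⁻¹) = g (π a)
  faithful : ∀ c : Subgroup.centralizer ({z} : Set G), (∀ a ∈ Q, π (c * a * c⁻¹) = π a) → c ∈ Q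
  semi : ∀ c : Subgroup.centralizer ({z} : Set G), ∃ e : V ≃+ V, (∀ a ∈ Q, π (c * a * c⁻¹) = e (π a)) ∧
    ((∀ (k : K4) v, e (k • v) = k • e v) ∨ ∀ (k : K4) v, e (k • v) = K4.conj k • e v)

theorem exists_step {A : Type*} [Group A] {N Q : Subgroup A} [Q.Normal] [Finite A] (hQN : Q ≤ N)
    (hN : Nat.card N = 3 * Nat.card Q) {x : A} (hxN : x ∈ N) (hxQ : x ∉ Q) :
    ∀ n ∈ N, ∃ q ∈ Q, ∃ i : ℕ, i < 3 ∧ n = q * x ^ i := by
  set q := QuotientGroup.mk' Q
  have hidx : Nat.card (N.map q) = 3 := by
    have hk : (q.comp N.subtype).ker = Q.subgroupOf N := by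
      ext a
      rw [MonoidHom.mem_ker, Subgroup.mem_subgroupOf]
      exact QuotientGroup.eq_one_iff _
    have h1 := Subgroup.card_mul_index (q.comp N.subtype).ker
    rw [Subgroup.index_ker, MonoidHom.range_comp, Subgroup.range_subtype, hk,
      Nat.card_congr (Subgroup.subgroupOfEquivOfLe hQN).toEquiv, hN, mul_comm 3] at h1
    exact Nat.eq_of_mul_eq_mul_left Nat.card_pos h1
  haveI : Fact (Nat.Prime 3) := ⟨Nat.prime_three⟩
  have hx1 : (⟨q x, x, hxN, rfl⟩ : N.map q) ≠ 1 := fun h =>
    hxQ ((QuotientGroup.eq_one_iff x).1 (congrArg Subtype.val h))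
  have ho : orderOf (⟨q x, x, hxN, rfl⟩ : N.map q) = 3 := by
    have := orderOf_dvd_natCard (⟨q x, x, hxN, rfl⟩ : N.map q)
    rw [hidx] at this
    rcases (Nat.dvd_prime Nat.prime_three).1 this with h | h
    · exact absurd (orderOf_eq_one_iff.1 h) hx1
    · exact h
  intro n hn
  have hmem : (⟨q n, n, hn, rfl⟩ : N.map q) ∈ Subgroup.zpowers (⟨q x, x, hxN, rfl⟩ : N.map q) := by
    rw [show Subgroup.zpowers (⟨q x, x, hxN, rfl⟩ : N.map q) = ⊤ from
      Subgroup.eq_top_of_card_eq _ (by rw [Nat.card_zpowers, ho, hidx])]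
    trivial
  obtain ⟨i, hi⟩ := Submonoid.mem_powers_iff _ _ |>.1 (mem_powers_iff_mem_zpowers.2 hmem)
  have hi' : q x ^ (i % 3) = q n := by
    have hi2 : q x ^ i = q n := congrArg Subtype.val hi
    rw [← hi2]
    conv_rhs => rw [← Nat.div_add_mod i 3, pow_add, pow_mul]
    have : q x ^ 3 = 1 := by
      have := congrArg Subtype.val (pow_orderOf_eq_one (⟨q x, x, hxN, rfl⟩ : N.map q))
      rwa [ho] at this
    rw [this, one_pow, one_mul]
  refine ⟨n * (x ^ (i % 3))⁻¹, (QuotientGroup.eq_one_iff _).1 ?_, i % 3, Nat.mod_lt _ (by norm_num), by group⟩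
  show q (n * (x ^ (i % 3))⁻¹) = 1
  rw [map_mul, map_inv, map_pow, hi', mul_inv_cancel]

set_option maxHeartbeats 1000000 in
theorem exists_frame [Finite G] {Q : Subgroup (Cz z)} [Q.Normal] (hF : IsOfLargeFischerTypeAt z Q) :
    ∃ (P : Type) (_ : Group P) (_ : Finite P) (E S : Subgroup P) (M : Subgroup (Cz z))
      (V : Type u) (_ : AddCommGroup V) (_ : Module K4 V) (_ : Finite V)
      (L : Subgroup (V ≃ₗ[K4] V)) (f : L →* P) (h : V → V → K4) (π : Cz z → V),
      IsSimpleGroup P ∧ Para E S ∧ Nat.card P = 3265920 ∧ M.Normal ∧ M.index = 2 ∧ Q ≤ M ∧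
        Frame Q M L f h π := by
  obtain ⟨⟨hz, hFQ, hQ, hQcard, -⟩, N, M, hNn, hMn, hQN, hNM, hNcard,
    ⟨K, instK, instFK, hK, ⟨iso⟩⟩, hMidx⟩ := hF
  let P := Cfsg.PSU 4 K 3
  haveI : Finite P := Quotient.finite _
  haveI hPs : IsSimpleGroup P :=
    Cfsg.Agent.S0283.result (q := 3) (by rw [hK]; norm_num) 4 (by norm_num) (by norm_num)
  obtain ⟨E, S, hE1, hE2, hE3, hS1, hS2, hnorm, hmoves⟩ := Parabolic.exists_parabolic hK
  have hP : Para E S := ⟨hE1, hE2, hE3, hS1, hS2, hnorm, hmoves⟩
  have hPcard : Nat.card P = 3265920 := CfsgLib.Leech.natCard_psu_four hK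
  haveI : Fact (Nat.Prime 2) := ⟨Nat.prime_two⟩
  -- the commutative group `Q/Z(Q)`
  have hQ' : (commutator Q) = Subgroup.center Q := hQ.1.2.2
  have hsq : ∀ a : Q, a ^ 2 ∈ Subgroup.center Q := fun a => by
    rw [← hQ.1.2.1]; exact Fischer2.sq_mem_frattini hQ.1.1 a
  let C := Q ⧸ Subgroup.center Q
  letI : CommGroup C :=
    { (inferInstance : Group C) with
      mul_comm := by
        intro a b
        induction a using QuotientGroup.induction_on with | H a => ?_
        induction b using QuotientGroup.induction_on with | H b => ?_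
        rw [← QuotientGroup.mk_mul, ← QuotientGroup.mk_mul, QuotientGroup.eq, ← hQ',
          show (a * b)⁻¹ * (b * a) = b⁻¹ * a⁻¹ * b⁻¹⁻¹ * a⁻¹⁻¹ by group]
        exact Subgroup.commutator_mem_commutator (Subgroup.mem_top b⁻¹) (Subgroup.mem_top a⁻¹) }
  let V := Additive C
  have h2 : ∀ v : V, v + v = 0 := fun v => by
    obtain ⟨a, ha⟩ := QuotientGroup.mk_surjective v.toMul
    have : v.toMul * v.toMul = 1 := by
      rw [← ha, ← QuotientGroup.mk_mul, QuotientGroup.eq_one_iff, ← pow_two]; exact hsq a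
    exact congrArg Additive.ofMul this
  have hVcard : Nat.card V = 2 ^ 12 := by
    have h1 := Subgroup.card_eq_card_quotient_mul_card_subgroup (Subgroup.center Q)
    rw [hQcard, hQ.2] at h1
    show Nat.card C = 2 ^ 12
    change _ = Nat.card C * 2 at h1
    omega
  let π : Cz z → V := fun a => if ha : a ∈ Q then Additive.ofMul (QuotientGroup.mk ⟨a, ha⟩ : C) else 0
  have hπ : ∀ a (ha : a ∈ Q), π a = Additive.ofMul (QuotientGroup.mk ⟨a, ha⟩ : C) := fun a ha => dif_pos ha
  have hπmul : ∀ a ∈ Q, ∀ b ∈ Q, π (a * b) = π a + π b := fun a ha b hb => by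
    rw [hπ _ (mul_mem ha hb), hπ a ha, hπ b hb]; rfl
  have hπsurj : ∀ v, ∃ a ∈ Q, π a = v := fun v => by
    obtain ⟨a, ha⟩ := QuotientGroup.mk_surjective v.toMul
    refine ⟨a, a.2, ?_⟩
    rw [hπ _ a.2]
    exact congrArg Additive.ofMul ha
  -- facts on the centre
  have hzH : z ∈ Cz z := Subgroup.mem_centralizer_singleton_iff.2 rfl
  have hzQ : (⟨z, hzH⟩ : Cz z) ∈ Q := by
    rw [← hFQ]
    refine CfsgLib.Cores.centralizer_generalizedFittingSubgroup_le (Subgroup.mem_centralizer_iff.2 ?_)
    intro y _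
    exact Subtype.ext (Subgroup.mem_centralizer_singleton_iff.1 y.2)
  have hz1 : z ≠ 1 := fun h => by rw [h, orderOf_one] at hz; norm_num at hz
  set zQ : Q := ⟨⟨z, hzH⟩, hzQ⟩ with hzQdef
  have hzc : zQ ∈ Subgroup.center Q := Subgroup.mem_center_iff.2 fun y =>
    Subtype.ext (Subtype.ext (Subgroup.mem_centralizer_singleton_iff.1 y.1.2))
  have hzQ1 : zQ ≠ 1 := fun e => hz1 (congrArg (fun b : Q => ((b : Cz z) : G)) e)
  have hcen : ∀ a : Q, a ∈ Subgroup.center Q ↔ a = 1 ∨ a = zQ := by
    refine fun a => ⟨fun ha => Fischer2.eq_one_or_eq_of_card_two hQ.2 hzc hzQ1 ha, ?_⟩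
    rintro (rfl | rfl)
    exacts [one_mem _, hzc]
  have hπ0 : ∀ a (ha : a ∈ Q), π a = 0 ↔ (⟨a, ha⟩ : Q) ∈ Subgroup.center Q := fun a ha => by
    rw [hπ a ha]; exact QuotientGroup.eq_one_iff (N := Subgroup.center Q) _
  have hπker : ∀ a ∈ Q, π a = 0 ↔ ((a : G) = 1 ∨ (a : G) = z) := fun a ha => by
    rw [hπ0 a ha, hcen]
    constructor
    · rintro (e | e)
      · exact Or.inl (congrArg (fun b : Q => ((b : Cz z) : G)) e)
      · exact Or.inr (congrArg (fun b : Q => ((b : Cz z) : G)) e)
    · rintro (e | e)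
      · exact Or.inl (Subtype.ext (Subtype.ext e))
      · exact Or.inr (Subtype.ext (Subtype.ext e))
  -- the two forms
  let cK : Q → Q → K4 := fun a b => if a * b = b * a then 0 else 1
  have hcom1 : ∀ a b : Q, a * b * a⁻¹ * b⁻¹ ∈ Subgroup.center Q := fun a b => by
    rw [← hQ', ← commutatorElement_def]
    exact Subgroup.commutator_mem_commutator (Subgroup.mem_top _) (Subgroup.mem_top _)
  have hcne : ∀ a b : Q, a * b ≠ b * a → a * b = zQ * (b * a) := fun a b hab => by
    rcases (hcen _).1 (hcom1 a b) with e | e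
    · exact absurd (mul_inv_eq_iff_eq_mul.1 (mul_inv_eq_one.1 e)) hab
    · rw [← e]; group
  have hzz : zQ * zQ = 1 := by
    rcases (hcen _).1 (mul_mem hzc hzc) with e | e
    · exact e
    · exact absurd (mul_eq_left.1 e) hzQ1
  have hzcomm : ∀ a : Q, a * zQ = zQ * a := fun a => Subgroup.mem_center_iff.1 hzc a
  have hcadd : ∀ a b c : Q, cK (a * b) c = cK a c + cK b c := by
    intro a b c
    have hne : ∀ u : Q, zQ * u ≠ u := fun u e => hzQ1 (mul_eq_right.1 e)
    have hrep : ∀ u v : Q, (cK u v = 0 ∧ u * v = v * u) ∨ (cK u v = 1 ∧ u * v = zQ * (v * u)) := fun u v => by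
      by_cases h : u * v = v * u
      · exact Or.inl ⟨if_pos h, h⟩
      · exact Or.inr ⟨if_neg h, hcne u v h⟩
    have h11 : (1 : K4) + 1 = 0 := by decide
    have hA : ∀ x y : Q, a * c = x * (c * a) → b * c = y * (c * b) → (∀ u, u * y = y * u) →
        a * b * c = (y * x) * (c * (a * b)) := by
      intro x y hx hy hyc
      calc a * b * c = a * (b * c) := mul_assoc _ _ _
        _ = (a * y) * (c * b) := by rw [hy, mul_assoc]
        _ = y * ((a * c) * b) := by rw [hyc a]; group
        _ = _ := by rw [hx]; group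
    have hone : ∀ u : Q, u * 1 = 1 * u := fun u => by group
    rcases hrep a c with ⟨e1, ha⟩ | ⟨e1, ha⟩ <;> rcases hrep b c with ⟨e2, hb⟩ | ⟨e2, hb⟩ <;> rw [e1, e2]
    · have := hA 1 1 (by rw [one_mul, ha]) (by rw [one_mul, hb]) hone
      simp only [one_mul] at this
      rw [add_zero]; exact if_pos this
    · have := hA 1 zQ (by rw [one_mul, ha]) hb hzcomm
      simp only [mul_one] at this
      rw [zero_add]; exact if_neg (fun e => hne _ (this.symm.trans e))
    · have := hA zQ 1 ha (by rw [one_mul, hb]) hone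
      simp only [one_mul] at this
      rw [add_zero]; exact if_neg (fun e => hne _ (this.symm.trans e))
    · have := hA zQ zQ ha hb hzcomm
      rw [hzz, one_mul] at this
      rw [h11]; exact if_pos this
  have hcsymm : ∀ a b : Q, cK a b = cK b a := fun a b => by
    by_cases h : a * b = b * a
    · simp [cK, h]
    · simp [cK, h, Ne.symm h]
  have hcz : ∀ a b c : Q, (QuotientGroup.mk a : C) = QuotientGroup.mk b → cK a c = cK b c := by
    intro a b c hab
    rw [show b = a * (a⁻¹ * b) by group, hcadd]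
    rw [QuotientGroup.eq] at hab
    have : cK (a⁻¹ * b) c = 0 := if_pos (Subgroup.mem_center_iff.1 hab c).symm
    rw [this, add_zero]
  let bV : V → V → K4 := fun u v => cK u.toMul.out v.toMul.out
  have hbV : ∀ a b : Q, bV (Additive.ofMul (QuotientGroup.mk a : C)) (Additive.ofMul (QuotientGroup.mk b : C)) = cK a b :=
    fun a b => by
    show cK (QuotientGroup.mk a : C).out (QuotientGroup.mk b : C).out = _
    rw [hcz _ a _ (QuotientGroup.out_eq' _), hcsymm, hcz _ b _ (QuotientGroup.out_eq' _), hcsymm]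
  have hsurjC : ∀ v : V, ∃ a : Q, v = Additive.ofMul (QuotientGroup.mk a : C) := fun v => by
    obtain ⟨a, ha⟩ := QuotientGroup.mk_surjective v.toMul
    exact ⟨a, by rw [ha]; rfl⟩
  have hbadd : ∀ u v w, bV (u + v) w = bV u w + bV v w := by
    intro u v w
    obtain ⟨a, rfl⟩ := hsurjC u
    obtain ⟨b, rfl⟩ := hsurjC v
    obtain ⟨c, rfl⟩ := hsurjC w
    rw [hbV, hbV, show Additive.ofMul (QuotientGroup.mk a : C) + Additive.ofMul (QuotientGroup.mk b : C) =
      Additive.ofMul (QuotientGroup.mk (a * b) : C) from rfl, hbV, hcadd]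
  have hbsymm : ∀ u v, bV u v = bV v u := fun u v => hcsymm _ _
  have hbaddr : ∀ u v w, bV u (v + w) = bV u v + bV u w := fun u v w => by
    rw [hbsymm, hbadd, hbsymm v, hbsymm w]
  have hb01 : ∀ u v, bV u v = 0 ∨ bV u v = 1 := fun u v => by
    simp only [bV, cK]; split_ifs <;> simp
  have hbnd : ∀ u, (∀ v, bV u v = 0) → u = 0 := by
    intro u hu
    obtain ⟨a, rfl⟩ := hsurjC u
    refine congrArg Additive.ofMul ((QuotientGroup.eq_one_iff a).2 (Subgroup.mem_center_iff.2 fun c => ?_))
    have := hu (Additive.ofMul (QuotientGroup.mk c : C))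
    rw [hbV] at this
    by_contra hne
    simp [cK, Ne.symm hne] at this
  let qV : V → K4 := fun v => if v.toMul.out * v.toMul.out = 1 then 0 else 1
  have hqV : ∀ a : Q, qV (Additive.ofMul (QuotientGroup.mk a : C)) = if a * a = 1 then 0 else 1 := by
    intro a
    have h := (QuotientGroup.eq (s := Subgroup.center Q)).1 (QuotientGroup.out_eq' (QuotientGroup.mk a : C))
    obtain ⟨c, hc, he⟩ : ∃ c ∈ Subgroup.center Q, a = (QuotientGroup.mk a : C).out * c := ⟨_, h, by group⟩
    have hc2 : c * c = 1 := by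
      rcases (hcen c).1 hc with rfl | rfl
      exacts [one_mul 1, hzz]
    show (if (QuotientGroup.mk a : C).out * (QuotientGroup.mk a : C).out = 1 then (0 : K4) else 1) = _
    set o : Q := (QuotientGroup.mk a : C).out with ho
    clear_value o
    subst he
    rw [show o * c * (o * c) = o * (c * o) * c by group, ← Subgroup.mem_center_iff.1 hc o,
      show o * (o * c) * c = (o * o) * (c * c) by group, hc2, mul_one]
  have hqadd : ∀ u v, qV (u + v) = qV u + qV v + bV u v := by
    intro u v
    obtain ⟨a, rfl⟩ := hsurjC u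
    obtain ⟨b, rfl⟩ := hsurjC v
    rw [show Additive.ofMul (QuotientGroup.mk a : C) + Additive.ofMul (QuotientGroup.mk b : C) =
      Additive.ofMul (QuotientGroup.mk (a * b) : C) from rfl, hqV, hqV, hqV, hbV]
    have hsq' : ∀ c : Q, c * c = 1 ∨ c * c = zQ := fun c => (hcen _).1 (pow_two c ▸ hsq c)
    have hab : a * b * (a * b) = if a * b = b * a then a * a * (b * b) else zQ * (a * a * (b * b)) := by
      split_ifs with h
      · rw [show a * b * (a * b) = a * (b * a) * b by group, ← h]; group
      · rw [show a * b * (a * b) = a * (b * a) * b by group, show b * a = zQ * (a * b) by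
          rw [hcne a b h, ← mul_assoc, hzz, one_mul]]
        rw [← mul_assoc a, hzcomm a]; group
    have h11 : (1 : K4) + 1 = 0 := by decide
    simp only [cK]
    rw [hab]
    rcases hsq' a with ea | ea <;> rcases hsq' b with eb | eb <;> rw [ea, eb] <;>
      by_cases h : a * b = b * a <;> simp [h, hzz, hzQ1, h11]
  -- the action of the centraliser
  have hconj : ∀ c : Cz z, Subgroup.center Q ≤
      (Subgroup.center Q).comap (MulAut.conjNormal c : MulAut Q).toMonoidHom := fun c a ha => by
    rw [Subgroup.mem_comap, Subgroup.mem_center_iff]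
    intro y
    obtain ⟨y', rfl⟩ := (MulAut.conjNormal c : MulAut Q).surjective y
    show (MulAut.conjNormal c) y' * (MulAut.conjNormal c) a = (MulAut.conjNormal c) a * (MulAut.conjNormal c) y'
    rw [← map_mul, ← map_mul, Subgroup.mem_center_iff.1 ha]
  let act : Cz z →* AddMonoid.End V :=
    { toFun := fun c => MonoidHom.toAdditive (QuotientGroup.map _ _ _ (hconj c))
      map_one' := AddMonoidHom.ext fun v => by
        obtain ⟨a, rfl⟩ := hsurjC v
        show Additive.ofMul (QuotientGroup.mk (MulAut.conjNormal (1 : Cz z) a) : C) = _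
        rw [map_one]; rfl
      map_mul' := fun c d => AddMonoidHom.ext fun v => by
        obtain ⟨a, rfl⟩ := hsurjC v
        show Additive.ofMul (QuotientGroup.mk (MulAut.conjNormal (c * d) a) : C) = _
        rw [map_mul]; rfl }
  have hact : ∀ (c : Cz z) (a : Q), act c (Additive.ofMul (QuotientGroup.mk a : C)) =
      Additive.ofMul (QuotientGroup.mk (MulAut.conjNormal c a) : C) := fun _ _ => rfl
  have hcomp : ∀ (c d : Cz z) (v : V), act c (act d v) = act (c * d) v := fun c d v => by
    rw [map_mul]; rfl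
  have hactπ : ∀ (c : Cz z), ∀ a ∈ Q, π (c * a * c⁻¹) = act c (π a) := fun c a ha => by
    rw [hπ a ha, hact, hπ _ ((inferInstance : Q.Normal).conj_mem a ha c)]
    congr 2
  have hactb : ∀ c u v, bV (act c u) (act c v) = bV u v := by
    intro c u v
    obtain ⟨a, rfl⟩ := hsurjC u
    obtain ⟨b, rfl⟩ := hsurjC v
    rw [hact, hact, hbV, hbV]
    simp only [cK, ← map_mul, EmbeddingLike.apply_eq_iff_eq]
  have hactq : ∀ c u, qV (act c u) = qV u := by
    intro c u
    obtain ⟨a, rfl⟩ := hsurjC u
    rw [hact, hqV, hqV]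
    simp only [← map_mul, MulEquiv.map_eq_one_iff]
  -- the kernel of the action
  have hfaith : ∀ c : Cz z, act c = 1 → c ∈ Q := by
    intro c hc
    let K0 : Subgroup (Cz z) := act.toHomUnits.ker
    have hK0 : IsPGroup 2 K0 := by
      intro k
      refine ⟨2, ?_⟩
      have hk : ∀ a : Q, MulAut.conjNormal (k : Cz z) a = a ∨ MulAut.conjNormal (k : Cz z) a = zQ * a := by
        intro a
        have h1 := hact k a
        rw [show act k = 1 from congrArg Units.val (MonoidHom.mem_ker.1 k.2)] at h1
        have h2 := (QuotientGroup.eq (s := Subgroup.center Q)).1 (congrArg Additive.toMul h1)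
        rcases (hcen _).1 h2 with e | e
        · exact Or.inl (inv_mul_eq_one.1 e).symm
        · exact Or.inr (by rw [inv_mul_eq_iff_eq_mul] at e; rw [e, hzcomm])
      have hk2 : ∀ a : Q, MulAut.conjNormal (((k : Cz z)) * (k : Cz z)) a = a := by
        intro a
        have hz' : MulAut.conjNormal (k : Cz z) zQ = zQ := Subtype.ext (Subtype.ext (by
          show ((k : Cz z) : G) * z * ((k : Cz z) : G)⁻¹ = z
          rw [Subgroup.mem_centralizer_singleton_iff.1 (k : Cz z).2, mul_inv_cancel_right]))
        rw [map_mul, MulAut.mul_apply]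
        rcases hk a with e | e <;> rw [e]
        · exact e
        · rw [map_mul, hz', e, ← mul_assoc, hzz, one_mul]
      have hkQ : ((k : Cz z) * k) ∈ Q ∧ ∀ a ∈ Q, a * ((k : Cz z) * k) = (k : Cz z) * k * a := by
        have hmem : ∀ a ∈ Q, a * ((k : Cz z) * k) = (k : Cz z) * k * a := fun a ha => by
          have := congrArg Subtype.val (hk2 ⟨a, ha⟩)
          rw [MulAut.conjNormal_apply] at this
          exact (mul_inv_eq_iff_eq_mul.1 this).symm
        refine ⟨hFQ.le (CfsgLib.Cores.centralizer_generalizedFittingSubgroup_le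
          (Subgroup.mem_centralizer_iff.2 ?_)), hmem⟩
        rw [hFQ]
        exact hmem
      have hc' : (⟨_, hkQ.1⟩ : Q) ∈ Subgroup.center Q :=
        Subgroup.mem_center_iff.2 fun y => Subtype.ext (hkQ.2 y y.2)
      apply Subtype.ext
      show (k : Cz z) ^ (2 ^ 2) = 1
      rw [show (2 : ℕ) ^ 2 = 2 + 2 from rfl, pow_add, pow_two]
      rcases (hcen _).1 hc' with e | e
      · rw [show (k : Cz z) * k = 1 from congrArg Subtype.val e, one_mul]
      · rw [show (k : Cz z) * k = zQ from congrArg Subtype.val e]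
        exact congrArg Subtype.val hzz
    have hle : K0 ≤ Q := by
      conv_rhs => rw [← hFQ]
      exact (CfsgLib.Cores.le_pCore hK0).trans (CfsgLib.Cores.pCore_le_generalizedFittingSubgroup 2)
    exact hle (MonoidHom.mem_ker.2 (Units.ext hc))
  have hQtriv : ∀ c ∈ Q, act c = 1 := fun c hc => AddMonoidHom.ext fun v => by
    obtain ⟨a, rfl⟩ := hsurjC v
    show Additive.ofMul (QuotientGroup.mk (MulAut.conjNormal c a) : C) = Additive.ofMul (QuotientGroup.mk a : C)
    refine congrArg Additive.ofMul ((QuotientGroup.eq).2 ?_)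
    rw [show MulAut.conjNormal c a = (⟨c, hc⟩ : Q) * a * (⟨c, hc⟩ : Q)⁻¹ from
      Subtype.ext (MulAut.conjNormal_apply c a)]
    rw [show ((⟨c, hc⟩ : Q) * a * (⟨c, hc⟩ : Q)⁻¹)⁻¹ * a =
      (⟨c, hc⟩ : Q) * a⁻¹ * (⟨c, hc⟩ : Q)⁻¹ * a⁻¹⁻¹ by group]
    exact hcom1 _ _
  -- an element of order three
  haveI : Fact (Nat.Prime 3) := ⟨Nat.prime_three⟩
  obtain ⟨⟨x, hxN⟩, hx⟩ := exists_prime_orderOf_dvd_card' (G := N) 3 (by rw [hNcard]; exact dvd_mul_right _ _)
  have hx3 : x ^ 3 = 1 := by
    have := congrArg Subtype.val (pow_orderOf_eq_one (⟨x, hxN⟩ : N)); rwa [hx] at this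
  have hxQ : x ∉ Q := fun h => by
    have hd := orderOf_dvd_natCard (⟨x, h⟩ : Q)
    rw [hQcard, ← Subgroup.orderOf_coe (H := Q) ⟨x, h⟩,
      show orderOf x = orderOf (⟨x, hxN⟩ : N) from Subgroup.orderOf_coe (⟨x, hxN⟩ : N), hx] at hd
    norm_num at hd
  have hNel := exists_step hQN hNcard hxN hxQ
  set t : AddMonoid.End V := act x with ht_def
  have htpow : ∀ (n : ℕ), act (x ^ n) = t ^ n := fun n => map_pow act x n
  have ht3 : ∀ v, t (t (t v)) = v := fun v => by
    have : t ^ 3 = 1 := by rw [← htpow, hx3, map_one]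
    exact DFunLike.congr_fun this v
  have hNact : ∀ n ∈ N, ∃ i : ℕ, i < 3 ∧ act n = t ^ i := fun n hn => by
    obtain ⟨q, hq, i, hi, rfl⟩ := hNel n hn
    exact ⟨i, hi, by rw [map_mul, hQtriv q hq, one_mul, htpow]⟩
  have hxconj : ∀ c : Cz z, act c * t = t * act c ∨ act c * t = t ^ 2 * act c := by
    intro c
    obtain ⟨i, hi, he⟩ := hNact _ (hNn.conj_mem x hxN c)
    have h1 : act c * t = t ^ i * act c := by
      rw [← he, ht_def, ← map_mul, ← map_mul]; group
    interval_cases i
    · exfalso
      rw [pow_zero] at he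
      have h2 := hfaith _ he
      have h3 := (inferInstance : Q.Normal).conj_mem _ h2 c⁻¹
      exact hxQ (by simpa [mul_assoc] using h3)
    · left; rwa [pow_one] at h1
    · exact Or.inr h1
  -- the action of `M` is linear
  have hiso : ∃ πP : M →* P, Function.Surjective πP ∧ ∀ m : M, πP m = 1 ↔ (m : Cz z) ∈ N :=
    ⟨iso.toMonoidHom.comp (QuotientGroup.mk' _), iso.surjective.comp (QuotientGroup.mk'_surjective _),
      fun m => by
        show iso (QuotientGroup.mk m) = 1 ↔ _
        rw [MulEquiv.map_eq_one_iff, QuotientGroup.eq_one_iff, Subgroup.mem_subgroupOf]⟩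
  obtain ⟨πP, hπP, hkerP⟩ := hiso
  have hMcomm : ∀ m : M, act m * t = t * act (m : Cz z) := by
    let M0 : Subgroup M :=
      { carrier := {m | act m * t = t * act (m : Cz z)}
        one_mem' := by simp [map_one]
        mul_mem' := fun {a b} ha hb => by
          show act ((a * b : M) : Cz z) * t = t * act ((a * b : M) : Cz z)
          simp only [Subgroup.coe_mul, map_mul]
          rw [mul_assoc, hb, ← mul_assoc, ha, mul_assoc]
        inv_mem' := fun {a} ha => by
          show act ((a⁻¹ : M) : Cz z) * t = t * act ((a⁻¹ : M) : Cz z)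
          have h1 : act ((a⁻¹ : M) : Cz z) * act (a : Cz z) = 1 := by rw [← map_mul]; simp
          have h2 : act (a : Cz z) * act ((a⁻¹ : M) : Cz z) = 1 := by rw [← map_mul]; simp
          calc act ((a⁻¹ : M) : Cz z) * t
              = act ((a⁻¹ : M) : Cz z) * (t * act (a : Cz z)) * act ((a⁻¹ : M) : Cz z) := by
                rw [mul_assoc _ (t * _), mul_assoc t, h2, mul_one]
            _ = act ((a⁻¹ : M) : Cz z) * (act (a : Cz z) * t) * act ((a⁻¹ : M) : Cz z) := by rw [ha]
            _ = t * act ((a⁻¹ : M) : Cz z) := by rw [← mul_assoc _ (act _), h1, one_mul] }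
    have hM0N : M0.Normal := ⟨fun m hm k => by
      show act ((k * m * k⁻¹ : M) : Cz z) * t = t * act ((k * m * k⁻¹ : M) : Cz z)
      have hm' : act (m : Cz z) * t = t * act (m : Cz z) := hm
      have hm2 : act (m : Cz z) * t ^ 2 = t ^ 2 * act (m : Cz z) := by
        rw [pow_two, ← mul_assoc, hm', mul_assoc, hm', ← mul_assoc]
      have hk2 : act ((k : Cz z)⁻¹) * t = t * act ((k : Cz z)⁻¹) ∨
          act ((k : Cz z)⁻¹) * t = t ^ 2 * act ((k : Cz z)⁻¹) := hxconj _
      have hkk : act (k : Cz z) * act ((k : Cz z)⁻¹) = 1 := by rw [← map_mul, mul_inv_cancel, map_one]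
      simp only [Subgroup.coe_mul, Subgroup.coe_inv, map_mul]
      have key : ∀ w, act ((k : Cz z)⁻¹) * t = w * act ((k : Cz z)⁻¹) →
          act (k : Cz z) * w = t * act (k : Cz z) := fun w hw => by
        calc act (k : Cz z) * w = act (k : Cz z) * (w * act ((k : Cz z)⁻¹)) * act (k : Cz z) := by
              rw [← mul_assoc, mul_assoc _ (act ((k : Cz z)⁻¹)), ← map_mul act (k : Cz z)⁻¹,
                inv_mul_cancel, map_one, mul_one]
          _ = t * act (k : Cz z) := by rw [← hw, ← mul_assoc, hkk, one_mul]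
      rcases hk2 with e | e
      · rw [mul_assoc, e, ← mul_assoc, mul_assoc _ (act (m : Cz z)), hm', ← mul_assoc, key _ e,
          mul_assoc, mul_assoc, mul_assoc]
      · rw [mul_assoc, e, ← mul_assoc, mul_assoc _ (act (m : Cz z)), hm2, ← mul_assoc, key _ e,
          mul_assoc, mul_assoc, mul_assoc]⟩
    haveI := hM0N.map πP hπP
    rcases (inferInstance : (M0.map πP).Normal).eq_bot_or_eq_top with hb | htop
    · exfalso
      haveI : Fact (Nat.Prime 7) := ⟨by norm_num⟩
      obtain ⟨p, hp⟩ := exists_prime_orderOf_dvd_card' (G := P) 7 (by rw [hPcard]; norm_num)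
      obtain ⟨m, rfl⟩ := hπP p
      have hm2 : m * m ∈ M0 := by
        show act ((m * m : M) : Cz z) * t = t * act ((m * m : M) : Cz z)
        simp only [Subgroup.coe_mul, map_mul]
        rcases hxconj (m : Cz z) with e | e
        · rw [mul_assoc, e, ← mul_assoc, e, mul_assoc]
        · have e2 : act (m : Cz z) * t ^ 2 = t * act (m : Cz z) := by
            have h4 : (t ^ 2) * (t ^ 2) = t := AddMonoidHom.ext fun v => by
              show t (t (t (t v))) = t v
              rw [ht3]
            rw [pow_two, ← mul_assoc, e, mul_assoc, e, ← mul_assoc, h4]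
          rw [mul_assoc, e, ← mul_assoc, e2, mul_assoc]
      have : πP (m * m) ∈ M0.map πP := ⟨_, hm2, rfl⟩
      rw [hb, Subgroup.mem_bot, map_mul, ← pow_two] at this
      have := orderOf_dvd_of_pow_eq_one this
      rw [hp] at this
      norm_num at this
    · intro m
      obtain ⟨m0, hm0, he⟩ : πP m ∈ M0.map πP := htop ▸ Subgroup.mem_top _
      have hn : ((m0⁻¹ * m : M) : Cz z) ∈ N := (hkerP _).1 (by rw [map_mul, map_inv, he, inv_mul_cancel])
      obtain ⟨i, -, hi⟩ := hNact _ hn
      have : m0⁻¹ * m ∈ M0 := by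
        show act _ * t = t * act _
        rw [hi, ← pow_succ, ← pow_succ']
      have h2 := M0.mul_mem hm0 this
      rwa [mul_inv_cancel_left] at h2
  -- `x` has no fixed vector
  have hx0 : ∀ v, t v = v → v = 0 := by
    intro v0 hv0
    by_contra hv0ne
    let T1 : AddMonoid.End V := t * t + t + 1
    have hT1 : ∀ v, T1 v = t (t v) + t v + v := fun v => rfl
    let V0 : AddSubgroup V :=
      { carrier := {v | t v = v}
        zero_mem' := map_zero t
        add_mem' := fun {a b} ha hb => by
          show t (a + b) = a + b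
          rw [map_add t a b, show t a = a from ha, show t b = b from hb]
        neg_mem' := fun {a} ha => by
          show t (-a) = -a
          rw [map_neg t a, show t a = a from ha] }
    let V1 : AddSubgroup V :=
      { carrier := {v | t (t v) + t v + v = 0}
        zero_mem' := map_zero T1
        add_mem' := fun {a b} ha hb => by
          show T1 (a + b) = 0
          rw [map_add T1 a b, show T1 a = 0 from ha, show T1 b = 0 from hb, add_zero]
        neg_mem' := fun {a} ha => by
          show T1 (-a) = 0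
          rw [map_neg T1 a, show T1 a = 0 from ha, neg_zero] }
    have hm0 : ∀ v, v ∈ V0 ↔ t v = v := fun v => Iff.rfl
    have hm1 : ∀ v, v ∈ V1 ↔ t (t v) + t v + v = 0 := fun v => Iff.rfl
    have hd0 : ∀ v, T1 v ∈ V0 := fun v => (hm0 _).2 (by
      rw [hT1]; simp only [map_add, ht3]; abel)
    have hd1 : ∀ v, t (t v) + t v ∈ V1 := fun v => (hm1 _).2 (by
      simp only [map_add, ht3]
      calc t v + v + (v + t (t v)) + (t (t v) + t v)
          = (t v + t v) + (v + v) + (t (t v) + t (t v)) := by abel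
        _ = 0 := by simp only [h2, add_zero])
    have hdec : ∀ v, v = T1 v + (t (t v) + t v) := fun v => by
      rw [hT1]
      calc v = (t (t v) + t (t v)) + (t v + t v) + v := by rw [h2, h2, zero_add, zero_add]
        _ = _ := by abel
    have hcard : Nat.card V0 * Nat.card V1 = 2 ^ 12 := by
      rw [← hVcard, ← Nat.card_prod]
      refine Nat.card_eq_of_bijective (fun p : V0 × V1 => (p.1 : V) + p.2) ⟨?_, fun v => ?_⟩
      · have hsum : ∀ a : V0, ∀ b : V1, T1 ((a : V) + b) = a := fun a b => by
          rw [map_add, show T1 (b : V) = 0 from b.2, add_zero, hT1, (hm0 _).1 a.2, (hm0 _).1 a.2, h2, zero_add]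
        intro p p' hpp
        have e1 : (p.1 : V) = p'.1 := by rw [← hsum p.1 p.2, ← hsum p'.1 p'.2]; exact congrArg T1 hpp
        have e2 : (p.2 : V) = p'.2 := by
          have := hpp
          dsimp only at this
          rw [e1] at this
          exact add_left_cancel this
        exact Prod.ext (Subtype.ext e1) (Subtype.ext e2)
      · exact ⟨(⟨_, hd0 v⟩, ⟨_, hd1 v⟩), (hdec v).symm⟩
    -- the second summand over the field with four elements
    have ht1mem : ∀ v ∈ V1, t v ∈ V1 := fun v hv => (hm1 _).2 (by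
      have := congrArg t ((hm1 v).1 hv)
      rwa [map_add, map_add, map_zero] at this)
    let t1 : AddMonoid.End V1 := AddMonoidHom.mk' (fun v => ⟨t v, ht1mem v v.2⟩)
      fun a b => Subtype.ext (map_add t (a : V) b)
    letI : Module K4 V1 := Module.compHom V1 (endHom t1 (fun v => Subtype.ext (h2 v))
      (fun v => Subtype.ext ((hm1 v).1 v.2)))
    have hom1 : ∀ v : V1, (((K4.om : K4) • v : V1) : V) = t v := fun v =>
      congrArg Subtype.val (endHom_om t1 (fun v => Subtype.ext (h2 v)) (fun v => Subtype.ext ((hm1 v).1 v.2)) v)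
    have hom2 : ∀ v : V1, (((K4.om2 : K4) • v : V1) : V) = t (t v) := fun v => by
      rw [show (K4.om2 : K4) = .om * .om by decide, mul_smul, hom1, hom1]
    have hVpow : ∃ k, Nat.card V1 = 4 ^ k :=
      ⟨Module.finrank K4 V1, by rw [Module.natCard_eq_pow_finrank (K := K4), K4.card_eq]⟩
    obtain ⟨k, hk⟩ := hVpow
    have hV0two : 2 ≤ Nat.card V0 :=
      Finite.one_lt_card_iff_nontrivial.2 ⟨⟨v0, (hm0 _).2 hv0⟩, 0, fun e => hv0ne (congrArg Subtype.val e)⟩
    have hk0 : k ≠ 0 := by
      intro h0
      rw [h0, pow_zero] at hk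
      haveI := (Nat.card_eq_one_iff_unique.1 hk).1
      refine hxQ (hfaith x (AddMonoidHom.ext fun v => ?_))
      show t v = v
      refine (hm0 v).1 ?_
      have e : t (t v) + t v = 0 := congrArg Subtype.val (Subsingleton.elim (⟨_, hd1 v⟩ : V1) 0)
      have e' := hdec v
      rw [e, add_zero] at e'
      rw [e']; exact hd0 v
    have hk5 : k ≤ 5 := by
      by_contra hlt
      push Not at hlt
      have h6 : 4 ^ 6 ≤ Nat.card V1 := hk ▸ Nat.pow_le_pow_right (by norm_num) hlt
      nlinarith
    have hV0le : Nat.card V0 ≤ 2 ^ 10 := by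
      have h4 : 4 ≤ Nat.card V1 := hk ▸ (pow_one 4).symm.le.trans (Nat.pow_le_pow_right (by norm_num) (by omega))
      nlinarith
    have hinv0 : ∀ (m : M) v, v ∈ V0 → act (m : Cz z) v ∈ V0 := fun m v hv => (hm0 _).2 (by
      have hc : act (m : Cz z) (t v) = t (act (m : Cz z) v) := DFunLike.congr_fun (hMcomm m) v
      rw [← hc, (hm0 v).1 hv])
    have hinv1 : ∀ (m : M) v, v ∈ V1 → act (m : Cz z) v ∈ V1 := fun m v hv => (hm1 _).2 (by
      have hc : ∀ w, t (act (m : Cz z) w) = act (m : Cz z) (t w) := fun w =>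
        (DFunLike.congr_fun (hMcomm m) w :).symm
      rw [hc, hc, ← map_add, ← map_add, (hm1 v).1 hv, map_zero])
    let act0 : M →* AddMonoid.End V0 :=
      { toFun := fun m => AddMonoidHom.mk' (fun v => ⟨act (m : Cz z) v, hinv0 m v v.2⟩)
          fun a b => Subtype.ext (map_add _ (a : V) b)
        map_one' := AddMonoidHom.ext fun v => Subtype.ext (by
          show act ((1 : M) : Cz z) (v : V) = v
          rw [OneMemClass.coe_one, map_one]; rfl)
        map_mul' := fun a b => AddMonoidHom.ext fun v => Subtype.ext (by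
          show act ((a * b : M) : Cz z) (v : V) = _
          rw [Subgroup.coe_mul, map_mul]; rfl) }
    have hfix : ∀ (i : ℕ), ∀ v ∈ V0, (t ^ i) v = v := by
      intro i v hv
      induction i with
      | zero => rfl
      | succ i ih => rw [pow_succ']; show t ((t ^ i) v) = v; rw [ih]; exact (hm0 v).1 hv
    have hker0 : πP.ker ≤ act0.toHomUnits.ker := fun m hm => by
      obtain ⟨i, -, hi⟩ := hNact _ ((hkerP m).1 hm)
      refine MonoidHom.mem_ker.2 (Units.ext (AddMonoidHom.ext fun v => Subtype.ext ?_))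
      show act (m : Cz z) (v : V) = v
      rw [hi]; exact hfix i v v.2
    let actP : P →* AddMonoid.End V0 :=
      (Units.coeHom _).comp (πP.liftOfSurjective hπP ⟨act0.toHomUnits, hker0⟩)
    have htriv := trivial_of_small hP (fun v : V0 => Subtype.ext (h2 v)) hV0le actP
    have hact0 : ∀ (m : M), ∀ v ∈ V0, act (m : Cz z) v = v := fun m v hv => by
      have := htriv (πP m)
      change ((πP.liftOfSurjective hπP ⟨act0.toHomUnits, hker0⟩ (πP m) : (AddMonoid.End V0)ˣ) : AddMonoid.End V0) = 1 at this
      rw [MonoidHom.liftOfRightInverse_comp_apply] at this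
      exact congrArg Subtype.val (DFunLike.congr_fun this ⟨v, hv⟩)
    have hlin1 : ∀ (m : M) (a : K4) (v : V1),
        act (m : Cz z) ((a • v : V1) : V) = ((a • (⟨act (m : Cz z) v, hinv1 m v v.2⟩ : V1) : V1) : V) := by
      intro m a v
      have hc : ∀ w, t (act (m : Cz z) w) = act (m : Cz z) (t w) := fun w =>
        (DFunLike.congr_fun (hMcomm m) w :).symm
      rcases K4.cases4 a with rfl | rfl | rfl | rfl
      · rw [zero_smul, zero_smul]; exact map_zero _
      · rw [one_smul, one_smul]
      · rw [hom1, hom1, hc]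
      · rw [hom2, hom2, hc, hc]
    let ψ : M →* (V1 ≃ₗ[K4] V1) :=
      { toFun := fun m =>
          { toFun := fun v => ⟨act (m : Cz z) v, hinv1 m v v.2⟩
            map_add' := fun a b => Subtype.ext (map_add _ (a : V) b)
            map_smul' := fun a v => Subtype.ext (hlin1 m a v)
            invFun := fun v => ⟨act ((m⁻¹ : M) : Cz z) v, hinv1 m⁻¹ v v.2⟩
            left_inv := fun v => Subtype.ext (by
              show act ((m⁻¹ : M) : Cz z) (act (m : Cz z) (v : V)) = v
              rw [hcomp, Subgroup.coe_inv, inv_mul_cancel, map_one]; rfl)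
            right_inv := fun v => Subtype.ext (by
              show act (m : Cz z) (act ((m⁻¹ : M) : Cz z) (v : V)) = v
              rw [hcomp, Subgroup.coe_inv, mul_inv_cancel, map_one]; rfl) }
        map_one' := LinearEquiv.ext fun v => Subtype.ext (by
          show act ((1 : M) : Cz z) (v : V) = v
          rw [OneMemClass.coe_one, map_one]; rfl)
        map_mul' := fun a b => LinearEquiv.ext fun v => Subtype.ext (by
          show act ((a * b : M) : Cz z) (v : V) = _
          rw [Subgroup.coe_mul, map_mul]; rfl) }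
    have hscal := scalar_of_small (P := P) (π := πP) (by rw [hPcard]; norm_num) hπP
      (U := V1) (hk ▸ Nat.pow_le_pow_right (by norm_num) hk5) ψ (fun m hm => by
        obtain ⟨i, hi3, hi⟩ := hNact _ ((hkerP m).1 hm)
        interval_cases i
        · exact ⟨1, LinearEquiv.ext fun v => Subtype.ext (by
            rw [scal_apply, Units.val_one, one_smul]; show act (m : Cz z) (v : V) = v; rw [hi]; rfl)⟩
        · exact ⟨Units.mk0 .om (by decide), LinearEquiv.ext fun v => Subtype.ext (by
            rw [scal_apply, Units.val_mk0, hom1]; show act (m : Cz z) (v : V) = t v; rw [hi]; rfl)⟩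
        · exact ⟨Units.mk0 .om2 (by decide), LinearEquiv.ext fun v => Subtype.ext (by
            rw [scal_apply, Units.val_mk0, hom2]; show act (m : Cz z) (v : V) = t (t v); rw [hi]; rfl)⟩)
    have hall : ∀ m : M, ∃ i : ℕ, act (m : Cz z) = t ^ i := by
      intro m
      obtain ⟨u, hu⟩ := hscal m
      have hu' : ∀ v : V1, act (m : Cz z) (v : V) = (((u : K4) • v : V1) : V) := fun v =>
        congrArg Subtype.val (LinearEquiv.congr_fun hu v)
      have key : ∀ i : ℕ, (∀ v : V1, (((u : K4) • v : V1) : V) = (t ^ i) v) → act (m : Cz z) = t ^ i :=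
        fun i hi => AddMonoidHom.ext fun v => by
          show act (m : Cz z) v = (t ^ i) v
          rw [hdec v, map_add (act (m : Cz z)), map_add (t ^ i)]
          rw [hact0 m _ (hd0 v), hfix i _ (hd0 v)]
          congr 1
          exact (hu' ⟨_, hd1 v⟩).trans (hi _)
      rcases K4.cases4 (u : K4) with e | e | e | e
      · exact absurd e u.ne_zero
      · exact ⟨0, key 0 fun v => by rw [e, one_smul]; rfl⟩
      · exact ⟨1, key 1 fun v => by rw [e, hom1, pow_one]⟩
      · exact ⟨2, key 2 fun v => by rw [e, hom2, pow_two]; rfl⟩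
    have hP1 : ∀ p : P, p = 1 := fun p => by
      obtain ⟨m, rfl⟩ := hπP p
      obtain ⟨i, hi⟩ := hall m
      refine (hkerP m).2 ?_
      have : (m : Cz z) * (x ^ i)⁻¹ ∈ Q := hfaith _ (by
        rw [map_mul, hi, ← htpow, ← map_mul, mul_inv_cancel, map_one])
      have h1 := mul_mem (hQN this) (pow_mem hxN i)
      rwa [inv_mul_cancel_right] at h1
    haveI : Subsingleton P := ⟨fun a b => (hP1 a).trans (hP1 b).symm⟩
    exact absurd hPcard (by rw [Nat.card_of_subsingleton (1 : P)]; norm_num)
  -- the hermitian space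
  have htt : ∀ v, t (t v) + t v + v = 0 := fun v => hx0 _ (by
    rw [map_add, map_add, ht3]; abel)
  letI : Module K4 V := Module.compHom V (endHom t h2 htt)
  have hom : ∀ v : V, (K4.om : K4) • v = t v := fun v => endHom_om t h2 htt v
  have hom' : ∀ v : V, (K4.om2 : K4) • v = t (t v) := fun v => by
    rw [show (K4.om2 : K4) = .om * .om by decide, mul_smul, hom, hom]
  let h : V → V → K4 := fun u v => bV u (t v) + .om * bV u v
  have hb0 : ∀ v, bV v v = 0 := fun v => if_pos rfl
  have hsmul : ∀ (a : K4) u w, h (a • u) w = a * h u w := by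
    have hom_h : ∀ u w, h (t u) w = .om * h u w := by
      intro u w
      simp only [h]
      have e1 : bV (t u) (t w) = bV u w := hactb x u w
      have e3 : bV (t u) w = bV u w + bV u (t w) := by
        have : bV (t u) w = bV u (t (t w)) := by
          conv_lhs => rw [← ht3 w]
          exact hactb x u _
        rw [this, ← hbaddr]
        congr 1
        calc t (t w) = t (t w) + (t w + t w) + (w + w) := by rw [h2, h2, add_zero, add_zero]
          _ = (t (t w) + t w + w) + (w + t w) := by abel
          _ = w + t w := by rw [htt, zero_add]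
      rw [e1, e3]
      have : ∀ a b : K4, a + .om * (a + b) = .om * (b + .om * a) := by decide
      exact this _ _
    intro a u w
    rcases K4.cases4 a with rfl | rfl | rfl | rfl
    · rw [zero_smul, zero_mul]
      have h0 : ∀ y, bV 0 y = 0 := fun y => by
        have := hbadd 0 0 y
        rw [add_zero] at this
        exact left_eq_add.1 this
      simp only [h, h0, mul_zero, add_zero]
    · rw [one_smul, one_mul]
    · rw [hom, hom_h]
    · rw [hom', hom_h, hom_h, ← mul_assoc]; rfl
  have hsymm : ∀ u v, h v u = K4.conj (h u v) := by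
    intro u v
    simp only [h]
    rw [hbsymm v u]
    have e : bV v (t u) = bV u (t v) + bV u v := by
      have e1 : bV v (t u) = bV (t (t v)) u := by
        have := hactb x (t (t v)) u
        rw [← this]
        show bV v (t u) = bV (t (t (t v))) (t u)
        rw [ht3]
      rw [e1, hbsymm, ← hbaddr]
      congr 1
      calc t (t v) = t (t v) + (t v + t v) + (v + v) := by rw [h2, h2, add_zero, add_zero]
        _ = (t (t v) + t v + v) + (t v + v) := by abel
        _ = t v + v := by rw [htt, zero_add]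
    rw [e]
    rcases hb01 u (t v) with e1 | e1 <;> rcases hb01 u v with e2 | e2 <;> rw [e1, e2] <;> decide
  have hhq : ∀ v, h v v = qV v := by
    intro v
    simp only [h]
    rw [hb0, mul_zero, add_zero]
    have e1 : t (t v) = t v + v := by
      calc t (t v) = t (t v) + (t v + t v) + (v + v) := by rw [h2, h2, add_zero, add_zero]
        _ = (t (t v) + t v + v) + (t v + v) := by abel
        _ = t v + v := by rw [htt, zero_add]
    have e2 := hqadd (t v) v
    rw [← e1, hactq x (t v), hactq x v, hbsymm (t v) v] at e2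
    have : ∀ a b : K4, a = a + a + b → b = a := by decide
    exact this _ _ e2
  have hlin : ∀ (m : M) (a : K4) (v : V), act (m : Cz z) (a • v) = a • act (m : Cz z) v := by
    intro m a v
    have hc : ∀ w, t (act (m : Cz z) w) = act (m : Cz z) (t w) := fun w =>
      (DFunLike.congr_fun (hMcomm m) w :).symm
    rcases K4.cases4 a with rfl | rfl | rfl | rfl
    · rw [zero_smul, zero_smul, map_zero]
    · rw [one_smul, one_smul]
    · rw [hom, hom, hc]
    · rw [hom', hom', hc, hc]
  let ρ : M →* (V ≃ₗ[K4] V) :=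
    { toFun := fun m =>
        { toFun := act (m : Cz z)
          map_add' := map_add _
          map_smul' := hlin m
          invFun := act ((m⁻¹ : M) : Cz z)
          left_inv := fun v => by
            rw [hcomp, Subgroup.coe_inv, inv_mul_cancel, map_one]; rfl
          right_inv := fun v => by
            rw [hcomp, Subgroup.coe_inv, mul_inv_cancel, map_one]; rfl }
      map_one' := LinearEquiv.ext fun v => by
        show act ((1 : M) : Cz z) v = v
        rw [OneMemClass.coe_one, map_one]; rfl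
      map_mul' := fun a b => LinearEquiv.ext fun v => by
        show act ((a * b : M) : Cz z) v = _
        rw [Subgroup.coe_mul, map_mul]; rfl }
  have hρ : ∀ (m : M) v, ρ m v = act (m : Cz z) v := fun _ _ => rfl
  have hρ1 : ∀ m : M, ρ m = 1 ↔ (m : Cz z) ∈ Q := fun m =>
    ⟨fun e => hfaith _ (AddMonoidHom.ext fun v => LinearEquiv.congr_fun e v),
      fun e => LinearEquiv.ext fun v => by rw [hρ, hQtriv _ e]; rfl⟩
  have hkle : ρ.rangeRestrict.ker ≤ πP.ker := fun m hm => (hkerP m).2 (hQN ((hρ1 m).1
    (congrArg Subtype.val (MonoidHom.mem_ker.1 hm))))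
  let f : ρ.range →* P := ρ.rangeRestrict.liftOfSurjective ρ.rangeRestrict_surjective ⟨πP, hkle⟩
  have hf : ∀ m, f (ρ.rangeRestrict m) = πP m := fun m =>
    MonoidHom.liftOfRightInverse_comp_apply _ _ _ ⟨πP, hkle⟩ m
  have hfsurj : Function.Surjective f := fun p => by
    obtain ⟨m, rfl⟩ := hπP p
    exact ⟨_, hf m⟩
  have hQM : Q ≤ M := hQN.trans hNM
  have hcardL : Nat.card ρ.range = 9797760 := by
    have h1 := Subgroup.card_mul_index ρ.ker
    rw [Subgroup.index_ker] at h1
    have hk : ρ.ker = Q.subgroupOf M := Subgroup.ext fun m => (hρ1 m)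
    have h3 := Subgroup.card_mul_index πP.ker
    rw [Subgroup.index_ker, MonoidHom.range_eq_top.2 hπP, Subgroup.card_top, hPcard] at h3
    have hk' : πP.ker = N.subgroupOf M := Subgroup.ext fun m => hkerP m
    rw [hk, Nat.card_congr (Subgroup.subgroupOfEquivOfLe hQM).toEquiv, hQcard] at h1
    rw [hk', Nat.card_congr (Subgroup.subgroupOfEquivOfLe hNM).toEquiv, hNcard, hQcard] at h3
    omega
  refine ⟨P, inferInstance, inferInstance, E, S, M, V, inferInstance, inferInstance, inferInstance, ρ.range, f, h, π,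
    hPs, hP, hPcard, hMn, hMidx, hQM, ⟨?_, hcardL, hπmul, hπsurj, hπker, ?_, ?_, ?_, ?_, ?_, ?_⟩⟩
  · refine ⟨hfsurj, fun g => ?_, fun a ha => ?_, by rw [hVcard]; norm_num, ?_, hsmul, hsymm, ?_, ?_⟩
    · obtain ⟨⟨m, rfl⟩⟩ : Nonempty {m // ρ.rangeRestrict m = g} :=
        ⟨⟨_, (ρ.rangeRestrict_surjective g).choose_spec⟩⟩
      rw [hf, hkerP]
      constructor
      · intro hm
        obtain ⟨i, hi3, hi⟩ := hNact _ hm
        interval_cases i
        · exact ⟨1, fun v => by rw [one_smul]; show act (m : Cz z) v = v; rw [hi]; rfl⟩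
        · exact ⟨.om, fun v => by rw [hom]; show act (m : Cz z) v = t v; rw [hi]; rfl⟩
        · exact ⟨.om2, fun v => by rw [hom']; show act (m : Cz z) v = t (t v); rw [hi]; rfl⟩
      · rintro ⟨a, ha⟩
        have key : ∀ i : ℕ, act (m : Cz z) = t ^ i → (m : Cz z) ∈ N := fun i hi => by
          have : (m : Cz z) * (x ^ i)⁻¹ ∈ Q := hfaith _ (by
            rw [map_mul, hi, ← htpow, ← map_mul, mul_inv_cancel, map_one])
          have h1 := mul_mem (hQN this) (pow_mem hxN i)
          rwa [inv_mul_cancel_right] at h1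
        rcases K4.cases4 a with rfl | rfl | rfl | rfl
        · haveI : Nontrivial V := Finite.one_lt_card_iff_nontrivial.1 (by rw [hVcard]; norm_num)
          obtain ⟨v, hv⟩ := exists_ne (0 : V)
          have := ha v
          rw [zero_smul, LinearEquiv.map_eq_zero_iff] at this
          exact absurd this hv
        · exact key 0 (AddMonoidHom.ext fun v => (ha v).trans (one_smul _ _))
        · exact key 1 (AddMonoidHom.ext fun v => (ha v).trans (by rw [hom, pow_one]; rfl))
        · exact key 2 (AddMonoidHom.ext fun v => (ha v).trans (by rw [hom', pow_two]; rfl))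
    · rcases K4.cases4 a with rfl | rfl | rfl | rfl
      · exact absurd rfl ha
      · exact ⟨1, fun v => (one_smul _ _).symm⟩
      · exact ⟨ρ.rangeRestrict ⟨x, hNM hxN⟩, fun v => (hom v).symm⟩
      · exact ⟨ρ.rangeRestrict ⟨x ^ 2, hNM (pow_mem hxN 2)⟩, fun v => by
          show act (x ^ 2) v = _
          rw [htpow, hom']; rfl⟩
    · intro u v w
      simp only [h]
      rw [hbadd, hbadd]; ring
    · intro u hu
      refine hbnd u fun v => ?_
      have h1 := hu v
      simp only [h] at h1
      rcases hb01 u v with e | e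
      · exact e
      · rcases hb01 u (t v) with e' | e' <;> rw [e, e'] at h1 <;> exact absurd h1 (by decide)
    · rintro ⟨_, m, rfl⟩ u v
      have hc : t (ρ m v) = act (m : Cz z) (t v) := (DFunLike.congr_fun (hMcomm m) v :).symm
      simp only [h]
      rw [hc, hρ, hρ, hactb, hactb]
  · intro a ha
    rw [hhq, hπ a ha, hqV]
    by_cases e : (⟨a, ha⟩ : Q) * ⟨a, ha⟩ = 1
    · rw [if_pos e]; exact iff_of_true rfl (congrArg Subtype.val e)
    · rw [if_neg e]; exact iff_of_false (by decide) fun e' => e (Subtype.ext e')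
  · intro a ha b hb
    have hbit : (h (π a) (π b)).b1 = false ↔ bV (π a) (π b) = 0 := by
      simp only [h]
      rcases hb01 (π a) (t (π b)) with e1 | e1 <;> rcases hb01 (π a) (π b) with e2 | e2 <;>
        rw [e1, e2] <;> decide
    rw [hbit, hπ a ha, hπ b hb, hbV]
    by_cases e : (⟨a, ha⟩ : Q) * ⟨b, hb⟩ = ⟨b, hb⟩ * ⟨a, ha⟩
    · simp only [cK, if_pos e]; exact iff_of_true (congrArg Subtype.val e) trivial
    · simp only [cK, if_neg e]; exact iff_of_false (fun e' => e (Subtype.ext e')) (by decide)
  · intro m hm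
    exact ⟨ρ ⟨m, hm⟩, ⟨_, rfl⟩, fun a ha => hactπ m a ha⟩
  · rintro _ ⟨m, rfl⟩
    exact ⟨m, m.2, fun a ha => hactπ m a ha⟩
  · intro c hc
    refine hfaith c (AddMonoidHom.ext fun v => ?_)
    obtain ⟨a, ha, rfl⟩ := hπsurj v
    show act c (π a) = π a
    rw [← hactπ c a ha]; exact hc a ha
  · intro c
    refine ⟨{ toFun := act c
              invFun := act c⁻¹
              left_inv := fun v => by
                rw [hcomp, inv_mul_cancel, map_one]; rfl
              right_inv := fun v => by
                rw [hcomp, mul_inv_cancel, map_one]; rfl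
              map_add' := map_add _ }, hactπ c, ?_⟩
    rcases hxconj c with e | e
    · left
      have hc : ∀ w, act c (t w) = t (act c w) := fun w => DFunLike.congr_fun e w
      intro a v
      show act c (a • v) = a • act c v
      rcases K4.cases4 a with rfl | rfl | rfl | rfl
      · rw [zero_smul, zero_smul, map_zero]
      · rw [one_smul, one_smul]
      · rw [hom, hom, hc]
      · rw [hom', hom', hc, hc]
    · right
      have hc : ∀ w, act c (t w) = t (t (act c w)) := fun w => DFunLike.congr_fun e w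
      intro a v
      show act c (a • v) = K4.conj a • act c v
      rcases K4.cases4 a with rfl | rfl | rfl | rfl
      · rw [map_zero, zero_smul, zero_smul, map_zero]
      · rw [map_one, one_smul, one_smul]
      · rw [show K4.conj .om = .om2 by decide, hom, hom', hc]
      · rw [show K4.conj .om2 = .om by decide, hom, hom', hc, hc, ht3]

end CfsgLib.FischerLarge
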