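import Cfsg.Agent.Lib.FischerLarge.MonomialSylow
import Cfsg.Agent.Lib.FischerLarge.Count
import Cfsg.Agent.Lib.FischerLarge.Orbits
import Cfsg.Agent.Lib.Fischer.UnitaryPointKernel

/-!
FischerLarge: the stabiliser of a vector of the short orbit is `SU₄(2)`.
-/

set_option autoImplicit false
set_option linter.style.haveILetI false
set_option linter.unusedSectionVars false

namespace CfsgLib.FischerLarge

open scoped Classical
open Matrix CfsgLib.Fischer.UnitaryPoint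

variable {V : Type*} [AddCommGroup V] [Module K4 V] [Finite V]
variable {P : Type*} [Group P] [Finite P]
variable {L : Subgroup (V ≃ₗ[K4] V)} {f : L →* P} {h : V → V → K4} {ψ : V ≃ₗ[K4] (Fin 6 → K4)}

theorem K4.card_fintype : Fintype.card K4 = 4 := rfl

/-- The vector `(1,1,0,0,0,0)` in the frame. -/
def base (ψ : V ≃ₗ[K4] (Fin 6 → K4)) : V := ψ.symm (u₀ (F := K4))

theorem base_coord (i : Fin 6) : ψ (base ψ) i = u₀ i := by rw [base, LinearEquiv.apply_symm_apply]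

/-- The stabiliser of the base vector. -/
def baseStab (L : Subgroup (V ≃ₗ[K4] V)) (ψ : V ≃ₗ[K4] (Fin 6 → K4)) : Subgroup L where
  carrier := {g | (g : V ≃ₗ[K4] V) (base ψ) = base ψ}
  one_mem' := rfl
  mul_mem' := fun {a b} ha hb => by
    show (a : V ≃ₗ[K4] V) ((b : V ≃ₗ[K4] V) (base ψ)) = base ψ
    rw [show (b : V ≃ₗ[K4] V) (base ψ) = base ψ from hb]; exact ha
  inv_mem' := fun {a} ha => by
    show (a : V ≃ₗ[K4] V).symm (base ψ) = base ψ
    rw [LinearEquiv.symm_apply_eq]; exact (show (a : V ≃ₗ[K4] V) (base ψ) = base ψ from ha).symm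

/-- Embedding of the last four coordinates. -/
def emb (ψ : V ≃ₗ[K4] (Fin 6 → K4)) : (Fin 4 → K4) →ₗ[K4] V :=
  ψ.symm.toLinearMap ∘ₗ
    { toFun := fun w i => if h : 2 ≤ (i : ℕ) then w ⟨i - 2, by omega⟩ else 0
      map_add' := fun u v => funext fun i => by by_cases h : 2 ≤ (i : ℕ) <;> simp [h]
      map_smul' := fun a v => funext fun i => by by_cases h : 2 ≤ (i : ℕ) <;> simp [h] }

theorem emb_coord (w : Fin 4 → K4) :
    ψ (emb ψ w) 0 = 0 ∧ ψ (emb ψ w) 1 = 0 ∧ ∀ j, ψ (emb ψ w) (e4 j) = w j := by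
  simp only [emb, LinearMap.comp_apply, LinearEquiv.coe_coe, LinearEquiv.apply_symm_apply]
  refine ⟨by simp, by simp, fun j => ?_⟩
  fin_cases j <;> simp [e4]

theorem herm_base (c : Cover L f h) (hψ : Ortho h ψ) (x : V) : h x (base ψ) = ψ x 0 + ψ x 1 := by
  rw [hψ.form, sum_six]
  simp only [base_coord, u₀_zero, u₀_one, u₀_e4, map_one, map_zero, mul_one, mul_zero,
    Finset.sum_const_zero, add_zero]

theorem stab_herm (c : Cover L f h) (hψ : Ortho h ψ) {g : L} (hg : g ∈ baseStab L ψ) (x : V) :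
    ψ ((g : V ≃ₗ[K4] V) x) 0 + ψ ((g : V ≃ₗ[K4] V) x) 1 = ψ x 0 + ψ x 1 := by
  rw [← herm_base c hψ, ← herm_base c hψ]
  conv_rhs => rw [← c.pres g x (base ψ), show (g : V ≃ₗ[K4] V) (base ψ) = base ψ from hg]

/-- Vectors orthogonal to the base vector. -/
theorem decomp {x : V} (hx : ψ x 0 + ψ x 1 = 0) :
    x = ψ x 0 • base ψ + emb ψ fun j => ψ x (e4 j) := by
  have h01 : ψ x 1 = ψ x 0 := by
    have hd : ∀ a b : K4, a + b = 0 → b = a := by decide
    exact hd _ _ hx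
  apply ψ.injective
  funext i
  obtain ⟨e0, e1, e2⟩ := emb_coord (ψ := ψ) fun j => ψ x (e4 j)
  rw [map_add, map_smul, Pi.add_apply, Pi.smul_apply, smul_eq_mul, base_coord]
  rcases cases_six i with rfl | rfl | ⟨j, rfl⟩
  · rw [e0, u₀_zero, mul_one, add_zero]
  · rw [e1, u₀_one, mul_one, add_zero, h01]
  · rw [e2, u₀_e4, mul_zero, zero_add]

/-- The block of a stabilising element. -/
noncomputable def block (ψ : V ≃ₗ[K4] (Fin 6 → K4)) (T : V ≃ₗ[K4] V) : Matrix (Fin 4) (Fin 4) K4 :=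
  LinearMap.toMatrix' ((LinearMap.funLeft K4 K4 e4) ∘ₗ ψ.toLinearMap ∘ₗ T.toLinearMap ∘ₗ emb ψ)

theorem block_mulVec (T : V ≃ₗ[K4] V) (w : Fin 4 → K4) :
    block ψ T *ᵥ w = fun i => ψ (T (emb ψ w)) (e4 i) := by
  rw [block, LinearMap.toMatrix'_mulVec]; rfl

theorem block_apply (c : Cover L f h) (hψ : Ortho h ψ) {g : L} (hg : g ∈ baseStab L ψ) {x : V}
    (hx : ψ x 0 + ψ x 1 = 0) (i : Fin 4) :
    ψ ((g : V ≃ₗ[K4] V) x) (e4 i) = (block ψ (g : V ≃ₗ[K4] V) *ᵥ fun j => ψ x (e4 j)) i := by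
  rw [block_mulVec]
  conv_lhs => rw [decomp hx]
  rw [map_add, map_smul, show (g : V ≃ₗ[K4] V) (base ψ) = base ψ from hg, map_add, map_smul, Pi.add_apply,
    Pi.smul_apply, base_coord, u₀_e4, smul_zero, zero_add]

theorem block_mul (c : Cover L f h) (hψ : Ortho h ψ) {g g' : L} (hg : g ∈ baseStab L ψ)
    (hg' : g' ∈ baseStab L ψ) :
    block ψ ((g * g' : L) : V ≃ₗ[K4] V) = block ψ (g : V ≃ₗ[K4] V) * block ψ (g' : V ≃ₗ[K4] V) := by
  apply Matrix.ext_of_mulVec_single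
  intro j
  rw [← Matrix.mulVec_mulVec, block_mulVec, block_mulVec (g' : V ≃ₗ[K4] V)]
  funext i
  refine block_apply c hψ hg ?_ i
  refine (stab_herm c hψ hg' _).trans ?_
  rw [(emb_coord _).1, (emb_coord _).2.1, add_zero]

theorem block_one : block ψ (1 : V ≃ₗ[K4] V) = 1 := by
  apply Matrix.ext_of_mulVec_single
  intro j
  rw [block_mulVec, Matrix.one_mulVec]
  funext i
  exact (emb_coord _).2.2 i

theorem block_herm (c : Cover L f h) (hψ : Ortho h ψ) {g : L} (hg : g ∈ baseStab L ψ) (w w' : Fin 4 → K4) :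
    Cfsg.hermForm 4 K4 2 (block ψ (g : V ≃ₗ[K4] V) *ᵥ w) (block ψ (g : V ≃ₗ[K4] V) *ᵥ w') =
      Cfsg.hermForm 4 K4 2 w w' := by
  have h1 := c.pres g (emb ψ w) (emb ψ w')
  rw [hψ.form, hψ.form, sum_six, sum_six] at h1
  obtain ⟨a0, a1, a2⟩ := emb_coord (ψ := ψ) w
  obtain ⟨b0, b1, b2⟩ := emb_coord (ψ := ψ) w'
  have ha := stab_herm c hψ hg (emb ψ w)
  have hb := stab_herm c hψ hg (emb ψ w')
  rw [a0, a1, add_zero] at ha
  rw [b0, b1, add_zero] at hb
  simp only [a0, a1, a2, b0, b1, b2, zero_mul, zero_add] at h1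
  have hd : ∀ p q r s : K4, p + q = 0 → r + s = 0 → p * K4.conj r + q * K4.conj s = 0 := by decide
  rw [hd _ _ _ _ ha hb, zero_add] at h1
  rw [block_mulVec, block_mulVec, Cfsg.hermForm, Cfsg.hermForm]
  have hc : ∀ a : K4, a ^ 2 = K4.conj a := fun a => pow_two a
  simp only [hc]
  exact h1

theorem block_det_ne (c : Cover L f h) (hψ : Ortho h ψ) {g : L} (hg : g ∈ baseStab L ψ) :
    (block ψ (g : V ≃ₗ[K4] V)).det ≠ 0 := by
  intro h0
  have := congrArg Matrix.det (block_mul c hψ hg (inv_mem hg))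
  rw [mul_inv_cancel, OneMemClass.coe_one, block_one, Matrix.det_one, Matrix.det_mul, h0, zero_mul] at this
  exact one_ne_zero this

/-- The map to the special unitary group. -/
noncomputable def toSU (c : Cover L f h) (hψ : Ortho h ψ) : baseStab L ψ →* Cfsg.SU 4 K4 2 :=
  MonoidHom.mk' (fun g => mkSU
    (((block ψ ((g : L) : V ≃ₗ[K4] V)).det)⁻¹ • block ψ ((g : L) : V ≃ₗ[K4] V))
    (by
      rw [Matrix.det_smul, Fintype.card_fin]
      have hd : ∀ a : K4, a ≠ 0 → a⁻¹ ^ 4 * a = 1 := by decide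
      exact hd _ (block_det_ne c hψ g.2))
    fun x y => by
      set a := (block ψ ((g : L) : V ≃ₗ[K4] V)).det
      have ha : a ≠ 0 := block_det_ne c hψ g.2
      rw [Matrix.smul_mulVec, Matrix.smul_mulVec]
      calc Cfsg.hermForm 4 K4 2 (a⁻¹ • (block ψ _ *ᵥ x)) (a⁻¹ • (block ψ _ *ᵥ y))
          = (a⁻¹ * a⁻¹ ^ 2) * Cfsg.hermForm 4 K4 2 (block ψ ((g : L) : V ≃ₗ[K4] V) *ᵥ x)
              (block ψ ((g : L) : V ≃ₗ[K4] V) *ᵥ y) := by
            simp only [Cfsg.hermForm, Finset.mul_sum, Pi.smul_apply, smul_eq_mul]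
            exact Finset.sum_congr rfl fun i _ => by ring
        _ = _ := by
            rw [block_herm c hψ g.2]
            have hd : ∀ a : K4, a ≠ 0 → a⁻¹ * a⁻¹ ^ 2 = 1 := by decide
            rw [hd _ ha, one_mul])
    fun g g' => by
      apply mat_inj
      rw [mat_mul, mat_mkSU, mat_mkSU, mat_mkSU]
      simp only [Subgroup.coe_mul]
      rw [show ((g : L) : V ≃ₗ[K4] V) * ((g' : L) : V ≃ₗ[K4] V) = (((g : L) * (g' : L) : L) : V ≃ₗ[K4] V) from rfl,
        block_mul c hψ g.2 g'.2, Matrix.det_mul, mul_inv, Matrix.smul_mul, Matrix.mul_smul, smul_smul]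

theorem toSU_eq_one (c : Cover L f h) (hψ : Ortho h ψ) {g : baseStab L ψ} (hg : toSU c hψ g = 1) :
    ∃ a : K4, a ≠ 0 ∧ block ψ ((g : L) : V ≃ₗ[K4] V) = a • 1 := by
  refine ⟨_, block_det_ne c hψ g.2, ?_⟩
  have h1 : ((block ψ ((g : L) : V ≃ₗ[K4] V)).det)⁻¹ • block ψ ((g : L) : V ≃ₗ[K4] V) = 1 :=
    congrArg mat hg
  rw [← h1, smul_smul, mul_inv_cancel₀ (block_det_ne c hψ g.2), one_smul]

theorem no_five (c : Cover L f h) (hψ : Ortho h ψ) {g : baseStab L ψ} (hg : toSU c hψ g = 1)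
    (h5 : g ^ 5 = 1) : g = 1 := by
  obtain ⟨a, ha, hb⟩ := toSU_eq_one c hψ hg
  have hpow : ∀ n : ℕ, block ψ (((g ^ n : baseStab L ψ) : L) : V ≃ₗ[K4] V) = a ^ n • 1 := by
    intro n
    induction n with
    | zero => rw [pow_zero, pow_zero, one_smul]; exact block_one
    | succ n ih =>
      rw [pow_succ, Subgroup.coe_mul, block_mul c hψ (g ^ n).2 g.2, ih, hb, Matrix.smul_mul,
        Matrix.one_mul, smul_smul, pow_succ]
  have ha5 : a ^ 5 = 1 := by
    have := hpow 5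
    rw [h5, OneMemClass.coe_one, OneMemClass.coe_one, block_one] at this
    have := congrFun (congrFun this 0) 0
    simpa using this.symm
  have hd : ∀ a : K4, a ≠ 0 → a ^ 5 = 1 → a = 1 := by decide
  rw [hd a ha ha5, one_smul] at hb
  set T : V ≃ₗ[K4] V := ((g : L) : V ≃ₗ[K4] V) with hT
  have h2 : ∀ v : V, v + v = 0 := fun v => by
    have := add_smul (1 : K4) 1 v
    rw [K4.add_self, zero_smul, one_smul] at this
    exact this.symm
  have hperp : ∀ x, ψ x 0 + ψ x 1 = 0 → ∃ k : K4, T x = x + k • base ψ := by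
    intro x hx
    have hTx : ψ (T x) 0 + ψ (T x) 1 = 0 := (stab_herm c hψ g.2 x).trans hx
    refine ⟨ψ (T x) 0 + ψ x 0, ?_⟩
    conv_lhs => rw [decomp hTx]
    have hco : (fun j => ψ (T x) (e4 j)) = fun j => ψ x (e4 j) := funext fun j => by
      rw [hT, block_apply c hψ g.2 hx, hb, Matrix.one_mulVec]
    rw [hco]
    conv_rhs => arg 1; rw [decomp hx]
    rw [add_smul]
    calc ψ (T x) 0 • base ψ + emb ψ (fun j => ψ x (e4 j))
        = ψ (T x) 0 • base ψ + emb ψ (fun j => ψ x (e4 j)) + (ψ x 0 • base ψ + ψ x 0 • base ψ) := by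
          rw [h2, add_zero]
      _ = _ := by abel
  have hTb : T (base ψ) = base ψ := g.2
  have hperm : ∀ x, T (T (T (T x))) = x := by
    intro x
    have hn : ψ (T x + x) 0 + ψ (T x + x) 1 = 0 := by
      rw [map_add, Pi.add_apply, Pi.add_apply, add_add_add_comm, stab_herm c hψ g.2, K4.add_self]
    obtain ⟨k, hk⟩ := hperp _ hn
    have h22 : T (T x) = x + k • base ψ := by
      rw [map_add] at hk
      calc T (T x) = T (T x) + T x + T x := by rw [add_assoc, h2, add_zero]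
        _ = T x + x + k • base ψ + T x := by rw [hk]
        _ = (T x + T x) + x + k • base ψ := by abel
        _ = x + k • base ψ := by rw [h2, zero_add]
    rw [h22, map_add, map_smul, hTb, map_add, map_smul, hTb, h22]
    calc x + k • base ψ + k • base ψ = x + (k • base ψ + k • base ψ) := by abel
      _ = x := by rw [h2, add_zero]
  have h4 : g ^ 4 = 1 := Subtype.ext (Subtype.ext (LinearEquiv.ext fun x => by
    show T (T (T (T x))) = x
    exact hperm x))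
  calc g = g ^ 5 := by rw [pow_succ, h4, one_mul]
    _ = 1 := h5

/-- Monomial elements of the stabiliser. -/
def monoStab (L : Subgroup (V ≃ₗ[K4] V)) (ψ : V ≃ₗ[K4] (Fin 6 → K4)) : Subgroup L where
  carrier := {g | ∃ σ d, Equiv.Perm.sign σ = 1 ∧ ((σ 0 = 0 ∧ σ 1 = 1) ∨ (σ 0 = 1 ∧ σ 1 = 0)) ∧
    (∏ i, d i = 1 ∧ d 0 = 1 ∧ d 1 = 1) ∧ IsMono ψ (g : V ≃ₗ[K4] V) σ d}
  one_mem' := ⟨1, fun _ => 1, by simp, by simp, by simp, IsMono.one⟩
  mul_mem' := by
    rintro a b ⟨σ, d, hs, h01, ⟨hd, hd0, hd1⟩, h⟩ ⟨σ', d', hs', h01', ⟨hd', hd0', hd1'⟩, h'⟩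
    refine ⟨σ' * σ, _, by rw [map_mul, hs, hs', one_mul], ?_, ⟨prod_mul_comp hd hd' σ, ?_, ?_⟩, h.mul h'⟩
    · rcases h01 with ⟨e0, e1⟩ | ⟨e0, e1⟩ <;> rcases h01' with ⟨f0, f1⟩ | ⟨f0, f1⟩ <;>
        simp [Equiv.Perm.mul_apply, e0, e1, f0, f1]
    all_goals rcases h01 with ⟨e0, e1⟩ | ⟨e0, e1⟩ <;> simp [e0, e1, hd0, hd1, hd0', hd1']
  inv_mem' := by
    rintro a ⟨σ, d, hs, h01, ⟨hd, hd0, hd1⟩, h⟩
    refine ⟨σ⁻¹, _, by rw [map_inv, hs, inv_one], ?_, ⟨prod_comp_inv hd σ, ?_, ?_⟩, h.inv⟩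
    · rcases h01 with ⟨e0, e1⟩ | ⟨e0, e1⟩
      · left; exact ⟨Equiv.Perm.inv_eq_iff_eq.2 e0.symm, Equiv.Perm.inv_eq_iff_eq.2 e1.symm⟩
      · right; exact ⟨Equiv.Perm.inv_eq_iff_eq.2 e1.symm, Equiv.Perm.inv_eq_iff_eq.2 e0.symm⟩
    all_goals rcases h01 with ⟨e0, e1⟩ | ⟨e0, e1⟩ <;>
      simp [Equiv.Perm.inv_eq_iff_eq.2 e0.symm, Equiv.Perm.inv_eq_iff_eq.2 e1.symm, hd0, hd1]

theorem monoStab_le : monoStab L ψ ≤ baseStab L ψ := by
  rintro g ⟨σ, d, -, h01, ⟨-, hd0, hd1⟩, h⟩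
  apply ψ.injective
  funext i
  show ψ ((g : V ≃ₗ[K4] V) (base ψ)) i = ψ (base ψ) i
  rw [h, base_coord, base_coord]
  rcases cases_six i with rfl | rfl | ⟨j, rfl⟩
  · rcases h01 with ⟨e0, -⟩ | ⟨e0, -⟩ <;> simp [e0, hd0, u₀_zero, u₀_one]
  · rcases h01 with ⟨-, e1⟩ | ⟨-, e1⟩ <;> simp [e1, hd1, u₀_zero, u₀_one]
  · have hne : σ (e4 j) ≠ 0 ∧ σ (e4 j) ≠ 1 := by
      have hj := e4_ne j
      rcases h01 with ⟨e0, e1⟩ | ⟨e0, e1⟩ <;> constructor <;> intro e
      · exact hj.1 (σ.injective (e.trans e0.symm))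
      · exact hj.2 (σ.injective (e.trans e1.symm))
      · exact hj.2 (σ.injective (e.trans e1.symm))
      · exact hj.1 (σ.injective (e.trans e0.symm))
    rcases cases_six (σ (e4 j)) with e | e | ⟨k, e⟩
    · exact absurd e hne.1
    · exact absurd e hne.2
    · rw [e, u₀_e4, u₀_e4, mul_zero]

theorem card_pairs : Nat.card {σ : Equiv.Perm (Fin 6) //
    Equiv.Perm.sign σ = 1 ∧ ((σ 0 = 0 ∧ σ 1 = 1) ∨ (σ 0 = 1 ∧ σ 1 = 0))} = 24 := by
  rw [Nat.card_eq_fintype_card]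
  decide +kernel

theorem card_coefs : Nat.card {v : W6 // pr v = 1 ∧ v 0 = 1 ∧ v 1 = 1} = 27 := by
  rw [← show Nat.card {v : W6 // (pr v == 1 && v 0 == 1 && v 1 == 1) = true} =
      Nat.card {v : W6 // pr v = 1 ∧ v 0 = 1 ∧ v 1 = 1} from
    Nat.card_congr (Equiv.subtypeEquivRight fun v => by simp [and_assoc]), card_eq_count]
  decide +kernel

theorem card_monoStab (hm : HasMonomial L ψ) : Nat.card (monoStab L ψ) = 648 := by
  haveI : Finite (V ≃ₗ[K4] V) := finite_equiv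
  rw [show (648 : ℕ) = 24 * 27 from rfl, ← card_pairs, ← card_coefs, ← Nat.card_prod]
  have hex : ∀ x : {σ : Equiv.Perm (Fin 6) //
      Equiv.Perm.sign σ = 1 ∧ ((σ 0 = 0 ∧ σ 1 = 1) ∨ (σ 0 = 1 ∧ σ 1 = 0))} ×
      {v : W6 // pr v = 1 ∧ v 0 = 1 ∧ v 1 = 1}, ∃ g : monoStab L ψ, IsMono ψ ((g : L) : V ≃ₗ[K4] V) x.1.1 x.2.1 := by
    rintro ⟨⟨σ, hs, h01⟩, ⟨d, hd, hd0, hd1⟩⟩
    rw [pr_eq_prod] at hd
    obtain ⟨g, hg, hgv⟩ := hm σ (Equiv.Perm.mem_alternatingGroup.2 hs) d hd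
    exact ⟨⟨⟨g, hg⟩, σ, d, hs, h01, ⟨hd, hd0, hd1⟩, hgv⟩, hgv⟩
  choose g hg using hex
  refine (Nat.card_eq_of_bijective g ⟨fun a b e => ?_, ?_⟩).symm
  · obtain ⟨e1, e2⟩ := (hg a).unique (e ▸ hg b)
    exact Prod.ext (Subtype.ext e1) (Subtype.ext e2)
  · rintro ⟨y, σ, d, hs, h01, ⟨hd, hd0, hd1⟩, hy⟩
    exact ⟨(⟨σ, hs, h01⟩, ⟨d, (pr_eq_prod d).trans hd, hd0, hd1⟩),
      Subtype.ext (Subtype.ext ((hg _).eq hy))⟩

/-- The stabiliser is `SU₄(2)`. -/
theorem nonempty_baseStab (c : Cover L f h) (hψ : Ortho h ψ) (hm : HasMonomial L ψ)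
    (hcard : Nat.card (baseStab L ψ) = 25920) :
    Nonempty (baseStab L ψ ≃* Cfsg.SU 4 K4 2) := by
  haveI : Finite (V ≃ₗ[K4] V) := finite_equiv
  haveI : Fact (Nat.Prime 5) := ⟨by norm_num⟩
  set A := toSU c hψ
  haveI := isSimple_su4 (F := K4) K4.card_fintype
  have hsu := natCard_su4 (F := K4) K4.card_fintype
  have h1 := A.ker.card_mul_index
  rw [Subgroup.index_ker, hcard] at h1
  have hker5 : ¬ 5 ∣ Nat.card A.ker := fun hd => by
    obtain ⟨y, hy⟩ := exists_prime_orderOf_dvd_card' (G := A.ker) 5 hd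
    have h5 : (y : baseStab L ψ) ^ 5 = 1 := by
      rw [← hy, ← Subgroup.coe_pow, pow_orderOf_eq_one]; rfl
    have := no_five c hψ y.2 h5
    rw [show y = 1 from Subtype.ext this, orderOf_one] at hy
    norm_num at hy
  have hd5 : 5 ∣ Nat.card A.range :=
    ((Nat.Prime.dvd_mul (by norm_num)).1 (h1 ▸ (by norm_num : 5 ∣ 25920))).resolve_left hker5
  let ι : monoStab L ψ →* A.range := A.rangeRestrict.comp (Subgroup.inclusion monoStab_le)
  have hι : Function.Injective ι := by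
    rw [injective_iff_map_eq_one]
    rintro ⟨y, σ, d, hs, h01, ⟨hd, hd0, hd1⟩, hy⟩ e
    have e' : A ⟨y, monoStab_le ⟨σ, d, hs, h01, ⟨hd, hd0, hd1⟩, hy⟩⟩ = 1 := congrArg Subtype.val e
    obtain ⟨a, ha, hb⟩ := toSU_eq_one c hψ e'
    have hblk : ∀ j, σ (e4 j) = e4 j ∧ d (e4 j) = a := by
      intro j
      have e1 := congrFun (congrArg (fun A : Matrix (Fin 4) (Fin 4) K4 => A *ᵥ Pi.single j 1) hb) j
      dsimp only at e1
      rw [Matrix.smul_mulVec, Matrix.one_mulVec, Pi.smul_apply, Pi.single_eq_same, smul_eq_mul, mul_one,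
        block_mulVec] at e1
      dsimp only at e1
      rw [hy] at e1
      obtain ⟨a0, a1, a2⟩ := emb_coord (ψ := ψ) (Pi.single j (1 : K4))
      rcases cases_six (σ (e4 j)) with es | es | ⟨k, es⟩
      · rw [es, a0, mul_zero] at e1; exact absurd e1.symm ha
      · rw [es, a1, mul_zero] at e1; exact absurd e1.symm ha
      · rw [es, a2] at e1
        by_cases hk : k = j
        · subst hk
          rw [Pi.single_eq_same, mul_one] at e1
          exact ⟨es, e1⟩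
        · rw [Pi.single_eq_of_ne hk, mul_zero] at e1
          exact absurd e1.symm ha
    have hσ : σ = 1 := by
      rcases h01 with ⟨e0, e1⟩ | ⟨e0, e1⟩
      · refine Equiv.ext fun i => ?_
        rcases cases_six i with rfl | rfl | ⟨j, rfl⟩
        exacts [e0, e1, (hblk j).1]
      · exfalso
        have : σ = Equiv.swap 0 1 := Equiv.ext fun i => by
          rcases cases_six i with rfl | rfl | ⟨j, rfl⟩
          · rw [e0, Equiv.swap_apply_left]
          · rw [e1, Equiv.swap_apply_right]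
          · rw [(hblk j).1, Equiv.swap_apply_of_ne_of_ne (e4_ne j).1 (e4_ne j).2]
        rw [this, Equiv.Perm.sign_swap (by decide)] at hs
        exact absurd hs (by decide)
    have ha1 : a = 1 := by
      rw [Fin.prod_univ_six, hd0, hd1] at hd
      rw [show d 2 = a from (hblk 0).2, show d 3 = a from (hblk 1).2, show d 4 = a from (hblk 2).2,
        show d 5 = a from (hblk 3).2] at hd
      have hh : ∀ a : K4, 1 * 1 * a * a * a * a = 1 → a = 1 := by decide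
      exact hh a hd
    apply Subtype.ext
    apply Subtype.ext
    refine hy.eq ?_
    intro v i
    rw [hσ]
    have hdi : d i = 1 := by
      rcases cases_six i with rfl | rfl | ⟨j, rfl⟩
      exacts [hd0, hd1, (hblk j).2.trans ha1]
    rw [hdi, one_mul]; rfl
  have hd648 : 648 ∣ Nat.card A.range := card_monoStab hm ▸ Subgroup.card_dvd_of_injective ι hι
  have hd3240 : 3240 ∣ Nat.card A.range := Nat.Coprime.mul_dvd_of_dvd_of_dvd (by norm_num : Nat.Coprime 648 5) hd648 hd5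
  have htop : A.range = ⊤ := by
    by_contra hne
    have hidx : A.range.index ∣ 8 := by
      have := A.range.card_mul_index
      rw [hsu] at this
      obtain ⟨k, hk⟩ := hd3240
      rw [hk] at this
      exact ⟨k, by rw [mul_comm]; exact Nat.eq_of_mul_eq_mul_left (by norm_num : 0 < 3240) (by rw [← mul_assoc, this])⟩
    let ρ := MulAction.toPermHom (Cfsg.SU 4 K4 2) (Cfsg.SU 4 K4 2 ⧸ A.range)
    rcases ρ.normal_ker.eq_bot_or_eq_top with hb | ht
    · have := Subgroup.card_dvd_of_injective ρ ((MonoidHom.ker_eq_bot_iff _).1 hb)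
      rw [hsu, Nat.card_perm] at this
      have h8 : A.range.index ≤ 8 := Nat.le_of_dvd (by norm_num) hidx
      have h2 := this.trans (Nat.factorial_dvd_factorial h8)
      norm_num [Nat.factorial] at h2
    · refine hne (eq_top_iff.2 fun x _ => ?_)
      have hx : x ∈ ρ.ker := ht ▸ Subgroup.mem_top x
      have := Equiv.ext_iff.1 (MonoidHom.mem_ker.1 hx) ((1 : Cfsg.SU 4 K4 2) : Cfsg.SU 4 K4 2 ⧸ A.range)
      simpa [ρ, QuotientGroup.eq] using this
  have hsurj : Function.Surjective A := MonoidHom.range_eq_top.1 htop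
  exact ⟨MulEquiv.ofBijective A ((Nat.bijective_iff_surjective_and_card A).2 ⟨hsurj, by rw [hcard, hsu]⟩)⟩

end CfsgLib.FischerLarge
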