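import Cfsg.Agent.Lib.FischerLarge.Outer
import Cfsg.Agent.Lib.FischerLarge.StabUnitary
import Cfsg.Agent.Lib.Fischer.OrthSixMinusAut

/-!
FischerLarge: in `H/Q` the stabiliser of a vector of the short orbit is `O⁻₆(2)`.
-/

set_option autoImplicit false
set_option linter.style.haveILetI false
set_option linter.unusedSectionVars false

namespace CfsgLib.FischerLarge

open scoped Classical
open Cfsg CfsgLib.Fischer.UnitaryPoint

universe u

variable {G : Type u} [Group G] [Finite G] {z : G} {P : Type} [Group P] [Finite P] {E S : Subgroup P}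
variable {Q M : Subgroup (Cz z)} [hQn : Q.Normal] {V : Type u} [AddCommGroup V] [Module K4 V] [Finite V]
variable {L : Subgroup (V ≃ₗ[K4] V)} {f : L →* P} {h : V → V → K4} {π : Cz z → V}
variable (F : Frame Q M L f h π)
include F

/-- A frame in which a given vector of the short orbit is the base vector. -/
theorem Frame.exists_base_frame (hP : Para E S) {v : V} (hv : v ≠ 0) (hvi : h v v = 0)
    (h378 : (orb L v).ncard = 378) :
    ∃ ψ : V ≃ₗ[K4] (Fin 6 → K4), Ortho h ψ ∧ HasMonomial L ψ ∧ base ψ = v := by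
  obtain ⟨ψ, hψ, hm⟩ := F.cover.exists_monomial hP
  obtain ⟨a, b, -, -, hca, -, -, -, hcb, -, hcov, -, h2⟩ := F.cover.exists_orbits_frame hψ hm F.cardL
  have hwt : wt (ψ (base ψ)) = 2 := by
    rw [base, LinearEquiv.apply_symm_apply]; decide +kernel
  have hmem : base ψ ∈ orb L v := by
    rcases hcov v hv hvi with hm' | hm'
    · rw [orb_eq_of_mem hm']; exact h2 _ hwt
    · rw [orb_eq_of_mem hm', hcb] at h378; norm_num at h378
  obtain ⟨g, hg, hgv⟩ := hmem
  refine ⟨g.trans ψ, ⟨fun x y => ?_⟩, ?_, ?_⟩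
  · rw [← F.cover.pres ⟨g, hg⟩ x y, hψ.form]; rfl
  · intro σ hσ d hd
    obtain ⟨k, hk, hkv⟩ := hm σ hσ d hd
    refine ⟨g⁻¹ * k * g, L.mul_mem (L.mul_mem (L.inv_mem hg) hk) hg, fun w i => ?_⟩
    show ψ (g (g.symm (k (g w)))) i = _
    rw [LinearEquiv.apply_symm_apply, hkv]; rfl
  · show g.symm (ψ.symm _) = v
    rw [LinearEquiv.symm_apply_eq]; exact hgv.symm

/-- The image of the stabiliser is `O⁻₆(2)`. -/
theorem Frame.nonempty_stab_iso [hMn : M.Normal] (hP : Para E S) (hQM : Q ≤ M) (hidx : M.index = 2)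
    (hF : IsOfLargeFischerTypeAt z Q) {t : Cz z} (ht : t ∈ Q) (ht0 : π t ≠ 0) (hti : h (π t) (π t) = 0)
    (h378 : (orb L (π t)).ncard = 378) (St : Subgroup (Cz z))
    (hSt : ∀ c : Cz z, c ∈ St ↔ π (c * t * c⁻¹) = π t) :
    Nonempty (↥(St.map (QuotientGroup.mk' Q)) ≃*
      Cfsg.isometryGroup (ZMod 2) (Cfsg.quadFormMinus 2 (ZMod 2) 1 1)) := by
  haveI : Finite (V ≃ₗ[K4] V) := finite_equiv
  obtain ⟨ψ, hψ, hm, hbase⟩ := F.exists_base_frame hP ht0 hti h378
  -- the linear part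
  have hcardB : Nat.card (baseStab L ψ) = 25920 := by
    have h1 := F.card_stab_mul (π t)
    rw [h378] at h1
    have e : baseStab L ψ = MulAction.stabilizer L (π t) := by
      ext g
      show (g : V ≃ₗ[K4] V) (base ψ) = base ψ ↔ (g : V ≃ₗ[K4] V) (π t) = π t
      rw [hbase]
    rw [e]; omega
  obtain ⟨eB⟩ := nonempty_baseStab F.cover hψ hm hcardB
  obtain ⟨φ, hsurj, hker, hφ⟩ := F.exists_hom hQM
  let St0 : Subgroup M := St.comap M.subtype
  have hmemB : ∀ m : M, (m : Cz z) ∈ St ↔ φ m ∈ baseStab L ψ := fun m => by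
    rw [hSt]
    show _ ↔ (φ m : V ≃ₗ[K4] V) (base ψ) = base ψ
    rw [hbase, hφ m t ht]
  let χ : St0 →* baseStab L ψ := MonoidHom.codRestrict (φ.comp St0.subtype) _ fun m => (hmemB m).1 m.2
  have hχ : Function.Surjective χ := by
    rintro ⟨g, hg⟩
    obtain ⟨m, rfl⟩ := hsurj g
    exact ⟨⟨m, (hmemB m).2 hg⟩, rfl⟩
  let ξ : St0 →* Cz z ⧸ Q := (QuotientGroup.mk' Q).comp (M.subtype.comp St0.subtype)
  have hk : ξ.ker = χ.ker := by
    ext k
    rw [MonoidHom.mem_ker, MonoidHom.mem_ker]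
    show ((((k : M) : Cz z)) : Cz z ⧸ Q) = 1 ↔ _
    rw [QuotientGroup.eq_one_iff, ← hker]
    exact ⟨fun e => Subtype.ext e, fun e => congrArg Subtype.val e⟩
  set S1 := (M ⊓ St).map (QuotientGroup.mk' Q) with hS1
  set Sb := St.map (QuotientGroup.mk' Q) with hSb
  have hS1e : S1 = ξ.range := by
    ext y
    constructor
    · rintro ⟨m, ⟨hm', hms⟩, rfl⟩; exact ⟨⟨⟨m, hm'⟩, hms⟩, rfl⟩
    · rintro ⟨k, rfl⟩; exact ⟨((k : M) : Cz z), ⟨(k : M).2, k.2⟩, rfl⟩
  let e1 : S1 ≃* Cfsg.SU 4 K4 2 := (MulEquiv.subgroupCongr hS1e).trans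
    ((((QuotientGroup.quotientKerEquivRange ξ).symm.trans
      (QuotientGroup.quotientMulEquivOfEq hk)).trans (QuotientGroup.quotientKerEquivOfSurjective χ hχ)).trans eB)
  have hcard1 : Nat.card S1 = 25920 :=
    (Nat.card_congr e1.toEquiv).trans (natCard_su4 (F := K4) K4.card_fintype)
  -- an element outside `M`
  obtain ⟨c0, hc0⟩ : ∃ c : Cz z, c ∉ M := by
    by_contra hno
    push Not at hno
    rw [(Subgroup.eq_top_iff' M).2 hno, Subgroup.index_top] at hidx
    norm_num at hidx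
  obtain ⟨c, hcS, hcM⟩ : ∃ c, c ∈ St ∧ c ∉ M := by
    have hti' : h (π (c0 * t * c0⁻¹)) (π (c0 * t * c0⁻¹)) = 0 := by
      rw [F.sq _ (hQn.conj_mem t ht c0), show c0 * t * c0⁻¹ * (c0 * t * c0⁻¹) = c0 * (t * t) * c0⁻¹ by group,
        (F.sq t ht).1 hti]
      group
    have hn : (orb L (π (c0 * t * c0⁻¹))).ncard = 378 := (F.ncard_orb_conj ht c0).trans h378
    have h0' : π (c0 * t * c0⁻¹) ≠ 0 := fun e => by
      obtain ⟨e', he', -⟩ := F.semi c0
      rw [he' t ht, AddEquiv.map_eq_zero_iff] at e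
      exact ht0 e
    obtain ⟨ψ₂, hψ₂, hm₂, hb₂⟩ := F.exists_base_frame hP h0' hti' hn
    obtain ⟨a, b, -, -, hca, -, -, -, hcb, -, hcov, -, -⟩ := F.cover.exists_orbits_frame hψ hm F.cardL
    have key : ∀ v, v ≠ 0 → h v v = 0 → (orb L v).ncard = 378 → orb L v = orb L a := by
      intro v hv hvi hn'
      rcases hcov v hv hvi with h' | h'
      · exact orb_eq_of_mem h'
      · rw [orb_eq_of_mem h', hcb] at hn'; norm_num at hn'
    obtain ⟨g, hg, hgv⟩ : π t ∈ orb L (π (c0 * t * c0⁻¹)) := by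
      rw [key _ h0' hti' hn, ← key _ ht0 hti h378]; exact orb_refl _
    obtain ⟨m, hm', hmg⟩ := F.ofL g hg
    refine ⟨m * c0, (hSt _).2 ?_, fun hmc => hc0 (by simpa using mul_mem (inv_mem hm') hmc)⟩
    rw [show m * c0 * t * (m * c0)⁻¹ = m * (c0 * t * c0⁻¹) * m⁻¹ by group, hmg _ (hQn.conj_mem t ht c0)]
    exact hgv
  have hQS : Q ≤ St := fun q hq => (hSt q).2 (F.map_conj_eq hq ht)
  have hcardS : Nat.card Sb = 51840 := by
    rw [hSb, ← Subgroup.relIndex_ker, QuotientGroup.ker_mk',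
      ← Subgroup.relIndex_mul_relIndex Q (M ⊓ St) St (le_inf hQM hQS) inf_le_right]
    have h1 : Q.relIndex (M ⊓ St) = 25920 := by
      rw [← hcard1, hS1, ← Subgroup.relIndex_ker, QuotientGroup.ker_mk']
    have h2 : (M ⊓ St).relIndex St = 2 := by
      have hd : (M ⊓ St).relIndex St ∣ 2 := by
        rw [Subgroup.inf_relIndex_right, ← hidx]
        exact Subgroup.relIndex_dvd_index_of_normal (H := M) (K := St)
      rcases (Nat.dvd_prime Nat.prime_two).1 hd with e | e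
      · exact absurd ((Subgroup.relIndex_eq_one.1 e) hcS).1 hcM
      · exact e
    rw [h1, h2]
  have hS1le : S1 ≤ Sb := Subgroup.map_mono inf_le_right
  have hnorm : ∀ x ∈ Sb, ∀ y ∈ S1, x * y * x⁻¹ ∈ S1 := by
    rintro _ ⟨a, ha, rfl⟩ _ ⟨b, ⟨hbM, hbS⟩, rfl⟩
    exact ⟨a * b * a⁻¹, ⟨hMn.conj_mem b hbM a, St.mul_mem (St.mul_mem ha hbS) (St.inv_mem ha)⟩, by simp⟩
  set O1 := S1.subgroupOf Sb
  haveI hO1 : O1.Normal := ⟨fun y hy x => Subgroup.mem_subgroupOf.2 (hnorm _ x.2 _ (Subgroup.mem_subgroupOf.1 hy))⟩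
  let eO : O1 ≃* Cfsg.SU 4 K4 2 := (Subgroup.subgroupOfEquivOfLe hS1le).trans e1
  let Φ : Sb →* MulAut O1 := MulAut.conjNormal
  have hinj : Function.Injective Φ := by
    rw [injective_iff_map_eq_one]
    intro x hx
    have hcomm : ∀ y : O1, (x : Cz z ⧸ Q) * ((y : Sb) : Cz z ⧸ Q) = ((y : Sb) : Cz z ⧸ Q) * x := fun y => by
      have := congrArg (fun φ : MulAut O1 => (((φ y : O1) : Sb) : Cz z ⧸ Q)) hx
      simp only [Φ, MulAut.conjNormal_apply, MulAut.one_apply, Subgroup.coe_mul, Subgroup.coe_inv] at this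
      exact mul_inv_eq_iff_eq_mul.1 this
    by_cases hxO : x ∈ O1
    · have hc' : (⟨x, hxO⟩ : O1) ∈ Subgroup.center O1 :=
        Subgroup.mem_center_iff.2 fun y => Subtype.ext (Subtype.ext (hcomm y).symm)
      have h2 : eO ⟨x, hxO⟩ ∈ Subgroup.center (Cfsg.SU 4 K4 2) :=
        Fischer2.map_center_equiv eO ▸ ⟨_, hc', rfl⟩
      rw [center_su4 (F := K4) K4.card_fintype, Subgroup.mem_bot, MulEquiv.map_eq_one_iff] at h2
      exact congrArg Subtype.val h2
    exfalso
    obtain ⟨d, hd, hdx⟩ := x.2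
    have hdM : d ∉ M := fun hdM => hxO (Subgroup.mem_subgroupOf.2 ⟨d, ⟨hdM, hd⟩, hdx⟩)
    obtain ⟨e, he, hes⟩ := F.semilinear hP hQM hidx hF hdM
    -- a diagonal element whose eigenvalue `ω²` occurs once
    have hdiag : ∀ i j : Fin 4, i ≠ j → ∀ y : V, (∀ g : L, g ∈ baseStab L ψ → ∀ (a : K4) w,
        (g : V ≃ₗ[K4] V) w = a • w → e w = y → (g : V ≃ₗ[K4] V) y = K4.conj a • y) →
        y = e (ψ.symm (Pi.single (e4 i) 1)) → ∀ k, k ≠ e4 j → ψ y k = 0 := by
      intro i j hij y hy hye k hk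
      let dd : Fin 6 → K4 := fun m => if m = e4 i then .om else if m = e4 j then .om2 else 1
      have hne : e4 i ≠ e4 j := fun e' => hij ((e4_iff i j).1 e')
      have hdd : ∏ m, dd m = 1 := by
        rw [← Finset.prod_subset (Finset.subset_univ ({e4 i, e4 j} : Finset (Fin 6))) (fun m _ hm' => by
          simp only [Finset.mem_insert, Finset.mem_singleton, not_or] at hm'
          simp [dd, hm'.1, hm'.2]), Finset.prod_pair hne]
        simp only [dd, if_true, if_neg hne.symm]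
        decide
      obtain ⟨g, hg, hgv⟩ := hm 1 (one_mem _) dd hdd
      have hgB : (⟨g, hg⟩ : L) ∈ baseStab L ψ := monoStab_le ⟨1, dd, by simp, by simp, ⟨hdd,
        by simp [dd, (e4_ne i).1.symm, (e4_ne j).1.symm], by simp [dd, (e4_ne i).2.symm, (e4_ne j).2.symm]⟩, hgv⟩
      have h1 : g (ψ.symm (Pi.single (e4 i) 1)) = (K4.om : K4) • ψ.symm (Pi.single (e4 i) 1) := by
        apply ψ.injective
        funext m
        rw [hgv, map_smul, LinearEquiv.apply_symm_apply, Equiv.Perm.one_apply, Pi.smul_apply, smul_eq_mul]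
        by_cases hm' : m = e4 i
        · rw [hm']; simp [dd]
        · rw [Pi.single_eq_of_ne hm', mul_zero, mul_zero]
      have h2 := congrFun (congrArg ψ (hy _ hgB _ _ h1 hye.symm)) k
      change ψ (g y) k = _ at h2
      rw [hgv, map_smul, Pi.smul_apply, smul_eq_mul, Equiv.Perm.one_apply] at h2
      by_contra hyk
      have h3 := mul_right_cancel₀ hyk h2
      by_cases hki : k = e4 i
      · rw [hki] at h3
        simp only [dd, if_true] at h3
        exact absurd h3 (by decide)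
      · simp only [dd, if_neg hki, if_neg hk] at h3
        exact absurd h3 (by decide)
    set y := e (ψ.symm (Pi.single (e4 0) 1)) with hy
    have hcommE : ∀ g : L, g ∈ baseStab L ψ → ∀ (a : K4) w,
        (g : V ≃ₗ[K4] V) w = a • w → e w = y → (g : V ≃ₗ[K4] V) y = K4.conj a • y := by
      intro g hg a w hw hwy
      obtain ⟨m, hm'⟩ := hsurj g
      have hmS : (m : Cz z) ∈ St := (hmemB m).2 (hm' ▸ hg)
      have hmO : (⟨QuotientGroup.mk' Q (m : Cz z), ⟨_, hmS, rfl⟩⟩ : Sb) ∈ O1 :=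
        Subgroup.mem_subgroupOf.2 ⟨(m : Cz z), ⟨m.2, hmS⟩, rfl⟩
      have hq : QuotientGroup.mk' Q (d * (m : Cz z)) = QuotientGroup.mk' Q ((m : Cz z) * d) := by
        rw [_root_.map_mul, _root_.map_mul, hdx]
        exact hcomm ⟨_, hmO⟩
      have hdiff : (d * (m : Cz z))⁻¹ * ((m : Cz z) * d) ∈ Q := (QuotientGroup.eq).1 hq
      obtain ⟨b, hb, rfl⟩ := F.surj w
      have hswap : π (d * ((m : Cz z) * b * (m : Cz z)⁻¹) * d⁻¹) =
          π ((m : Cz z) * (d * b * d⁻¹) * (m : Cz z)⁻¹) := by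
        obtain ⟨e', he', -⟩ := F.semi (d * (m : Cz z))
        rw [show d * ((m : Cz z) * b * (m : Cz z)⁻¹) * d⁻¹ = (d * (m : Cz z)) * b * (d * (m : Cz z))⁻¹ by group,
          he' b hb, ← F.map_conj_eq hdiff hb, ← he' _ (hQn.conj_mem b hb _)]
        congr 1; group
      rw [he _ (hQn.conj_mem b hb _), hφ m b hb, hm', hw, hes, hwy,
        hφ m _ (hQn.conj_mem b hb d), hm', he b hb, hwy] at hswap
      exact hswap.symm
    have hA := hdiag 0 1 (by decide) y hcommE rfl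
    have hB := hdiag 0 2 (by decide) y hcommE rfl
    have hy0 : y = 0 := ψ.injective (by
      rw [_root_.map_zero]
      funext k
      by_cases hk : k = e4 1
      · rw [hk]; exact hB _ (fun e' => absurd ((e4_iff 1 2).1 e') (by decide))
      · exact hA k hk)
    rw [hy, AddEquiv.map_eq_zero_iff, LinearEquiv.map_eq_zero_iff] at hy0
    exact one_ne_zero (α := K4) (by have := congrFun hy0 (e4 0); rwa [Pi.single_eq_same] at this)
  let eP : O1 ≃* Cfsg.PSU 4 K4 2 := eO.trans (psuEquiv (F := K4) K4.card_fintype).symm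
  obtain ⟨eA⟩ := Fischer.OrthSixMinusAut.nonempty_equiv (F := K4) K4.card_fintype
  haveI : Fact (Nat.Prime 2) := ⟨Nat.prime_two⟩
  have hAut : Nat.card (MulAut O1) = 51840 := by
    rw [Nat.card_congr (MulAut.congr eP).toEquiv,
      Cfsg.Agent.S0815.result (F := K4) 2 1 le_rfl (q := 2) (by norm_num) (by rw [K4.card_fintype]; norm_num) 4
        (by norm_num) (by norm_num), natCard_psu4 (F := K4) K4.card_fintype]
    norm_num
  exact ⟨((MulEquiv.ofBijective Φ (hinj.bijective_of_nat_card_le (by rw [hAut, hcardS]))).trans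
    (MulAut.congr eP)).trans eA⟩

end CfsgLib.FischerLarge
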