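import Cfsg.Agent.Lib.FischerLarge.FourField

/-!
FischerLarge: weight decomposition of a module over the field with four elements under an abelian
group of exponent three.
-/

set_option autoImplicit false
set_option linter.unusedSectionVars false
set_option linter.style.haveILetI false

namespace CfsgLib.FischerLarge

open scoped Classical

instance : HasEnoughRootsOfUnity K4 3 where
  prim := ⟨.om, by
    rw [IsPrimitiveRoot.iff_def]
    refine ⟨by decide, fun l hl => ?_⟩
    have h3 : (K4.om : K4) ^ 3 = 1 := by decide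
    rw [← Nat.div_add_mod l 3, pow_add, pow_mul, h3, one_pow, one_mul] at hl
    have hlt := Nat.mod_lt l (show 3 > 0 by norm_num)
    rw [Nat.dvd_iff_mod_eq_zero]
    revert hl hlt
    generalize l % 3 = m
    intro hl hlt
    interval_cases m
    · rfl
    · exact absurd hl (by decide)
    · exact absurd hl (by decide)⟩
  cyc := inferInstance

variable {V : Type*} [AddCommGroup V] [Module K4 V] [Finite V]
variable {E : Type*} [CommGroup E] [Finite E]

/-- The space of a weight. -/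
def wSpace (ρ : E →* Module.End K4 V) (χ : E →* K4ˣ) : Submodule K4 V where
  carrier := {v | ∀ e, ρ e v = (χ e : K4) • v}
  zero_mem' := fun e => by simp
  add_mem' {u v} hu hv := fun e => by rw [map_add, hu e, hv e, smul_add]
  smul_mem' c v hv := fun e => by rw [map_smul, hv e, smul_comm]

/-- The projection to the space of a weight. -/
noncomputable def wProj (ρ : E →* Module.End K4 V) (χ : E →* K4ˣ) : Module.End K4 V :=
  letI := Fintype.ofFinite E
  ∑ e : E, ((χ e⁻¹ : K4ˣ) : K4) • ρ e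

/-- The exponent is three. -/
def IsThree (E : Type*) [Monoid E] : Prop := ∀ e : E, e ^ 3 = 1

theorem odd_card_of_three {A : Type*} [Group A] [Finite A] (hA : IsThree A) : Odd (Nat.card A) := by
  rw [← Nat.not_even_iff_odd, even_iff_two_dvd]
  intro h
  haveI : Fact (Nat.Prime 2) := ⟨Nat.prime_two⟩
  obtain ⟨a, ha⟩ := exists_prime_orderOf_dvd_card' 2 h
  have := orderOf_dvd_of_pow_eq_one (hA a)
  rw [ha] at this
  norm_num at this

theorem isThree_dual : IsThree (E →* K4ˣ) := fun χ => by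
  ext e
  show ((((χ ^ 3) e : K4ˣ) : K4)) = 1
  rw [MonoidHom.pow_apply, K4.unit_cube, Units.val_one]

theorem natCast_odd_K4 {n : ℕ} (h : Odd n) : ((n : ℕ) : K4) = 1 := by
  obtain ⟨k, rfl⟩ := h
  rw [Nat.cast_add, Nat.cast_mul, Nat.cast_ofNat, K4.two_eq_zero, zero_mul, zero_add, Nat.cast_one]

theorem exists_weight_ne_one (h3 : IsThree E) {e : E} (he : e ≠ 1) :
    ∃ χ : E →* K4ˣ, χ e ≠ 1 := by
  have hd : Monoid.exponent E ∣ 3 := Monoid.exponent_dvd_of_forall_pow_eq_one h3
  haveI : HasEnoughRootsOfUnity K4 (Monoid.exponent E) := HasEnoughRootsOfUnity.of_dvd K4 hd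
  exact CommGroup.exists_apply_ne_one_of_hasEnoughRootsOfUnity E K4 he

theorem sum_weight_eq_zero [Fintype E] {χ : E →* K4ˣ} (hχ : χ ≠ 1) :
    ∑ e : E, ((χ e : K4ˣ) : K4) = 0 := by
  obtain ⟨f, hf⟩ : ∃ f, χ f ≠ 1 := by
    by_contra h
    push Not at h
    exact hχ (MonoidHom.ext h)
  have h : ((χ f : K4ˣ) : K4) * ∑ e : E, ((χ e : K4ˣ) : K4) = ∑ e : E, ((χ e : K4ˣ) : K4) := by
    rw [Finset.mul_sum]
    refine Fintype.sum_equiv (Equiv.mulLeft f) _ _ fun e => ?_
    rw [Equiv.coe_mulLeft, map_mul, Units.val_mul]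
  by_contra hne
  exact hf (Units.ext (mul_eq_right₀ hne |>.1 h))

variable (ρ : E →* Module.End K4 V)

theorem mem_wSpace {χ : E →* K4ˣ} {v : V} : v ∈ wSpace ρ χ ↔ ∀ e, ρ e v = (χ e : K4) • v := Iff.rfl

theorem wProj_mem (χ : E →* K4ˣ) (v : V) : wProj ρ χ v ∈ wSpace ρ χ := by
  letI := Fintype.ofFinite E
  intro f
  simp only [wProj, LinearMap.sum_apply, LinearMap.smul_apply, map_sum, map_smul, Finset.smul_sum,
    smul_smul]
  refine Fintype.sum_equiv (Equiv.mulLeft f) _ _ fun e => ?_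
  rw [Equiv.coe_mulLeft, ← Units.val_mul, ← map_mul, mul_inv_rev, mul_left_comm, mul_inv_cancel,
    mul_one, map_mul, Module.End.mul_apply]

theorem wProj_apply_self (h3 : IsThree E) {χ : E →* K4ˣ} {v : V} (hv : v ∈ wSpace ρ χ) :
    wProj ρ χ v = v := by
  letI := Fintype.ofFinite E
  simp only [wProj, LinearMap.sum_apply, LinearMap.smul_apply, hv _, smul_smul]
  have : ∀ e : E, ((χ e⁻¹ : K4ˣ) : K4) * (χ e : K4) = 1 := fun e => by
    rw [← Units.val_mul, ← map_mul, inv_mul_cancel, map_one, Units.val_one]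
  simp only [this, one_smul, Finset.sum_const, Finset.card_univ, ← Nat.card_eq_fintype_card]
  rw [← Nat.cast_smul_eq_nsmul K4, natCast_odd_K4 (odd_card_of_three h3), one_smul]

theorem wProj_apply_ne {χ ψ : E →* K4ˣ} (hne : χ ≠ ψ) {v : V} (hv : v ∈ wSpace ρ χ) :
    wProj ρ ψ v = 0 := by
  letI := Fintype.ofFinite E
  simp only [wProj, LinearMap.sum_apply, LinearMap.smul_apply, hv _, smul_smul, ← Finset.sum_smul]
  have h := sum_weight_eq_zero (E := E) (χ := χ * ψ⁻¹) (fun e => hne (mul_inv_eq_one.1 e))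
  have : ∀ e : E, ((ψ e⁻¹ : K4ˣ) : K4) * (χ e : K4) = (((χ * ψ⁻¹) e : K4ˣ) : K4) := fun e => by
    rw [← Units.val_mul, MonoidHom.mul_apply, MonoidHom.inv_apply, map_inv, mul_comm]
  simp only [this, h, zero_smul]

theorem sum_wProj (h3 : IsThree E) [Fintype (E →* K4ˣ)] (v : V) :
    ∑ χ : E →* K4ˣ, wProj ρ χ v = v := by
  letI := Fintype.ofFinite E
  simp only [wProj, LinearMap.sum_apply, LinearMap.smul_apply]
  rw [Finset.sum_comm]
  simp only [← Finset.sum_smul]
  rw [Finset.sum_eq_single (1 : E)]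
  · simp only [inv_one, map_one, Units.val_one, Finset.sum_const, Finset.card_univ, nsmul_one,
      ← Nat.card_eq_fintype_card]
    rw [natCast_odd_K4 (odd_card_of_three isThree_dual)]
    simp
  · intro e _ he
    obtain ⟨θ, hθ⟩ := exists_weight_ne_one h3 (inv_ne_one.2 he)
    have h : ((θ e⁻¹ : K4ˣ) : K4) * ∑ χ : E →* K4ˣ, ((χ e⁻¹ : K4ˣ) : K4) =
        ∑ χ : E →* K4ˣ, ((χ e⁻¹ : K4ˣ) : K4) := by
      rw [Finset.mul_sum]
      refine Fintype.sum_equiv (Equiv.mulLeft θ) _ _ fun χ => ?_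
      rw [Equiv.coe_mulLeft, MonoidHom.mul_apply, Units.val_mul]
    by_cases hz : ∑ χ : E →* K4ˣ, ((χ e⁻¹ : K4ˣ) : K4) = 0
    · rw [hz, zero_smul]
    · exact absurd (Units.ext (mul_eq_right₀ hz |>.1 h)) hθ
  · intro h; exact absurd (Finset.mem_univ _) h

/-- The set of weights. -/
def weights : Set (E →* K4ˣ) := {χ | wSpace ρ χ ≠ ⊥}

/-- The decomposition. -/
theorem exists_equiv (h3 : IsThree E) :
    Nonempty (V ≃ ((χ : weights ρ) → wSpace ρ χ.1)) := by
  letI := Fintype.ofFinite (E →* K4ˣ)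
  refine ⟨{
    toFun := fun v χ => ⟨wProj ρ χ.1 v, wProj_mem ρ _ v⟩
    invFun := fun f => ∑ χ : weights ρ, (f χ : V)
    left_inv := fun v => ?_
    right_inv := fun f => ?_ }⟩
  · dsimp only
    have hz : ∀ χ : E →* K4ˣ, χ ∉ weights ρ → wProj ρ χ v = 0 := fun χ hχ => by
      simp only [weights, Set.mem_ofPred_eq, not_not] at hχ
      have := wProj_mem ρ χ v
      rw [hχ, Submodule.mem_bot] at this
      exact this
    calc ∑ χ : weights ρ, wProj ρ χ.1 v
        = ∑ χ ∈ Finset.univ.filter (· ∈ weights ρ), wProj ρ χ v :=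
          (Finset.sum_subtype _ (by simp) fun χ => wProj ρ χ v).symm
      _ = ∑ χ : E →* K4ˣ, wProj ρ χ v :=
          Finset.sum_subset (Finset.subset_univ _) fun χ _ hχ => hz χ (by simpa using hχ)
      _ = v := sum_wProj ρ h3 v
  · funext χ
    apply Subtype.ext
    dsimp only
    rw [map_sum, Finset.sum_eq_single χ]
    · exact wProj_apply_self ρ h3 (f χ).2
    · intro ψ _ hψ
      exact wProj_apply_ne ρ (fun e => hψ (Subtype.ext e)) (f ψ).2
    · intro h; exact absurd (Finset.mem_univ _) h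

theorem four_le_card_wSpace {χ : E →* K4ˣ} (h : χ ∈ weights ρ) : 4 ≤ Nat.card (wSpace ρ χ) := by
  obtain ⟨v, hv, hv0⟩ := Submodule.exists_mem_ne_zero_of_ne_bot h
  rw [← K4.card_eq]
  refine Nat.card_le_card_of_injective (fun a => ⟨a • v, (wSpace ρ χ).smul_mem a hv⟩) fun a b e => ?_
  exact smul_left_injective K4 hv0 (congrArg Subtype.val e)

theorem eq_smul_of_card_four {χ : E →* K4ˣ} (h : Nat.card (wSpace ρ χ) = 4) {u v : V}
    (hu : u ∈ wSpace ρ χ) (hu0 : u ≠ 0) (hv : v ∈ wSpace ρ χ) : ∃ a : K4, v = a • u := by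
  have hb : Function.Bijective fun a : K4 =>
      (⟨a • u, (wSpace ρ χ).smul_mem a hu⟩ : wSpace ρ χ) := by
    rw [Nat.bijective_iff_injective_and_card]
    exact ⟨fun a b e => smul_left_injective K4 hu0 (congrArg Subtype.val e), by rw [K4.card_eq, h]⟩
  obtain ⟨a, ha⟩ := hb.2 ⟨v, hv⟩
  exact ⟨a, (congrArg Subtype.val ha).symm⟩

theorem card_eq_prod (h3 : IsThree E) [Fintype (weights ρ)] :
    Nat.card V = ∏ χ : weights ρ, Nat.card (wSpace ρ χ.1) := by
  obtain ⟨e⟩ := exists_equiv ρ h3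
  exact (Nat.card_congr e).trans Nat.card_pi

theorem four_pow_card (W : Set (E →* K4ˣ)) [Fintype W] :
    4 ^ Nat.card W = ∏ _χ : W, 4 := by
  rw [Finset.prod_const, Finset.card_univ, Nat.card_eq_fintype_card]

theorem pow_card_weights_le (h3 : IsThree E) : 4 ^ Nat.card (weights ρ) ≤ Nat.card V := by
  letI := Fintype.ofFinite (weights ρ)
  rw [card_eq_prod ρ h3, four_pow_card]
  exact Finset.prod_le_prod' fun χ _ => four_le_card_wSpace ρ χ.2

theorem card_wSpace_eq_four (h3 : IsThree E) (h : Nat.card V = 4 ^ Nat.card (weights ρ))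
    {χ : E →* K4ˣ} (hχ : χ ∈ weights ρ) : Nat.card (wSpace ρ χ) = 4 := by
  letI := Fintype.ofFinite (weights ρ)
  rw [card_eq_prod ρ h3, four_pow_card] at h
  refine le_antisymm ?_ (four_le_card_wSpace ρ hχ)
  by_contra hlt
  push Not at hlt
  have hlt' : ∏ _χ : weights ρ, 4 < ∏ χ : weights ρ, Nat.card (wSpace ρ χ.1) :=
    Finset.prod_lt_prod (fun _ _ => by norm_num) (fun ψ _ => four_le_card_wSpace ρ ψ.2)
      ⟨⟨χ, hχ⟩, Finset.mem_univ _, hlt⟩
  omega

theorem eq_zero_of_forall_weight (h3 : IsThree E) {v : V}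
    (h : ∀ χ ∈ weights ρ, wProj ρ χ v = 0) : v = 0 := by
  letI := Fintype.ofFinite (E →* K4ˣ)
  rw [← sum_wProj ρ h3 v]
  refine Finset.sum_eq_zero fun χ _ => ?_
  by_cases hχ : χ ∈ weights ρ
  · exact h χ hχ
  · simp only [weights, Set.mem_ofPred_eq, not_not] at hχ
    have := wProj_mem ρ χ v
    rw [hχ, Submodule.mem_bot] at this
    exact this

end CfsgLib.FischerLarge
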